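import Cfsg.Agent.MRel.StabH
import Cfsg.Agent.Golay.Table

/-!
Groups acting on bit vectors, evaluated in the kernel (owner: helper83).
-/

set_option autoImplicit false

namespace Cfsg.Agent.MRel.Bit2

open Cfsg.Agent.MulX.Coh Cfsg.Agent.MRel.Stab
open Cfsg.Agent.KMat (pws)

/-- forced product of a bit matrix (list of columns) with a bit vector -/
def appF : List ℕ → ℕ → ℕ → ℕ
  | [], _, acc => acc
  | c :: L, m, acc => Golay.fz (Nat.shiftRight m 1) fun m' => Golay.fz (Nat.xor (Nat.mul (Nat.land m 1) c) acc) fun a => appF L m' a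

theorem appF_cons (c : ℕ) (L : List ℕ) (m acc : ℕ) : appF (c :: L) m acc = appF L (m / 2) ((m % 2 * c) ^^^ acc) := by
  have h : appF (c :: L) m acc = Golay.fz (Nat.shiftRight m 1) fun m' =>
    Golay.fz (Nat.xor (Nat.mul (Nat.land m 1) c) acc) fun a => appF L m' a := rfl
  rw [h, Golay.fz_eq, Golay.fz_eq]
  have h1 : Nat.shiftRight m 1 = m / 2 := by
    show m >>> 1 = m / 2
    rw [Nat.shiftRight_eq_div_pow, pow_one]
  have h2 : Nat.land m 1 = m % 2 := Nat.and_one_is_mod m
  rw [h1, h2]
  rfl

/-- forced product of matrices -/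
def mulF (L : List ℕ) : List ℕ → List ℕ
  | [] => []
  | c :: M => Golay.fz (appF L c 0) fun c' => c' :: mulF L M

theorem mulF_cons (L : List ℕ) (c : ℕ) (M : List ℕ) : mulF L (c :: M) = appF L c 0 :: mulF L M := by
  have h : mulF L (c :: M) = Golay.fz (appF L c 0) fun c' => c' :: mulF L M := rfl
  rw [h, Golay.fz_eq]

/-- matrix of a word -/
def wF (I : List ℕ) (T : List (List ℕ)) : List ℕ → List ℕ
  | [] => I
  | i :: w => mulF (T.getD i I) (wF I T w)

/-- image of a vector -/
def vw (I : List ℕ) (T : List (List ℕ)) : List ℕ → ℕ → ℕ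
  | [], v => v
  | i :: w, v => Golay.fz (vw I T w v) fun x => appF (T.getD i I) x 0

theorem vw_cons (I : List ℕ) (T : List (List ℕ)) (i : ℕ) (w : List ℕ) (v : ℕ) :
    vw I T (i :: w) v = appF (T.getD i I) (vw I T w v) 0 := by
  have h2 : vw I T (i :: w) v = Golay.fz (vw I T w v) fun x => appF (T.getD i I) x 0 := rfl
  rw [h2, Golay.fz_eq]

section

variable {G : Type*} [Group G] {V : Type*} [AddCommGroup V] (A : G →* AddMonoid.End V) (n : ℕ) (vec : ℕ → V)

/-- a faithful action on bit vectors -/
structure BR : Prop where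
  xor : ∀ a b, vec (a ^^^ b) = vec a + vec b
  top : ∀ m, vec (2 ^ n * m) = 0
  inj : ∀ a b, a < 2 ^ n → b < 2 ^ n → vec a = vec b → a = b
  faith : ∀ g h : G, (∀ k < n, A g (vec (2 ^ k)) = A h (vec (2 ^ k))) → g = h

/-- `L` is the matrix of `g` -/
def Rep (g : G) (L : List ℕ) : Prop := ∀ m, A g (vec m) = vec (appF L m 0)

variable {A n vec}

theorem BR.zero (B : BR A n vec) : vec 0 = 0 := by
  have h := B.xor 0 0
  rw [Nat.xor_self] at h
  simpa using h

/-- linear combination of the columns -/
def VV (vec : ℕ → V) : List ℕ → ℕ → V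
  | [], _ => 0
  | c :: L, m => vec (m % 2 * c) + VV vec L (m / 2)

theorem BR.vec_appF (B : BR A n vec) : ∀ (L : List ℕ) (m acc : ℕ), vec (appF L m acc) = VV vec L m + vec acc := by
  intro L
  induction L with
  | nil => intro m acc; exact (zero_add _).symm
  | cons c L ih =>
    intro m acc
    rw [appF_cons, ih, B.xor]
    show VV vec L (m / 2) + (vec (m % 2 * c) + vec acc) = vec (m % 2 * c) + VV vec L (m / 2) + vec acc
    abel

theorem BR.vec_appF0 (B : BR A n vec) (L : List ℕ) (m : ℕ) : vec (appF L m 0) = VV vec L m := by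
  rw [B.vec_appF, B.zero, add_zero]

theorem BR.VV_mul (B : BR A n vec) {g : G} {L : List ℕ} (h : Rep A vec g L) : ∀ (M : List ℕ) (m : ℕ),
    VV vec (mulF L M) m = A g (VV vec M m) := by
  intro M
  induction M with
  | nil => intro m; exact (map_zero _).symm
  | cons c M ih =>
    intro m
    rw [mulF_cons]
    show vec (m % 2 * appF L c 0) + VV vec (mulF L M) (m / 2) = A g (vec (m % 2 * c) + VV vec M (m / 2))
    rw [map_add, ih]
    congr 1
    rcases Nat.mod_two_eq_zero_or_one m with h4 | h4 <;> rw [h4]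
    · rw [zero_mul, zero_mul, B.zero, map_zero]
    · rw [one_mul, one_mul]
      exact (h c).symm

theorem Rep.mul (B : BR A n vec) {g h : G} {L M : List ℕ} (hg : Rep A vec g L) (hh : Rep A vec h M) :
    Rep A vec (g * h) (mulF L M) := by
  intro m
  rw [B.vec_appF0, B.VV_mul hg, map_mul]
  show A g (A h (vec m)) = _
  rw [hh m, B.vec_appF0]

theorem split2 (j m : ℕ) : 2 ^ j * m = (2 ^ j * (m % 2)) ^^^ (2 ^ (j + 1) * (m / 2)) := by
  have h1 : (m % 2) ^^^ (m / 2 * 2) = m := by
    apply Nat.eq_of_testBit_eq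
    intro i
    rw [Nat.testBit_xor]
    cases i with
    | zero =>
      simp
    | succ i =>
      simp only [Nat.testBit_succ]
      have : m % 2 / 2 = 0 := by omega
      rw [this]
      simp
  have h2 := Nat.shiftLeft_xor_distrib (a := m % 2) (b := m / 2 * 2) (i := j)
  rw [h1] at h2
  simp only [Nat.shiftLeft_eq] at h2
  rw [mul_comm, h2]
  congr 1
  · rw [mul_comm]
  · rw [pow_succ]; ring

theorem BR.rep_of (B : BR A n vec) {g : G} {L : List ℕ} (hl : L.length = n)
    (h : ∀ k < n, A g (vec (2 ^ k)) = vec (L.getD k 0)) : Rep A vec g L := by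
  have key : ∀ (K : List ℕ) (j : ℕ), j + K.length = n → (∀ k, K.getD k 0 = L.getD (j + k) 0) → ∀ m,
      A g (vec (2 ^ j * m)) = VV vec K m := by
    intro K
    induction K with
    | nil =>
      intro j hj _ m
      rw [List.length_nil, add_zero] at hj
      rw [hj, B.top, map_zero]; rfl
    | cons c K ih =>
      intro j hj hk m
      rw [List.length_cons] at hj
      rw [split2, B.xor, map_add, ih (j + 1) (by omega) (fun k => by
        have := hk (k + 1)
        rw [List.getD_cons_succ] at this
        rw [this]; congr 1; omega)]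
      show _ = vec (m % 2 * c) + VV vec K (m / 2)
      congr 1
      have h0 := hk 0
      rw [List.getD_cons_zero, add_zero] at h0
      rcases Nat.mod_two_eq_zero_or_one m with h4 | h4 <;> rw [h4]
      · rw [mul_zero, zero_mul, B.zero, map_zero]
      · rw [mul_one, one_mul, h0]
        exact h j (by omega)
  intro m
  have := key L 0 (by omega) (fun k => by rw [zero_add]) m
  rw [pow_zero, one_mul] at this
  rw [this, B.vec_appF0]

theorem BR.eq (B : BR A n vec) {g h : G} {L : List ℕ} (hg : Rep A vec g L) (hh : Rep A vec h L) : g = h :=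
  B.faith g h fun k _ => by rw [hg, hh]

/-- test for the identity matrix -/
def idB (I : List ℕ) (n : ℕ) : Bool := Nat.beq I.length n && (List.range n).all fun k => Nat.beq (2 ^ k) (I.getD k 0)

theorem BR.rep_one (B : BR A n vec) {I : List ℕ} (hI : idB I n = true) : Rep A vec (1 : G) I := by
  unfold idB at hI
  rw [Bool.and_eq_true] at hI
  refine B.rep_of (Nat.eq_of_beq_eq_true hI.1) fun k hk => ?_
  rw [map_one]
  show vec (2 ^ k) = _
  rw [Nat.eq_of_beq_eq_true ((List.all_eq_true.1 hI.2) k (List.mem_range.2 hk))]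

variable {I : List ℕ} {g : ℕ → G} {T : List (List ℕ)}

theorem BR.rep_val (B : BR A n vec) (hI : idB I n = true) (h : ∀ i, Rep A vec (g i) (T.getD i I)) (w : List ℕ) :
    Rep A vec (val g w) (wF I T w) := by
  induction w with
  | nil => exact B.rep_one hI
  | cons i w ih =>
    rw [val_cons]
    exact Rep.mul B (h i) ih

/-- letters given by words -/
theorem BR.rep_letters (B : BR A n vec) (hI : idB I n = true) (h : ∀ i, Rep A vec (g i) (T.getD i I))
    {ws : List (List ℕ)} {T' : List (List ℕ)} (hl : T'.length = ws.length)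
    (hT : ((List.range ws.length).all fun i => pathB.beqL' (wF I T (ws.getD i [])) (T'.getD i I)) = true) (i : ℕ) :
    Rep A vec (val g (ws.getD i [])) (T'.getD i I) := by
  by_cases hi : i < ws.length
  · have h1 := (List.all_eq_true.1 hT) i (List.mem_range.2 hi)
    rw [← beqL'_spec h1]
    exact B.rep_val hI h _
  · rw [List.getD_eq_default _ _ (not_lt.mp hi), List.getD_eq_default _ _ (by omega)]
    exact B.rep_one hI

/-- equality of words -/
theorem BR.val_eq (B : BR A n vec) (hI : idB I n = true) (h : ∀ i, Rep A vec (g i) (T.getD i I)) {w w' : List ℕ}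
    (hr : pathB.beqL' (wF I T w) (wF I T w') = true) : val g w = val g w' := by
  have h2 := B.rep_val hI h w
  rw [beqL'_spec hr] at h2
  exact B.eq h2 (B.rep_val hI h w')

/-- rules -/
theorem BR.holds_of (B : BR A n vec) (hI : idB I n = true) (h : ∀ i, Rep A vec (g i) (T.getD i I))
    {rules : List (List ℕ × List ℕ)} (hr : (rules.all fun q => pathB.beqL' (wF I T q.1) (wF I T q.2)) = true) : Holds g rules :=
  fun q hq => B.val_eq hI h ((List.all_eq_true.1 hr) q hq)

theorem BR.act_val (B : BR A n vec) (h : ∀ i, Rep A vec (g i) (T.getD i I)) (v : ℕ) (w : List ℕ) :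
    A (val g w) (vec v) = vec (vw I T w v) := by
  induction w with
  | nil =>
    show A 1 (vec v) = vec v
    rw [map_one]; rfl
  | cons i w ih =>
    rw [val_cons, map_mul, vw_cons]
    show A (g i) (A (val g w) (vec v)) = _
    rw [ih]
    exact h i _

/-- test that the images are distinct and small -/
noncomputable def dsB (I : List ℕ) (T : List (List ℕ)) (n v : ℕ) : List (List ℕ) → List ℕ → Bool
  | [], acc => Cfsg.Agent.KMat.ndB acc
  | w :: ws, acc => Golay.fz (vw I T w v) fun x => match Nat.blt x (2 ^ n) with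
    | true => dsB I T n v ws (x :: acc)
    | false => false

theorem dsB_spec {v : ℕ} : ∀ (ws : List (List ℕ)) (acc : List ℕ), dsB I T n v ws acc = true →
    ((ws.map fun w => vw I T w v).reverse ++ acc).Nodup ∧ ∀ w ∈ ws, vw I T w v < 2 ^ n := by
  intro ws
  induction ws with
  | nil =>
    intro acc h
    exact ⟨by simpa using Cfsg.Agent.KMat.ndB_sound h, by simp⟩
  | cons w ws ih =>
    intro acc h
    have h1 : (Golay.fz (vw I T w v) fun x => match Nat.blt x (2 ^ n) with
      | true => dsB I T n v ws (x :: acc)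
      | false => false) = true := h
    rw [Golay.fz_eq] at h1
    cases hb : Nat.blt (vw I T w v) (2 ^ n) with
    | false => rw [hb] at h1; cases h1
    | true =>
      rw [hb] at h1
      obtain ⟨h2, h3⟩ := ih _ h1
      refine ⟨?_, ?_⟩
      · rw [List.map_cons, List.reverse_cons, List.append_assoc]; exact h2
      · intro w' hw'
        rcases List.mem_cons.1 hw' with rfl | hw'
        · exact Nat.le_of_ble_eq_true hb
        · exact h3 w' hw'

theorem BR.nodup_act (B : BR A n vec) (h : ∀ i, Rep A vec (g i) (T.getD i I)) {v p : ℕ} {l : List ℕ}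
    (hd : dsB I T n v (pws p l) [] = true) : ((pws p l).map fun w => A (val g w) (vec v)).Nodup := by
  obtain ⟨h1, h2⟩ := dsB_spec _ _ hd
  rw [List.append_nil, List.nodup_reverse] at h1
  have e : ((pws p l).map fun w => A (val g w) (vec v)) = ((pws p l).map fun w => vw I T w v).map vec := by
    rw [List.map_map]
    apply List.map_congr_left
    intro w _
    exact B.act_val h v w
  rw [e]
  refine List.Nodup.map_on ?_ h1
  intro x hx y hy hxy
  obtain ⟨w, hw, rfl⟩ := List.mem_map.1 hx
  obtain ⟨w', hw', rfl⟩ := List.mem_map.1 hy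
  exact B.inj _ _ (h2 w hw) (h2 w' hw') hxy

theorem BR.act_fix (B : BR A n vec) (h : ∀ i, Rep A vec (g i) (T.getD i I)) {v : ℕ} {s : Set ℕ}
    (hs : ∀ i ∈ s, appF (T.getD i I) v 0 = v) : ∀ x, ∀ k ∈ Subgroup.closure (g '' s), A (x * k) (vec v) = A x (vec v) := by
  have h0 : ∀ k ∈ Subgroup.closure (g '' s), A k (vec v) = vec v := by
    intro k hk
    induction hk using Subgroup.closure_induction with
    | mem x hx =>
      obtain ⟨i, hi, rfl⟩ := hx
      rw [h i, hs i hi]
    | one => rw [map_one]; rfl
    | mul a b _ _ ha hb =>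
      rw [map_mul]
      show A a (A b (vec v)) = _
      rw [hb, ha]
    | inv a _ ha =>
      nth_rewrite 1 [← ha]
      show (A a⁻¹ * A a) (vec v) = _
      rw [← map_mul, inv_mul_cancel, map_one]; rfl
  intro x k hk
  rw [map_mul]
  show A x (A k (vec v)) = _
  rw [h0 k hk]

/-- test that a word has prime order -/
def ordB (I : List ℕ) (T : List (List ℕ)) (n p v : ℕ) (w : List ℕ) : Bool :=
  pathB.beqL' (wF I T (List.replicate p w).flatten) I && (Nat.blt (vw I T w v) (2 ^ n) && (Nat.blt v (2 ^ n) &&
    !(Nat.beq (vw I T w v) v)))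

theorem val_replicate (f : ℕ → G) (w : List ℕ) (p : ℕ) : val f (List.replicate p w).flatten = (val f w) ^ p := by
  induction p with
  | zero => rw [pow_zero]; rfl
  | succ p ih => rw [List.replicate_succ, List.flatten_cons, val_append, ih, pow_succ']

theorem BR.orderOf_word (B : BR A n vec) (hI : idB I n = true) (h : ∀ i, Rep A vec (g i) (T.getD i I)) {p v : ℕ} {w : List ℕ}
    (hp : p.Prime) (ho : ordB I T n p v w = true) : orderOf (val g w) = p := by
  unfold ordB at ho
  rw [Bool.and_eq_true, Bool.and_eq_true, Bool.and_eq_true] at ho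
  obtain ⟨h1, h2, h3, h4⟩ := ho
  haveI := Fact.mk hp
  apply orderOf_eq_prime
  · rw [← val_replicate]
    have h5 := B.rep_val hI h (List.replicate p w).flatten
    rw [beqL'_spec h1] at h5
    exact B.eq h5 (B.rep_one hI)
  · intro h5
    have h6 := B.act_val h v w
    rw [h5, map_one] at h6
    have h7 : v = vw I T w v := B.inj _ _ (Nat.le_of_ble_eq_true h3) (Nat.le_of_ble_eq_true h2) h6
    rw [← h7] at h4
    simp at h4

end

end Cfsg.Agent.MRel.Bit2
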