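import Cfsg.Prelude.Def_Chevalley

set_option autoImplicit false

/-!
Chevalley groups over isomorphic fields (owner: helper83).
-/

namespace Cfsg.Agent.MRel

open Cfsg.Lie

variable (D : ChevalleyDatum) {F K : Type*} [Field F] [Field K] (e : F ≃+* K)

theorem xMat_map (r : Fin D.nroots) (t : F) : (D.xMat F r t).map e = D.xMat K r (e t) := by
  ext row col
  rw [Matrix.map_apply]
  unfold ChevalleyDatum.xMat
  simp only [Matrix.of_apply]
  rcases col with i | s
  · rcases row with i' | u
    · dsimp only
      split_ifs <;> simp
    · dsimp only
      split_ifs <;> simp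
  · dsimp only
    split_ifs with h1 h2
    · rcases row with i' | u
      · simp
      · dsimp only
        split_ifs <;> simp
    · rcases row with i' | u
      · simp
      · dsimp only
        split_ifs <;> simp
    · rcases row with i' | u
      · simp
      · dsimp only
        rw [map_add, map_list_sum, List.map_map]
        congr 1
        · split_ifs <;> simp
        · congr 1
          apply List.map_congr_left
          intro km _
          simp

/-- the isomorphism of the general linear groups -/
def glE : GL D.Idx F ≃* GL D.Idx K := Units.mapEquiv (e.mapMatrix (m := D.Idx)).toMulEquiv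

theorem glE_coe (g : GL D.Idx F) : ((glE D e g : GL D.Idx K) : Matrix D.Idx D.Idx K) = (g : Matrix D.Idx D.Idx F).map e := rfl

theorem group_map : (D.group F).map (glE D e).toMonoidHom = D.group K := by
  unfold ChevalleyDatum.group
  rw [MonoidHom.map_closure]
  congr 1
  ext g
  constructor
  · rintro ⟨g, ⟨r, t, h⟩, rfl⟩
    refine ⟨r, e t, ?_⟩
    have : (((glE D e).toMonoidHom g : GL D.Idx K) : Matrix D.Idx D.Idx K) = (g : Matrix D.Idx D.Idx F).map e := rfl
    rw [this, h, xMat_map]
  · rintro ⟨r, t, h⟩
    refine ⟨(glE D e).symm g, ⟨r, e.symm t, ?_⟩, (glE D e).apply_symm_apply g⟩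
    have h1 : ((g : GL D.Idx K) : Matrix D.Idx D.Idx K) = (((glE D e).symm g : GL D.Idx F) : Matrix D.Idx D.Idx F).map e := by
      rw [← glE_coe, (glE D e).apply_symm_apply]
    have h2 : (((glE D e).symm g : GL D.Idx F) : Matrix D.Idx D.Idx F).map e = (D.xMat F r (e.symm t)).map e := by
      rw [← h1, h, xMat_map, e.apply_symm_apply]
    exact Matrix.map_injective e.injective h2

/-- Chevalley groups over isomorphic fields are isomorphic -/
theorem group_equiv {F K : Type*} [Field F] [Field K] (e : F ≃+* K) : Nonempty (D.group F ≃* D.group K) :=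
  ⟨((glE D e).subgroupMap (D.group F)).trans (MulEquiv.subgroupCongr (group_map D e))⟩

end Cfsg.Agent.MRel
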