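import Mathlib

set_option autoImplicit false

/-!
Coxeter elements of type `E₇` (owner: helper83).
-/

namespace Cfsg.Agent.MRel

section

variable {H : Type*} [Group H] {a b c d e f g h : H}

theorem sq_mul_comm {x y : H} (hxy : x * y = y * x) : (x * y) * (x * y) = (x * x) * (y * y) := by
  calc (x * y) * (x * y) = x * (y * x) * y := by simp only [mul_assoc]
    _ = x * (x * y) * y := by rw [hxy]
    _ = _ := by simp only [mul_assoc]

theorem swp {x y : H} (hxy : x * y = y * x) (t : H) : x * (y * t) = y * (x * t) := by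
  rw [← mul_assoc, hxy, mul_assoc]

theorem cox1 (hae : a * e = e * a) (haf : a * f = f * a) (hah : a * h = h * a) (hac : a * c = c * a)
    (had : a * d = d * a) (hbe : b * e = e * b) (hbf : b * f = f * b) (hbh : b * h = h * b) (hbd : b * d = d * b)
    (hce : c * e = e * c) (hcf : c * f = f * c) (hch : c * h = h * c) (hfh : f * h = h * f) (hfd : f * d = d * f) :
    a * c * e * h * (b * d * f) =
      (b⁻¹ * a⁻¹ * (e * f * h)) * (a * b * c * d * e * f * h) * (b⁻¹ * a⁻¹ * (e * f * h))⁻¹ := by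
  have h1 : a * c * e * h * (b * d * f) = e * f * h * c * d * a * b := by
    simp only [mul_assoc]
    -- move `f` to the left
    rw [← hfd, swp hbf, swp hfh.symm, hbd]
    -- move `c`
    rw [swp hce, swp hcf, swp hch, swp hae, swp haf, swp hah, swp hac, swp had]
  have h2 : a * b * (e * f * h * c * d) = e * f * h * (a * b * c * d) := by
    simp only [mul_assoc]
    rw [swp hbe, swp hbf, swp hbh, swp hae, swp haf, swp hah]
  rw [h1]
  have h3 : e * f * h * c * d = b⁻¹ * a⁻¹ * (e * f * h * (a * b * c * d)) := by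
    rw [← h2]; group
  calc e * f * h * c * d * a * b = (e * f * h * c * d) * a * b := rfl
    _ = b⁻¹ * a⁻¹ * (e * f * h * (a * b * c * d)) * a * b := by rw [h3]
    _ = _ := by group

theorem cox2 (hge : g * e = e * g) (hgh : g * h = h * g) (hgb : g * b = b * g) (hgc : g * c = c * g)
    (hgd : g * d = d * g) (hbe : b * e = e * b) (hbf : b * f = f * b) (hbh : b * h = h * b) (hbd : b * d = d * b)
    (hce : c * e = e * c) (hcf : c * f = f * c) (hch : c * h = h * c) (hfh : f * h = h * f) (hfd : f * d = d * f) :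
    c * e * g * h * (b * d * f) =
      (b⁻¹ * g * (e * f * g * h)) * (b * c * d * e * f * g * h) * (b⁻¹ * g * (e * f * g * h))⁻¹ := by
  have h1 : c * e * g * h * (b * d * f) = g * e * f * h * c * d * b := by
    simp only [mul_assoc]
    rw [← hfd, swp hbf, swp hfh.symm, hbd, swp hge.symm, swp hgc.symm, swp hce, swp hcf, swp hch]
  have h2 : e * f * g * h * (b * c * d) = e * f * h * b * c * d * g := by
    simp only [mul_assoc]
    rw [swp hgh, swp hgb, swp hgc, hgd]
  have h3 : b * (g * e * f * h * c * d) = g * (e * f * h * b * c * d) := by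
    simp only [mul_assoc]
    rw [swp hgb.symm, swp hbe, swp hbf, swp hbh]
  rw [h1]
  have h4 : g * e * f * h * c * d = b⁻¹ * (g * (e * f * h * b * c * d)) := by
    rw [← h3]; group
  have h5 : e * f * h * b * c * d = e * f * g * h * (b * c * d) * g⁻¹ := by
    rw [h2]; group
  calc g * e * f * h * c * d * b = (g * e * f * h * c * d) * b := rfl
    _ = b⁻¹ * (g * (e * f * g * h * (b * c * d) * g⁻¹)) * b := by rw [h4, h5]
    _ = _ := by group

/-- a power of a conjugate -/
theorem pow_conj_one {x y k : H} (hxy : x = k * y * k⁻¹) {n : ℕ} (hx : x ^ n = 1) : y ^ n = 1 := by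
  rw [hxy, conj_pow] at hx
  have : k⁻¹ * (k * y ^ n * k⁻¹) * k = 1 := by rw [hx]; group
  rw [← this]; group

/-- the square of a central power of a product of two elements with central squares -/
theorem bip {B W z : H} (hz : ∀ t, z * t = t * z) (hB : B * B = z ^ 4) (hW : W * W = z ^ 3)
    (hc : ∀ t, (B * W) ^ 9 * t = t * (B * W) ^ 9) : (B * W) ^ 9 * (B * W) ^ 9 = z ^ 63 := by
  have h0 : ∀ n t, z ^ n * t = t * z ^ n := fun n t => ((show Commute z t from hz t).pow_left n).eq
  have h1 : B * (B * W) * B⁻¹ = z ^ 7 * (B * W)⁻¹ := by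
    have hW' : W = z ^ 3 * W⁻¹ := by rw [← hW, mul_inv_cancel_right]
    calc B * (B * W) * B⁻¹ = (B * B) * W * B⁻¹ := by simp only [mul_assoc]
      _ = z ^ 4 * (z ^ 3 * W⁻¹) * B⁻¹ := by rw [hB, ← hW']
      _ = z ^ 7 * (B * W)⁻¹ := by rw [mul_inv_rev, ← mul_assoc, ← pow_add, mul_assoc]
  have h2 : B * (B * W) ^ 9 * B⁻¹ = z ^ 63 * ((B * W) ^ 9)⁻¹ := by
    rw [← conj_pow, h1, Commute.mul_pow (h0 7 _), ← pow_mul, inv_pow]
  rw [← hc, mul_inv_cancel_right] at h2
  nth_rewrite 1 [h2]
  rw [inv_mul_cancel_right]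

/-- normalization of the squares -/
theorem norm_pair {z r : H} (hzr : r * z = z * r) (h : r * r = z ^ 63) :
    (r⁻¹ * z ^ 31) * (r⁻¹ * z ^ 31) * z = 1 ∧ (r⁻¹ * z ^ 31) ^ 63 * r = 1 := by
  have hc : Commute r z := hzr
  have hc1 : Commute (r⁻¹) (z ^ 31) := hc.inv_left.pow_right 31
  constructor
  · calc (r⁻¹ * z ^ 31) * (r⁻¹ * z ^ 31) * z = r⁻¹ * (z ^ 31 * r⁻¹) * z ^ 31 * z := by simp only [mul_assoc]
      _ = r⁻¹ * (r⁻¹ * z ^ 31) * z ^ 31 * z := by rw [hc1.eq]
      _ = (r * r)⁻¹ * z ^ 63 := by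
        rw [mul_inv_rev, show (63 : ℕ) = 31 + 31 + 1 from rfl, pow_add, pow_add, pow_one]; simp only [mul_assoc]
      _ = 1 := by rw [h, inv_mul_cancel]
  · rw [hc1.mul_pow, inv_pow, ← pow_mul]
    have h1 : z ^ (31 * 63) = r ^ 62 := by
      rw [show (62 : ℕ) = 2 * 31 from rfl, pow_mul r, pow_two, h, ← pow_mul]
    rw [h1, mul_assoc, ← pow_succ, inv_mul_cancel]

end

end Cfsg.Agent.MRel
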