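import Cfsg.Agent.MRel.Basic
import Cfsg.Prelude.Def_SporadicB

set_option autoImplicit false

/-!
Non-split double covers of perfect groups are perfect central extensions (owner: helper83).
-/

namespace Cfsg.Agent.MRel

open Subgroup Mult

theorem pce_of_double {H K : Type} [Group H] [Group K] (h : IsNonsplitDoubleCover H K) (hK : commutator K = ⊤) :
    ∃ σ : H →* K, PCE σ ∧ Nat.card σ.ker = 2 := by
  obtain ⟨hc, ⟨e⟩, hn⟩ := h
  let σ : H →* K := e.toMonoidHom.comp (QuotientGroup.mk' (center H))
  have hker : σ.ker = center H := by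
    ext x
    rw [MonoidHom.mem_ker]
    constructor
    · intro hx
      have h1 : (QuotientGroup.mk' (center H)) x = 1 := e.injective (hx.trans (map_one e).symm)
      exact (QuotientGroup.eq_one_iff x).1 h1
    · intro hx
      have h1 : (QuotientGroup.mk' (center H)) x = 1 := (QuotientGroup.eq_one_iff x).2 hx
      show e ((QuotientGroup.mk' (center H)) x) = 1
      rw [h1, map_one]
  have C : CE σ := ⟨e.surjective.comp (QuotientGroup.mk'_surjective _), by rw [hker]⟩
  refine ⟨σ, ⟨C, ?_⟩, by rw [hker, hc]⟩
  have hsup : center H ⊔ commutator H = ⊤ := by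
    rw [eq_top_iff]
    intro x _
    have h1 : σ x ∈ (commutator H).map σ := by rw [map_comm C hK]; exact mem_top _
    obtain ⟨y, hy, hyx⟩ := h1
    have h2 : x * y⁻¹ ∈ center H := by
      rw [← hker, MonoidHom.mem_ker, map_mul, map_inv, hyx, mul_inv_cancel]
    have : x = (x * y⁻¹) * y := by group
    rw [this]
    exact mul_mem_sup h2 hy
  by_cases hd : Disjoint (center H) (commutator H)
  · exfalso
    refine hn (commutator H) (isComplement'_of_disjoint_and_mul_eq_univ hd ?_)
    rw [← Subgroup.normal_mul, hsup]
    rfl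
  · have hf : Finite (center H) := Nat.finite_of_card_ne_zero (by rw [hc]; norm_num)
    rw [Subgroup.disjoint_def] at hd
    push Not at hd
    obtain ⟨x, hx1, hx2, hx3⟩ := hd
    have h1 : center H ≤ commutator H := by
      have f2 : Fact (Nat.Prime 2) := ⟨by norm_num⟩
      have hz : zpowers (⟨x, hx1⟩ : center H) = ⊤ := by
        apply zpowers_eq_top_of_prime_card hc
        intro h
        exact hx3 (congrArg Subtype.val h)
      intro y hy
      have : (⟨y, hy⟩ : center H) ∈ zpowers (⟨x, hx1⟩ : center H) := by rw [hz]; exact mem_top _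
      obtain ⟨k, hk⟩ := this
      have hk' : x ^ k = y := congrArg Subtype.val hk
      rw [← hk']
      exact zpow_mem hx2 k
    rwa [sup_eq_right.2 h1] at hsup

end Cfsg.Agent.MRel
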