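import Cfsg.Agent.MRel.Step
import Cfsg.Agent.MRel.J2
import Cfsg.Agent.CosetEnum.M83.CertsGS

set_option autoImplicit false
set_option maxRecDepth 1000000

/-!
The Schur multiplier of the presented `G₂(4)` has order dividing two (owner: helper83).
-/

namespace Cfsg.Agent.MRel.G24

open Cfsg.Agent.CosetEnum Cfsg.Agent.CosetEnum.Suz Subgroup Mult

section

variable {G : Type*} [Group G]

theorem pair_flip {x y : G} (hx : x * x = 1) (hy : y * y = 1) {m : ℕ} (h : (x * y) ^ m = 1) : (y * x) ^ m = 1 := by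
  have : (y * x) ^ m = ((x * y) ^ m)⁻¹ := by rw [← inv_pow, mul_inv_rev, inv_sq hx, inv_sq hy]
  rw [this, h, inv_one]

end

theorem sq6 (x : ℕ) : q6 x * q6 x = 1 := by
  have := U6.good.inv x
  have h : ivL SuzT6.iv x = x := rfl
  rw [h] at this
  nth_rewrite 1 [this]
  exact inv_mul_cancel _

theorem rel6 {u : List ℕ} {m : ℕ} (h : (u, m) ∈ SuzT6.RL) : ((u.map q6).prod) ^ m = 1 := U6.good.rel (u, m) h

theorem pair6 {x y m : ℕ} (h : ([x, y], m) ∈ SuzT6.RL) : (q6 x * q6 y) ^ m = 1 := by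
  have := rel6 h
  simpa using this

theorem conj_bf : (q6 2 * q6 6) * q6 2 * (q6 2 * q6 6)⁻¹ = q6 6 :=
  J2.conj3_of (sq6 2) (sq6 6) (pair6 (x := 2) (y := 6) (m := 3) (by decide))

section

variable {Γ : Type} [Group Γ] {σ : Γ →* Q6} (C : CE σ) (s : Cl q6 5 →* Γ)

/-- lift of `f` -/
noncomputable def f6 : Γ := C.cj (q6 2 * q6 6) (s ⟨q6 2, mem_Cl q6 rfl⟩)

/-- the letters of the covering presentation -/
noncomputable def fG : ℕ → Γ
  | 1 => s ⟨q6 1, mem_Cl q6 rfl⟩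
  | 2 => s ⟨q6 2, mem_Cl q6 rfl⟩
  | 3 => s ⟨q6 3, mem_Cl q6 rfl⟩
  | 4 => s ⟨q6 4, mem_Cl q6 rfl⟩
  | 5 => s ⟨q6 5, mem_Cl q6 rfl⟩
  | 6 => f6 C s
  | 7 => ((f6 C s * s ⟨q6 1, mem_Cl q6 rfl⟩) ^ 2)⁻¹
  | 8 => ((f6 C s * s ⟨q6 3, mem_Cl q6 rfl⟩) ^ 2)⁻¹
  | 9 => ((f6 C s * s ⟨q6 4, mem_Cl q6 rfl⟩) ^ 2)⁻¹
  | 10 => ((f6 C s * s ⟨q6 5, mem_Cl q6 rfl⟩) ^ 2)⁻¹
  | 11 => (s ⟨q6 1, mem_Cl q6 rfl⟩ * s ⟨q6 2, mem_Cl q6 rfl⟩ * s ⟨q6 3, mem_Cl q6 rfl⟩ * f6 C s) ^ 5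
  | 12 => ((s ⟨q6 1, mem_Cl q6 rfl⟩ * s ⟨q6 2, mem_Cl q6 rfl⟩ * s ⟨q6 3, mem_Cl q6 rfl⟩ * f6 C s) ^ 5)⁻¹
  | _ => 1

theorem hf5 (x : ℕ) (hx : isLet 5 x = true) : fG C s x = s ⟨q6 x, mem_Cl q6 hx⟩ := by
  have h := isLet_iff.1 hx
  match x, h with
  | 1, _ => rfl
  | 2, _ => rfl
  | 3, _ => rfl
  | 4, _ => rfl
  | 5, _ => rfl
  | (n + 6), h => omega

variable (hs : ∀ h : Cl q6 5, σ (s h) = h)

include hs

theorem f6_spec : (s ⟨q6 2, mem_Cl q6 rfl⟩ * f6 C s) ^ 3 = 1 ∧ σ (f6 C s) = q6 6 ∧ f6 C s * f6 C s = 1 := by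
  have hb : s ⟨q6 2, mem_Cl q6 rfl⟩ * s ⟨q6 2, mem_Cl q6 rfl⟩ = 1 := lift_sq s rfl (sq6 2)
  have h2 : σ (s ⟨q6 2, mem_Cl q6 rfl⟩) = q6 2 := hs _
  unfold f6
  generalize s ⟨q6 2, mem_Cl q6 rfl⟩ = x at hb h2
  exact ⟨art3_inv C h2 conj_bf hb, (art3 C h2 conj_bf).2, cj_sq C hb⟩

theorem cen2 {x : ℕ} (hx : isLet 5 x = true) (h : ([x, 6], 2) ∈ SuzT6.RL) :
    σ (((f6 C s * s ⟨q6 x, mem_Cl q6 hx⟩) ^ 2)⁻¹) = 1 ∧
    ((f6 C s * s ⟨q6 x, mem_Cl q6 hx⟩) ^ 2)⁻¹ * ((f6 C s * s ⟨q6 x, mem_Cl q6 hx⟩) ^ 2)⁻¹ = 1 := by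
  obtain ⟨-, h2, h3⟩ := f6_spec C s hs
  have h4 : σ (((f6 C s * s ⟨q6 x, mem_Cl q6 hx⟩) ^ 2)⁻¹) = 1 := by
    rw [map_inv, map_pow, map_mul, h2, hs, pair_flip (sq6 x) (sq6 6) (pair6 h), inv_one]
  refine ⟨h4, ?_⟩
  rw [← mul_inv_rev, pow_pair_sq h3 (lift_sq s hx (sq6 x)) 2, inv_one]
  intro z
  apply cen_of_one C
  rw [map_inv, inv_eq_one] at h4
  exact h4

theorem cen5 : σ ((s ⟨q6 1, mem_Cl q6 rfl⟩ * s ⟨q6 2, mem_Cl q6 rfl⟩ * s ⟨q6 3, mem_Cl q6 rfl⟩ * f6 C s) ^ 5) = 1 := by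
  rw [map_pow, map_mul, map_mul, map_mul, (f6_spec C s hs).2.1, hs, hs, hs]
  have := rel6 (u := [1, 2, 3, 6]) (m := 5) (by decide)
  simpa [mul_assoc] using this

theorem cen_z (z : ℕ) (hz : z ∈ [7, 8, 9, 10, 11, 12]) : σ (fG C s z) = 1 := by
  simp only [List.mem_cons, List.not_mem_nil, or_false] at hz
  rcases hz with rfl | rfl | rfl | rfl | rfl | rfl
  · exact (cen2 C s hs (x := 1) rfl (by decide)).1
  · exact (cen2 C s hs (x := 3) rfl (by decide)).1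
  · exact (cen2 C s hs (x := 4) rfl (by decide)).1
  · exact (cen2 C s hs (x := 5) rfl (by decide)).1
  · exact cen5 C s hs
  · show σ (_)⁻¹ = 1
    rw [map_inv, cen5 C s hs, inv_one]

theorem fG_good : Good (fG C s) 12 M83G.iv M83G.RL := by
  refine good_step U6.good s (hf5 C s) ?_ ?_ [7, 8, 9, 10, 11, 12] (fun z hz y => cen_of_one C (cen_z C s hs z hz) y)
    [([2, 6], 3), ([6, 1, 6, 1, 7], 1), ([6, 3, 6, 3, 8], 1), ([6, 4, 6, 4, 9], 1), ([6, 5, 6, 5, 10], 1),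
      ([1, 2, 3, 6, 1, 2, 3, 6, 1, 2, 3, 6, 1, 2, 3, 6, 1, 2, 3, 6, 12], 1)] ?_ (by decide +kernel)
  · intro x
    match x with
    | 0 => exact inv_one.symm
    | 1 => exact (inv_sq (lift_sq s rfl (sq6 1))).symm
    | 2 => exact (inv_sq (lift_sq s rfl (sq6 2))).symm
    | 3 => exact (inv_sq (lift_sq s rfl (sq6 3))).symm
    | 4 => exact (inv_sq (lift_sq s rfl (sq6 4))).symm
    | 5 => exact (inv_sq (lift_sq s rfl (sq6 5))).symm
    | 6 => exact (inv_sq (f6_spec C s hs).2.2).symm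
    | 7 => exact (inv_sq (cen2 C s hs (x := 1) rfl (by decide)).2).symm
    | 8 => exact (inv_sq (cen2 C s hs (x := 3) rfl (by decide)).2).symm
    | 9 => exact (inv_sq (cen2 C s hs (x := 4) rfl (by decide)).2).symm
    | 10 => exact (inv_sq (cen2 C s hs (x := 5) rfl (by decide)).2).symm
    | 11 => rfl
    | 12 => exact (inv_inv _).symm
    | (n + 13) => exact inv_one.symm
  · intro x hx
    match x with
    | 0 => rfl
    | 1 => exact absurd hx (by decide)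
    | 2 => exact absurd hx (by decide)
    | 3 => exact absurd hx (by decide)
    | 4 => exact absurd hx (by decide)
    | 5 => exact absurd hx (by decide)
    | 6 => exact absurd hx (by decide)
    | 7 => exact absurd hx (by decide)
    | 8 => exact absurd hx (by decide)
    | 9 => exact absurd hx (by decide)
    | 10 => exact absurd hx (by decide)
    | 11 => exact absurd hx (by decide)
    | 12 => exact absurd hx (by decide)
    | (n + 13) => rfl
  · have key : ∀ a b : Γ, a * (b * (a * (b * ((a * b) ^ 2)⁻¹))) = 1 := fun a b => by rw [pow_two]; group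
    intro p hp
    simp only [List.mem_cons, List.not_mem_nil, or_false] at hp
    rcases hp with rfl | rfl | rfl | rfl | rfl | rfl
    · have := (f6_spec C s hs).1
      simpa [fG] using this
    · simpa [fG] using key (f6 C s) (s ⟨q6 1, mem_Cl q6 rfl⟩)
    · simpa [fG] using key (f6 C s) (s ⟨q6 3, mem_Cl q6 rfl⟩)
    · simpa [fG] using key (f6 C s) (s ⟨q6 4, mem_Cl q6 rfl⟩)
    · simpa [fG] using key (f6 C s) (s ⟨q6 5, mem_Cl q6 rfl⟩)
    · have e : ([1, 2, 3, 6, 1, 2, 3, 6, 1, 2, 3, 6, 1, 2, 3, 6, 1, 2, 3, 6, 12] : List ℕ) =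
        M83WJ.rep 5 [1, 2, 3, 6] ++ [12] := rfl
      rw [e, List.map_append, List.prod_append, J2.rep_prod, pow_one]
      simp only [List.map_cons, List.map_nil, List.prod_cons, List.prod_nil, mul_one, fG, ← mul_assoc]
      rw [mul_inv_cancel]

end

/-- the relative bound -/
theorem rb6 : RB (Cl q6 5) 1 := by
  rintro Γ _ _ σ P ⟨s, hs⟩
  have hfin := fin65
  have b1 : Bd (Cl (fG P.ce s) 5) 604800 := bd_of_lift s (hf5 P.ce s) card65
  have b2 : Bd (Cl (fG P.ce s) 12) 251596800 :=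
    b1.cl M83G.cert (fG_good P.ce s hs) (by decide +kernel) (by decide +kernel) (by norm_num) rfl
  rw [top_of_lift P (q := q6) (nq := 6) U6.top (fun x hx => ?_) (by norm_num)] at b2
  · have := card_ker_le P (m := 1) b2 card6 (by norm_num) (by norm_num)
    have h0 : 0 < Nat.card σ.ker := Nat.card_pos
    exact dvd_of_eq (by omega)
  · by_cases h5 : isLet 5 x = true
    · rw [hf5 P.ce s x h5, hs]
    · have h6 := isLet_iff.1 hx
      have : x = 6 := by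
        by_contra hc
        exact h5 (isLet_iff.2 ⟨h6.1, by omega⟩)
      subst this
      exact (f6_spec P.ce s hs).2.1

theorem perf_of_simple {G : Type*} [Group G] [Finite G] [IsSimpleGroup G] {n : ℕ} (hn : Nat.card G = n)
    (hc : ¬ n.Prime) : commutator G = ⊤ := by
  rcases (inferInstance : (commutator G).Normal).eq_bot_or_eq_top with h | h
  · exfalso
    rw [commutator_def, commutator_eq_bot_iff_le_centralizer] at h
    have hcomm : ∀ a b : G, a * b = b * a := fun a b => by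
      have := h (mem_top a)
      rw [mem_centralizer_iff] at this
      exact (this b (mem_top b)).symm
    have hc2 : IsMulCommutative G := ⟨⟨hcomm⟩⟩
    have := (Group.is_simple_iff_prime_card (α := G)).1 inferInstance
    rw [hn] at this
    exact hc this
  · exact h

/-- the Schur multiplier of the presented `G₂(4)` has order dividing two -/
theorem mb6 : MB Q6 2 := by
  obtain ⟨e, -⟩ := sub65
  have hfin := fin65
  have hs := simple65
  have hp : commutator ↥(Cl q6 5) = ⊤ := perf_of_simple card65 (by norm_num)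
  have := MB.of_rel hp (J2.mb5.equiv e) rb6
  rwa [mul_one] at this

end Cfsg.Agent.MRel.G24
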