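import Cfsg.Agent.MRel.J2
import Cfsg.Agent.MRel.G24
import Cfsg.Agent.MRel.Proj
import Cfsg.Agent.MRel.Tr
import Cfsg.Agent.CosetEnum.M83.CertsF
import Cfsg.Agent.CosetEnum.M83.FWX

set_option autoImplicit false
set_option maxRecDepth 1000000

/-!
Lifts of the transpositions of `Fi₂₂` to a central extension (owner: helper83).
-/

namespace Cfsg.Agent.MRel.F22

open Cfsg.Agent.CosetEnum Cfsg.Agent.CosetEnum.Fi22 Subgroup Mult

theorem sq9 (x : ℕ) : gS x * gS x = 1 := by
  have := gS_univ.good.inv x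
  have h : ivL Fi22T9.iv x = x := rfl
  rw [h] at this
  nth_rewrite 1 [this]
  exact inv_mul_cancel _

theorem rel9 {u : List ℕ} {m : ℕ} (h : (u, m) ∈ Fi22T9.RL) : ((u.map gS).prod) ^ m = 1 := gS_univ.good.rel (u, m) h

theorem pair9 {x y m : ℕ} (h : ([x, y], m) ∈ Fi22T9.RL) : (gS x * gS y) ^ m = 1 := by
  have := rel9 h
  simpa using this

/-- joined letters -/
def ed (x y : ℕ) : Bool := Fi22T9.RL.contains ([x, y], 3) || Fi22T9.RL.contains ([y, x], 3)

/-- letters that are not joined -/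
def nd (x y : ℕ) : Bool := Fi22T9.RL.contains ([x, y], 2) || Fi22T9.RL.contains ([y, x], 2)

theorem ed_pow {x y : ℕ} (h : ed x y = true) : (gS x * gS y) ^ 3 = 1 := by
  simp only [ed, Bool.or_eq_true, List.contains_iff_mem] at h
  rcases h with h | h
  · exact pair9 h
  · exact G24.pair_flip (sq9 y) (sq9 x) (pair9 h)

theorem nd_comm {x y : ℕ} (h : nd x y = true) : gS x * gS y = gS y * gS x := by
  simp only [nd, Bool.or_eq_true, List.contains_iff_mem] at h
  rcases h with h | h
  · exact J2.comm_of_sq (sq9 x) (sq9 y) (pair9 h)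
  · exact (J2.comm_of_sq (sq9 y) (sq9 x) (pair9 h)).symm

theorem faith9 : Faith gS Fi22T9.lets Fi22T9.P := by
  have hs : IsSimpleGroup Spor.Fi22 := fi22_simple
  refine faith_of_simple hs (show 1 < 14080 by norm_num) ?_ Fi22T9.covO
  intro x hx
  exact ⟨x, hx, by
    have h := gS_univ.good.inv x
    have e : ivL Fi22T9.iv x = x := rfl
    rwa [e] at h⟩

theorem w_us {u : List ℕ} (hu : u ∈ M83FW.us) : (u.map gS).prod = 1 :=
  (L9 gS_univ).rels faith9 (by decide +kernel) M83FW.cov u hu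

theorem w_E3 : (gS 1 * gS 3 * gS 8 * gS 4 * gS 2 * gS 5 * gS 7) ^ 9 = 1 := by
  have h := w_us (u := expand ([1, 3, 8, 4, 2, 5, 7], 9)) (by decide +kernel)
  rw [rep_prod'] at h
  simpa [mul_assoc] using h

theorem w_E1 : (gS 9 * gS 1 * gS 3 * gS 4 * (gS 6 * gS 2 * gS 5)) ^ 9 = 1 := by
  have h := w_us (u := expand ([9, 1, 3, 4, 6, 2, 5], 9)) (by decide +kernel)
  rw [rep_prod'] at h
  simpa [mul_assoc] using h

theorem w_E2 : (gS 1 * gS 3 * gS 8 * gS 4 * (gS 6 * gS 2 * gS 5)) ^ 9 = 1 := by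
  have h := w_us (u := expand ([1, 3, 8, 4, 6, 2, 5], 9)) (by decide +kernel)
  rw [rep_prod'] at h
  simpa [mul_assoc] using h

section

variable {Γ : Type} [Group Γ] {σ : Γ →* Spor.Fi22} (C : CE σ)

theorem tr_ed {x y y' : ℕ} (he : ed y y' = true) (h1 : nd y x = true) (h2 : nd y' x = true) :
    C.Tr (gS y * gS y') (gS x) := by
  refine tr_of_odd C (sq9 x) ?_ (m := 3) (by decide) (ed_pow he)
  rw [mul_assoc, nd_comm h2, ← mul_assoc, nd_comm h1, mul_assoc]

variable {C}

theorem tr_step {x y y' : ℕ} (h : C.Tr (gS y) (gS x)) (he : ed y y' = true) (h1 : nd y x = true) (h2 : nd y' x = true) :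
    C.Tr (gS y') (gS x) := tr_cancel (tr_ed C he h1 h2) h

/-- even products -/
theorem tr_join {x a b c : ℕ} (h1 : C.Tr (gS a * gS b) (gS x)) (h2 : C.Tr (gS b * gS c) (gS x)) :
    C.Tr (gS a * gS c) (gS x) := by
  have := h1.mul_left h2
  have e : gS a * gS b * (gS b * gS c) = gS a * gS c := by
    rw [mul_assoc, ← mul_assoc (gS b), sq9, one_mul]
  rwa [e] at this

theorem tr_flip {x a b : ℕ} (h1 : C.Tr (gS a * gS b) (gS x)) : C.Tr (gS b * gS a) (gS x) := by
  have := h1.inv_left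
  rwa [mul_inv_rev, inv_sq (sq9 a), inv_sq (sq9 b)] at this

variable (C)

/-- the letter `a` -/
theorem tr_79 : C.Tr (gS 7) (gS 9) := by
  have c : ∀ y, nd y 9 = true → gS y * gS 9 = gS 9 * gS y := fun y h => nd_comm h
  have h0 : C.Tr (gS 1 * gS 3 * gS 8 * gS 4 * gS 2 * gS 5 * gS 7) (gS 9) := by
    refine tr_of_odd C (sq9 9) ?_ (m := 9) (by decide) w_E3
    have k : ∀ y ∈ [1, 3, 8, 4, 2, 5, 7], Commute (gS y) (gS 9) := by
      intro y hy
      exact nd_comm (by revert y; decide +kernel)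
    exact ((((((k 1 (by decide)).mul_left (k 3 (by decide))).mul_left (k 8 (by decide))).mul_left
      (k 4 (by decide))).mul_left (k 2 (by decide))).mul_left (k 5 (by decide))).mul_left (k 7 (by decide))
  have e12 : C.Tr (gS 1 * gS 2) (gS 9) := tr_ed C (by decide +kernel) (by decide +kernel) (by decide +kernel)
  have e23 : C.Tr (gS 2 * gS 3) (gS 9) := tr_ed C (by decide +kernel) (by decide +kernel) (by decide +kernel)
  have e24 : C.Tr (gS 2 * gS 4) (gS 9) := tr_ed C (by decide +kernel) (by decide +kernel) (by decide +kernel)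
  have e35 : C.Tr (gS 3 * gS 5) (gS 9) := tr_ed C (by decide +kernel) (by decide +kernel) (by decide +kernel)
  have e58 : C.Tr (gS 5 * gS 8) (gS 9) := tr_ed C (by decide +kernel) (by decide +kernel) (by decide +kernel)
  have e13 := tr_join e12 e23
  have e25 := tr_join e23 e35
  have e84 := tr_flip (tr_join (tr_flip e24) (tr_join e25 e58))
  have h1 : C.Tr ((gS 1 * gS 3) * (gS 8 * gS 4) * (gS 2 * gS 5)) (gS 9) := (e13.mul_left e84).mul_left e25
  refine tr_cancel (x := (gS 1 * gS 3) * (gS 8 * gS 4) * (gS 2 * gS 5)) ?_ h1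
  simpa [mul_assoc] using h0

/-- pairs of letters that are not joined -/
theorem tr_nd {x y : ℕ} (h : nd x y = true) : C.Tr (gS x) (gS y) := by
  have s : ∀ {x y y' : ℕ}, C.Tr (gS y) (gS x) → (ed y y' && nd y x && nd y' x) = true → C.Tr (gS y') (gS x) := by
    intro x y y' h1 h2
    simp only [Bool.and_eq_true] at h2
    exact tr_step h1 h2.1.1 h2.1.2 h2.2
  -- with `a`
  have t79 := tr_79 C
  have t49 := s t79 (y' := 4) (by decide +kernel)
  have t29 := s t49 (y' := 2) (by decide +kernel)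
  have t19 := s t29 (y' := 1) (by decide +kernel)
  have t39 := s t29 (y' := 3) (by decide +kernel)
  have t59 := s t39 (y' := 5) (by decide +kernel)
  have t89 := s t59 (y' := 8) (by decide +kernel)
  -- with `g`
  have t68 := s t89.symm (y' := 6) (by decide +kernel)
  have t18 := s t68 (y' := 1) (by decide +kernel)
  have t28 := s t18 (y' := 2) (by decide +kernel)
  have t38 := s t28 (y' := 3) (by decide +kernel)
  have t48 := s t28 (y' := 4) (by decide +kernel)
  have t78 := s t48 (y' := 7) (by decide +kernel)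
  -- with `i`
  have t67 := s t79.symm (y' := 6) (by decide +kernel)
  have t17 := s t67 (y' := 1) (by decide +kernel)
  have t27 := s t17 (y' := 2) (by decide +kernel)
  have t37 := s t27 (y' := 3) (by decide +kernel)
  have t57 := s t37 (y' := 5) (by decide +kernel)
  -- with `b`
  have t56 := s t68.symm (y' := 5) (by decide +kernel)
  have t36 := s t56 (y' := 3) (by decide +kernel)
  have t26 := s t36 (y' := 2) (by decide +kernel)
  have t46 := s t26 (y' := 4) (by decide +kernel)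
  -- with `c`
  have t51 := s t18.symm (y' := 5) (by decide +kernel)
  have t31 := s t51 (y' := 3) (by decide +kernel)
  have t41 := s t17.symm (y' := 4) (by decide +kernel)
  -- with `d`
  have t52 := s t28.symm (y' := 5) (by decide +kernel)
  -- with `e`
  have t43 := s t37.symm (y' := 4) (by decide +kernel)
  -- with `h`
  have t54 := s t48.symm (y' := 5) (by decide +kernel)
  have key : ∀ p ∈ Fi22T9.RL, ∀ x y, p = ([x, y], 2) → C.Tr (gS x) (gS y) := by
    have hl : ∀ p ∈ Fi22T9.RL, p ∈ ([([1, 3], 2), ([1, 4], 2), ([1, 5], 2), ([1, 7], 2), ([1, 8], 2), ([1, 9], 2),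
        ([2, 5], 2), ([2, 6], 2), ([2, 7], 2), ([2, 8], 2), ([2, 9], 2), ([3, 4], 2), ([3, 6], 2), ([3, 7], 2),
        ([3, 8], 2), ([3, 9], 2), ([4, 5], 2), ([4, 6], 2), ([4, 8], 2), ([4, 9], 2), ([5, 6], 2), ([5, 7], 2),
        ([5, 9], 2), ([6, 7], 2), ([6, 8], 2), ([7, 8], 2), ([7, 9], 2), ([8, 9], 2)] : List (List ℕ × ℕ)) ∨ p.2 ≠ 2 := by
      decide +kernel
    intro p hp x y hxy
    rcases hl p hp with h | h
    · subst hxy
      simp only [List.mem_cons, Prod.mk.injEq, List.cons.injEq, and_true, List.not_mem_nil, or_false] at h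
      rcases h with ⟨rfl, rfl⟩ | ⟨rfl, rfl⟩ | ⟨rfl, rfl⟩ | ⟨rfl, rfl⟩ | ⟨rfl, rfl⟩ | ⟨rfl, rfl⟩ | ⟨rfl, rfl⟩ |
        ⟨rfl, rfl⟩ | ⟨rfl, rfl⟩ | ⟨rfl, rfl⟩ | ⟨rfl, rfl⟩ | ⟨rfl, rfl⟩ | ⟨rfl, rfl⟩ | ⟨rfl, rfl⟩ | ⟨rfl, rfl⟩ |
        ⟨rfl, rfl⟩ | ⟨rfl, rfl⟩ | ⟨rfl, rfl⟩ | ⟨rfl, rfl⟩ | ⟨rfl, rfl⟩ | ⟨rfl, rfl⟩ | ⟨rfl, rfl⟩ | ⟨rfl, rfl⟩ |
        ⟨rfl, rfl⟩ | ⟨rfl, rfl⟩ | ⟨rfl, rfl⟩ | ⟨rfl, rfl⟩ | ⟨rfl, rfl⟩
      · exact t31.symm
      · exact t41.symm
      · exact t51.symm
      · exact t17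
      · exact t18
      · exact t19
      · exact t52.symm
      · exact t26
      · exact t27
      · exact t28
      · exact t29
      · exact t43.symm
      · exact t36
      · exact t37
      · exact t38
      · exact t39
      · exact t54.symm
      · exact t46
      · exact t48
      · exact t49
      · exact t56
      · exact t57
      · exact t59
      · exact t67
      · exact t68
      · exact t78
      · exact t79
      · exact t89
    · exact absurd (by rw [hxy]) h
  simp only [nd, Bool.or_eq_true, List.contains_iff_mem] at h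
  rcases h with h | h
  · exact key _ h x y rfl
  · exact (key _ h y x rfl).symm

end

/-! ### systems of lifts -/

/-- lifts of the letters with the common square `z` -/
structure Lf {Γ : Type} [Group Γ] (σ : Γ →* Spor.Fi22) (y : ℕ → Γ) (z : Γ) : Prop where
  sg : ∀ x, isLet 9 x = true → σ (y x) = gS x
  sq : ∀ x, isLet 9 x = true → y x * y x = z
  br : ∀ x x', ed x x' = true → y x * y x' * y x = y x' * y x * y x'
  cm : ∀ x x', nd x x' = true → y x * y x' = y x' * y x

section

variable {Γ : Type} [Group Γ] {σ : Γ →* Spor.Fi22} (C : CE σ)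

include C in
/-- one step along an edge -/
theorem edge_lift {i j : ℕ} (h : ed i j = true) {X z : Γ} (hX : σ X = gS i) (hz : X * X = z) :
    ∃ Y, σ Y = gS j ∧ Y * Y = z ∧ X * Y * X = Y * X * Y := by
  have hc : (gS i * gS j) * gS i * (gS i * gS j)⁻¹ = gS j := J2.conj3_of (sq9 i) (sq9 j) (ed_pow h)
  obtain ⟨h1, h2⟩ := art3 C hX hc
  refine ⟨C.cj (gS i * gS j) X, h2, ?_, h1.symm⟩
  have hzc : X * X ∈ center Γ := C.central (by
    rw [MonoidHom.mem_ker, map_mul, hX, sq9])
  rw [← map_mul, C.cj_center _ hzc, hz]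

/-- the family of lifts -/
def fam (a b c d e f g h i : Γ) : ℕ → Γ
  | 1 => a | 2 => b | 3 => c | 4 => d | 5 => e | 6 => f | 7 => g | 8 => h | 9 => i | _ => 1

include C in
theorem exists_Lf : ∃ y z, Lf σ y z := by
  obtain ⟨X, hX⟩ := C.surj (gS 1)
  obtain ⟨y2, s2, q2, b2⟩ := edge_lift C (i := 1) (j := 2) (by decide +kernel) hX rfl
  obtain ⟨y6, s6, q6, b6⟩ := edge_lift C (i := 1) (j := 6) (by decide +kernel) hX rfl
  obtain ⟨y9, s9, q9, b9⟩ := edge_lift C (i := 6) (j := 9) (by decide +kernel) s6 q6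
  obtain ⟨y3, s3, q3, b3⟩ := edge_lift C (i := 2) (j := 3) (by decide +kernel) s2 q2
  obtain ⟨y4, s4, q4, b4⟩ := edge_lift C (i := 2) (j := 4) (by decide +kernel) s2 q2
  obtain ⟨y7, s7, q7, b7⟩ := edge_lift C (i := 4) (j := 7) (by decide +kernel) s4 q4
  obtain ⟨y5, s5, q5, b5⟩ := edge_lift C (i := 3) (j := 5) (by decide +kernel) s3 q3
  obtain ⟨y8, s8, q8, b8⟩ := edge_lift C (i := 5) (j := 8) (by decide +kernel) s5 q5
  have hsg : ∀ x, isLet 9 x = true → σ (fam X y2 y3 y4 y5 y6 y7 y8 y9 x) = gS x := by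
    intro x hx
    have h := isLet_iff.1 hx
    match x, h with
    | 1, _ => exact hX
    | 2, _ => exact s2
    | 3, _ => exact s3
    | 4, _ => exact s4
    | 5, _ => exact s5
    | 6, _ => exact s6
    | 7, _ => exact s7
    | 8, _ => exact s8
    | 9, _ => exact s9
    | (n + 10), h => omega
  refine ⟨fam X y2 y3 y4 y5 y6 y7 y8 y9, X * X, hsg, ?_, ?_, ?_⟩
  · intro x hx
    have h := isLet_iff.1 hx
    match x, h with
    | 1, _ => rfl
    | 2, _ => exact q2
    | 3, _ => exact q3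
    | 4, _ => exact q4
    | 5, _ => exact q5
    | 6, _ => exact q6
    | 7, _ => exact q7
    | 8, _ => exact q8
    | 9, _ => exact q9
    | (n + 10), h => omega
  · have key : ∀ x x', ([x, x'], 3) ∈ Fi22T9.RL → fam X y2 y3 y4 y5 y6 y7 y8 y9 x * fam X y2 y3 y4 y5 y6 y7 y8 y9 x' *
        fam X y2 y3 y4 y5 y6 y7 y8 y9 x = fam X y2 y3 y4 y5 y6 y7 y8 y9 x' * fam X y2 y3 y4 y5 y6 y7 y8 y9 x *
        fam X y2 y3 y4 y5 y6 y7 y8 y9 x' := by
      intro x x' h
      have hl : ∀ p ∈ Fi22T9.RL, p ∈ ([([1, 2], 3), ([1, 6], 3), ([2, 3], 3), ([2, 4], 3), ([3, 5], 3), ([4, 7], 3),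
        ([5, 8], 3), ([6, 9], 3)] : List (List ℕ × ℕ)) ∨ p.2 ≠ 3 := by decide +kernel
      rcases hl _ h with h | h
      · simp only [List.mem_cons, Prod.mk.injEq, List.cons.injEq, and_true, List.not_mem_nil, or_false] at h
        rcases h with ⟨rfl, rfl⟩ | ⟨rfl, rfl⟩ | ⟨rfl, rfl⟩ | ⟨rfl, rfl⟩ | ⟨rfl, rfl⟩ | ⟨rfl, rfl⟩ | ⟨rfl, rfl⟩ | ⟨rfl, rfl⟩
        · exact b2
        · exact b6
        · exact b3
        · exact b4
        · exact b5
        · exact b7
        · exact b8
        · exact b9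
      · exact absurd rfl h
    intro x x' h
    simp only [ed, Bool.or_eq_true, List.contains_iff_mem] at h
    rcases h with h | h
    · exact key _ _ h
    · exact (key _ _ h).symm
  · intro x x' h
    have hx : isLet 9 x = true ∧ isLet 9 x' = true := by
      have hl : ∀ p ∈ Fi22T9.RL, (p.1.all fun x => isLet 9 x) = true := by decide +kernel
      simp only [nd, Bool.or_eq_true, List.contains_iff_mem] at h
      rcases h with h | h <;> have h' := hl _ h <;> simp only [List.all_cons, Bool.and_eq_true] at h' <;> tauto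
    exact (C.tr_iff' (hsg _ hx.1) (hsg _ hx.2)).1 (tr_nd C h)

/-- scaling -/
theorem Lf.scale {y : ℕ → Γ} {z : Γ} (L : Lf σ y z) {t : Γ} (ht : σ t = 1) (hc : ∀ u, t * u = u * t) :
    Lf σ (fun x => t * y x) (t * t * z) where
  sg x hx := by rw [map_mul, ht, one_mul, L.sg x hx]
  sq x hx := by
    rw [← L.sq x hx]
    calc t * y x * (t * y x) = t * (y x * t) * y x := by simp only [mul_assoc]
      _ = t * (t * y x) * y x := by rw [hc (y x)]
      _ = _ := by simp only [mul_assoc]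
  br x x' h := by
    have e : ∀ a b : Γ, t * a * (t * b) * (t * a) = t * t * t * (a * b * a) := by
      intro a b
      calc t * a * (t * b) * (t * a) = t * (a * t) * (b * t) * a := by simp only [mul_assoc]
        _ = t * (t * a) * (t * b) * a := by rw [hc a, hc b]
        _ = t * t * (a * t) * (b * a) := by simp only [mul_assoc]
        _ = t * t * (t * a) * (b * a) := by rw [hc a]
        _ = _ := by simp only [mul_assoc]
    rw [e, e, L.br x x' h]
  cm x x' h := by
    have e : ∀ a b : Γ, t * a * (t * b) = t * t * (a * b) := by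
      intro a b
      calc t * a * (t * b) = t * (a * t) * b := by simp only [mul_assoc]
        _ = t * (t * a) * b := by rw [hc a]
        _ = _ := by simp only [mul_assoc]
    rw [e, e, L.cm x x' h]

end

end Cfsg.Agent.MRel.F22
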