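import Cfsg.Agent.MRel.F22U

set_option autoImplicit false
set_option maxRecDepth 1000000

/-!
The Schur multiplier of `Fi₂₂` from the two covers (owner: helper83).
-/

namespace Cfsg.Agent.MRel

open Cfsg.Agent.CosetEnum Subgroup Mult

/-- homomorphisms that agree on the letters are equal -/
theorem hom_letters {G H : Type*} [Group G] [Group H] {g : ℕ → G} {ng : ℕ} (ht : Cl g ng = ⊤) {f f' : G →* H}
    (h : ∀ x, isLet ng x = true → f (g x) = f' (g x)) : f = f' := by
  have hle : Cl g ng ≤ f.eqLocus f' := by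
    unfold Cl
    rw [closure_le]
    rintro _ ⟨x, hx, rfl⟩
    exact h x hx
  rw [ht] at hle
  ext x
  exact hle (mem_top x)

/-- a group generated by letters that are trivial in the abelianization is perfect -/
theorem perf_top {G : Type*} [Group G] {g : ℕ → G} {ng : ℕ} (ht : Cl g ng = ⊤)
    (h : ∀ x, isLet ng x = true → Abelianization.of (g x) = 1) : commutator G = ⊤ := by
  have h1 : (Abelianization.of : G →* Abelianization G) = 1 := hom_letters ht h
  rw [eq_top_iff]
  intro y _
  have h2 : Abelianization.of y = 1 := by rw [h1]; rfl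
  exact (QuotientGroup.eq_one_iff y).1 h2

/-- elements that commute with the letters -/
theorem cen_letters {G : Type*} [Group G] {g : ℕ → G} {ng : ℕ} (ht : Cl g ng = ⊤) {z : G}
    (h : ∀ x, isLet ng x = true → g x * z = z * g x) : z ∈ center G := by
  rw [mem_center_iff]
  have hle : Cl g ng ≤ centralizer {z} := by
    unfold Cl
    rw [closure_le]
    rintro _ ⟨x, hx, rfl⟩
    rw [SetLike.mem_coe, mem_centralizer_iff]
    rintro y rfl
    exact (h x hx).symm
  rw [ht] at hle
  intro y
  exact (mem_centralizer_iff.1 (hle (mem_top y)) z rfl).symm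

/-- a surjection of perfect central extensions over the same group -/
theorem ker_dvd {Γ Δ G : Type*} [Group Γ] [Group Δ] [Group G] {τ : Δ →* G} {σ : Γ →* G} (φ : Δ →* Γ)
    (hφ : Function.Surjective φ) (h : ∀ y, σ (φ y) = τ y) : Nat.card σ.ker ∣ Nat.card τ.ker := by
  let f : τ.ker →* σ.ker := (φ.comp τ.ker.subtype).codRestrict σ.ker (fun y => by
    rw [MonoidHom.mem_ker, MonoidHom.comp_apply, h]; exact y.2)
  have hf : Function.Surjective f := by
    rintro ⟨x, hx⟩
    obtain ⟨y, rfl⟩ := hφ x
    exact ⟨⟨y, by rw [MonoidHom.mem_ker, ← h]; exact hx⟩, rfl⟩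
  exact Subgroup.card_dvd_of_surjective f hf

end Cfsg.Agent.MRel

namespace Cfsg.Agent.MRel.F22

open Cfsg.Agent.CosetEnum Cfsg.Agent.CosetEnum.Fi22 Subgroup Mult

theorem uinv (x : ℕ) (h : ivL M83F9.iv x = x) : u x * u x = 1 := by
  have := uU.good.inv x
  rw [h] at this
  nth_rewrite 1 [this]
  exact inv_mul_cancel _

theorem urel {v : List ℕ} {m : ℕ} (h : (v, m) ∈ M83F9.RL) : ((v.map u).prod) ^ m = 1 := uU.good.rel (v, m) h

theorem ucen {x z : ℕ} (h : ([x, z, x, ivL M83F9.iv z], 1) ∈ M83F9.RL) (hx : ivL M83F9.iv x = x) : u x * u z = u z * u x := by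
  have h1 := urel h
  simp only [List.map_cons, List.map_nil, List.prod_cons, List.prod_nil, mul_one, pow_one, uU.good.inv z] at h1
  have h2 := uinv x hx
  have h3 : u x * u z * (u x * (u z)⁻¹) = 1 := by rw [← h1]; simp only [mul_assoc]
  have h4 := eq_inv_of_mul_eq_one_left h3
  rw [mul_inv_rev, inv_inv, inv_sq h2] at h4
  exact h4

theorem u98 : u 9 = (u 8)⁻¹ := uU.good.inv 8

theorem u8_11 : u 11 * u 8 = u 8 * u 11 := by
  have h1 := urel (v := [8, 11, 9, 11]) (m := 1) (by decide +kernel)
  simp only [List.map_cons, List.map_nil, List.prod_cons, List.prod_nil, mul_one, pow_one, u98] at h1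
  have h2 := uinv 11 rfl
  have h3 : u 8 * u 11 * ((u 8)⁻¹ * u 11) = 1 := by rw [← h1]; simp only [mul_assoc]
  have h4 := eq_inv_of_mul_eq_one_left h3
  rw [mul_inv_rev, inv_inv, inv_sq h2] at h4
  exact h4.symm

theorem cen8 : u 8 ∈ center U := by
  refine cen_letters uU.top fun x hx => ?_
  have h := isLet_iff.1 hx
  match x, h with
  | 1, _ => exact ucen (by decide +kernel) rfl
  | 2, _ => exact ucen (by decide +kernel) rfl
  | 3, _ => exact ucen (by decide +kernel) rfl
  | 4, _ => exact ucen (by decide +kernel) rfl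
  | 5, _ => exact ucen (by decide +kernel) rfl
  | 6, _ => exact ucen (by decide +kernel) rfl
  | 7, _ => exact ucen (by decide +kernel) rfl
  | 8, _ => rfl
  | 9, _ => rw [u98, inv_mul_cancel, mul_inv_cancel]
  | 10, _ => exact ucen (by decide +kernel) rfl
  | 11, _ => exact u8_11
  | 12, _ => exact ucen (by decide +kernel) rfl
  | (n + 13), h => omega

theorem cen11 : u 11 ∈ center U := by
  refine cen_letters uU.top fun x hx => ?_
  have h := isLet_iff.1 hx
  match x, h with
  | 1, _ => exact ucen (by decide +kernel) rfl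
  | 2, _ => exact ucen (by decide +kernel) rfl
  | 3, _ => exact ucen (by decide +kernel) rfl
  | 4, _ => exact ucen (by decide +kernel) rfl
  | 5, _ => exact ucen (by decide +kernel) rfl
  | 6, _ => exact ucen (by decide +kernel) rfl
  | 7, _ => exact ucen (by decide +kernel) rfl
  | 8, _ => exact u8_11.symm
  | 9, _ =>
    rw [u98]
    exact ((show Commute (u 8) (u 11) from u8_11.symm).inv_left).eq
  | 10, _ => exact ucen (by decide +kernel) rfl
  | 11, _ => rfl
  | 12, _ => exact ucen (by decide +kernel) rfl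
  | (n + 13), h => omega

/-- letters of `Fi₂₂` in the covering group -/
def mu : ℕ → ℕ
  | 1 => 1 | 2 => 2 | 3 => 3 | 4 => 4 | 5 => 5 | 6 => 6 | 7 => 7 | 8 => 10 | 9 => 12 | _ => 0

theorem mu_inv (x : ℕ) : ivL M83F9.iv (mu x) = mu x := by
  match x with
  | 0 => rfl
  | 1 => rfl
  | 2 => rfl
  | 3 => rfl
  | 4 => rfl
  | 5 => rfl
  | 6 => rfl
  | 7 => rfl
  | 8 => rfl
  | 9 => rfl
  | (n + 10) => rfl

/-- a family from the covering group in which the central letters are trivial satisfies the relators of `Fi₂₂` -/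
theorem good_quot {H : Type} [Group H] (φ : U →* H) (h8 : φ (u 8) = 1) (h11 : φ (u 11) = 1) :
    Good (fun x => φ (u (mu x))) 9 Fi22T9.iv Fi22T9.RL := by
  have hsq : ∀ x, φ (u (mu x)) * φ (u (mu x)) = 1 := fun x => by rw [← map_mul, uinv _ (mu_inv x), map_one]
  refine ⟨fun x => ?_, fun x hx => ?_, fun p hp => ?_⟩
  · have h : ivL Fi22T9.iv x = x := rfl
    rw [h]
    exact eq_inv_of_mul_eq_one_left (hsq x)
  · have h0 : mu x = 0 := by
      match x with
      | 0 => rfl
      | 1 => exact absurd hx (by decide)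
      | 2 => exact absurd hx (by decide)
      | 3 => exact absurd hx (by decide)
      | 4 => exact absurd hx (by decide)
      | 5 => exact absurd hx (by decide)
      | 6 => exact absurd hx (by decide)
      | 7 => exact absurd hx (by decide)
      | 8 => exact absurd hx (by decide)
      | 9 => exact absurd hx (by decide)
      | (n + 10) => rfl
    beta_reduce
    rw [h0, uU.good.one 0 rfl, map_one]
  · have hsplit : (Fi22T9.RL.all fun p => M83F9.RL.contains (p.1.map mu, p.2) || p == ([2, 1, 6, 2, 3, 5, 2, 4, 7], 10) ||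
        p == ([9, 6, 1, 2, 3, 5, 4], 9) || p == ([6, 1, 2, 3, 5, 8, 4], 9)) = true := by decide +kernel
    have hnd : ∀ x y, nd x y = true → φ (u (mu x)) * φ (u (mu y)) = φ (u (mu y)) * φ (u (mu x)) := by
      intro x y hxy
      have h2 : ∀ p ∈ Fi22T9.RL, p.2 = 2 → (p.1.map mu, p.2) ∈ M83F9.RL := by decide +kernel
      have key : ∀ x y, ([x, y], 2) ∈ Fi22T9.RL → u (mu x) * u (mu y) = u (mu y) * u (mu x) := by
        intro x y h
        have h3 := urel (h2 _ h rfl)
        simp only [List.map_cons, List.map_nil, List.prod_cons, List.prod_nil, mul_one] at h3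
        exact J2.comm_of_sq (uinv _ (mu_inv x)) (uinv _ (mu_inv y)) h3
      simp only [nd, Bool.or_eq_true, List.contains_iff_mem] at hxy
      rw [← map_mul, ← map_mul]
      congr 1
      rcases hxy with h | h
      · exact key _ _ h
      · exact (key _ _ h).symm
    simp only [List.all_eq_true, Bool.or_eq_true, beq_iff_eq, List.contains_iff_mem] at hsplit
    rcases hsplit p hp with ((h | h) | h) | h
    · have := urel h
      rw [List.map_map] at this
      have h3 : (p.1.map fun x => φ (u (mu x))).prod = φ ((p.1.map (u ∘ mu)).prod) := by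
        rw [map_list_prod, List.map_map]; rfl
      rw [h3, ← map_pow, this, map_one]
    · subst h
      have h1 := urel (v := expand ([2, 1, 6, 2, 3, 5, 2, 4, 7], 10) ++ [9]) (m := 1) (by decide +kernel)
      rw [pow_one, List.map_append, List.prod_append, rep_prod'] at h1
      have h2 := congrArg φ h1
      simp only [List.map_cons, List.map_nil, List.prod_cons, List.prod_nil, mul_one, map_mul, map_pow, map_one, u98,
        map_inv, h8, inv_one] at h2
      simpa only [List.map_cons, List.map_nil, List.prod_cons, List.prod_nil, mul_one, mu] using h2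
    · subst h
      have h1 := urel (v := [12, 1, 3, 4, 6, 2, 5]) (m := 9) (by decide +kernel)
      have h2 := congrArg φ h1
      simp only [List.map_cons, List.map_nil, List.prod_cons, List.prod_nil, mul_one, map_mul, map_pow, map_one] at h2
      have h3 := cox1 (a := φ (u (mu 9))) (b := φ (u (mu 6))) (c := φ (u (mu 1))) (d := φ (u (mu 2))) (e := φ (u (mu 3)))
        (f := φ (u (mu 5))) (h := φ (u (mu 4))) (hnd 9 3 (by decide +kernel)) (hnd 9 5 (by decide +kernel))
        (hnd 9 4 (by decide +kernel)) (hnd 9 1 (by decide +kernel)) (hnd 9 2 (by decide +kernel))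
        (hnd 6 3 (by decide +kernel)) (hnd 6 5 (by decide +kernel)) (hnd 6 4 (by decide +kernel))
        (hnd 6 2 (by decide +kernel)) (hnd 1 3 (by decide +kernel)) (hnd 1 5 (by decide +kernel))
        (hnd 1 4 (by decide +kernel)) (hnd 5 4 (by decide +kernel)) (hnd 5 2 (by decide +kernel))
      have h4 := pow_conj_one h3 (n := 9) (by
        rw [← h2]
        simp only [mu, mul_assoc])
      simpa only [List.map_cons, List.map_nil, List.prod_cons, List.prod_nil, mul_one, mul_assoc] using h4
    · subst h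
      have h1 := urel (v := expand ([1, 3, 10, 4, 6, 2, 5], 9) ++ [11]) (m := 1) (by decide +kernel)
      rw [pow_one, List.map_append, List.prod_append, rep_prod'] at h1
      have h2 := congrArg φ h1
      simp only [List.map_cons, List.map_nil, List.prod_cons, List.prod_nil, mul_one, map_mul, map_pow, map_one, h11] at h2
      have h3 := cox2 (g := φ (u (mu 8))) (b := φ (u (mu 6))) (c := φ (u (mu 1))) (d := φ (u (mu 2))) (e := φ (u (mu 3)))
        (f := φ (u (mu 5))) (h := φ (u (mu 4))) (hnd 8 3 (by decide +kernel)) (hnd 8 4 (by decide +kernel))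
        (hnd 8 6 (by decide +kernel)) (hnd 8 1 (by decide +kernel)) (hnd 8 2 (by decide +kernel))
        (hnd 6 3 (by decide +kernel)) (hnd 6 5 (by decide +kernel)) (hnd 6 4 (by decide +kernel))
        (hnd 6 2 (by decide +kernel)) (hnd 1 3 (by decide +kernel)) (hnd 1 5 (by decide +kernel))
        (hnd 1 4 (by decide +kernel)) (hnd 5 4 (by decide +kernel)) (hnd 5 2 (by decide +kernel))
      have h4 := pow_conj_one h3 (n := 9) (by
        rw [← h2]
        simp only [mu, mul_assoc])
      simpa only [List.map_cons, List.map_nil, List.prod_cons, List.prod_nil, mul_one, mul_assoc] using h4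

/-- the covering map -/
theorem exists_tau : ∃ τ : U →* Spor.Fi22, (∀ x, τ (u x) = FL gS x) ∧ PCE τ := by
  obtain ⟨τ, hτ⟩ := uU.univ _ _ goodG
  refine ⟨τ, hτ, ⟨?_, ?_⟩, ?_⟩
  · rw [← MonoidHom.range_eq_top, eq_top_iff, ← gS_univ.top]
    unfold Cl
    rw [closure_le]
    rintro _ ⟨x, hx, rfl⟩
    have h := isLet_iff.1 hx
    match x, h with
    | 1, _ => exact ⟨u 1, hτ 1⟩
    | 2, _ => exact ⟨u 2, hτ 2⟩
    | 3, _ => exact ⟨u 3, hτ 3⟩
    | 4, _ => exact ⟨u 4, hτ 4⟩
    | 5, _ => exact ⟨u 5, hτ 5⟩
    | 6, _ => exact ⟨u 6, hτ 6⟩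
    | 7, _ => exact ⟨u 7, hτ 7⟩
    | 8, _ => exact ⟨u 10, hτ 10⟩
    | 9, _ => exact ⟨u 12, hτ 12⟩
    | (n + 10), h => omega
  · let Z : Subgroup U := closure {u 8, u 11}
    have hZ : Z ≤ center U := by
      rw [closure_le]
      rintro x hx
      simp only [Set.mem_insert_iff, Set.mem_singleton_iff] at hx
      rcases hx with rfl | rfl
      · exact cen8
      · exact cen11
    have hZn : Z.Normal := by
      constructor
      intro x hx g
      rw [mem_center_iff.1 (hZ hx) g, mul_inv_cancel_right]
      exact hx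
    have m8 : (QuotientGroup.mk' Z) (u 8) = 1 := (QuotientGroup.eq_one_iff _).2 (subset_closure (by simp))
    have m11 : (QuotientGroup.mk' Z) (u 11) = 1 := (QuotientGroup.eq_one_iff _).2 (subset_closure (by simp))
    obtain ⟨φ, hφ⟩ := gS_univ.univ _ _ (good_quot (QuotientGroup.mk' Z) m8 m11)
    have he : φ.comp τ = QuotientGroup.mk' Z := by
      apply hom_letters uU.top
      intro x hx
      rw [MonoidHom.comp_apply, hτ]
      have h := isLet_iff.1 hx
      match x, h with
      | 1, _ => exact hφ 1
      | 2, _ => exact hφ 2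
      | 3, _ => exact hφ 3
      | 4, _ => exact hφ 4
      | 5, _ => exact hφ 5
      | 6, _ => exact hφ 6
      | 7, _ => exact hφ 7
      | 8, _ =>
        show φ (spi gS) = _
        rw [spi_one, map_one, m8]
      | 9, _ =>
        show φ (spi gS)⁻¹ = _
        rw [spi_one, inv_one, map_one, u98, map_inv, m8, inv_one]
      | 10, _ => exact hφ 8
      | 11, _ =>
        show φ (bip2 gS) = _
        rw [bip2_one, map_one, m11]
      | 12, _ => exact hφ 9
      | (n + 13), h => omega
    intro x hx
    apply hZ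
    rw [MonoidHom.mem_ker] at hx
    rw [← QuotientGroup.eq_one_iff x]
    show QuotientGroup.mk' Z x = 1
    rw [← he, MonoidHom.comp_apply, hx, map_one]
  · -- perfectness
    set α : U →* Abelianization U := Abelianization.of
    have hsq : ∀ x, ivL M83F9.iv x = x → α (u x) * α (u x) = 1 := fun x hx => by rw [← map_mul, uinv x hx, map_one]
    have hed : ∀ x y, ivL M83F9.iv x = x → ivL M83F9.iv y = y → ([x, y], 3) ∈ M83F9.RL → α (u y) = α (u x) := by
      intro x y hx hy h
      have h1 := congrArg α (urel h)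
      simp only [List.map_cons, List.map_nil, List.prod_cons, List.prod_nil, mul_one, map_pow, map_mul, map_one] at h1
      have h2 : (α (u x) * α (u y)) ^ 3 = (α (u x) * α (u x)) * (α (u y) * α (u y)) * (α (u x) * α (u y)) := by
        simp only [pow_succ, pow_zero, one_mul]
        ac_rfl
      rw [h2, hsq x hx, hsq y hy, one_mul, one_mul] at h1
      rw [← inv_sq (hsq x hx)]
      exact eq_inv_of_mul_eq_one_right h1
    have e2 := hed 1 2 rfl rfl (by decide +kernel)
    have e6 := hed 1 6 rfl rfl (by decide +kernel)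
    have e3 := (hed 2 3 rfl rfl (by decide +kernel)).trans e2
    have e4 := (hed 2 4 rfl rfl (by decide +kernel)).trans e2
    have e7 := (hed 4 7 rfl rfl (by decide +kernel)).trans e4
    have e5 := (hed 3 5 rfl rfl (by decide +kernel)).trans e3
    have e10 := (hed 5 10 rfl rfl (by decide +kernel)).trans e5
    have e12 := (hed 6 12 rfl rfl (by decide +kernel)).trans e6
    have e1 : α (u 1) = 1 := by
      have h1 := congrArg α (urel (v := [12, 1, 3, 4, 6, 2, 5]) (m := 9) (by decide +kernel))
      simp only [List.map_cons, List.map_nil, List.prod_cons, List.prod_nil, mul_one, map_pow, map_mul, map_one, e2, e3, e4,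
        e5, e6, e12] at h1
      have h2 := hsq 1 rfl
      generalize α (u 1) = a at *
      have h3 : (a * (a * (a * (a * (a * (a * a)))))) ^ 9 = (a * a) ^ 31 * a := by
        rw [← pow_two, ← pow_mul, ← pow_succ]
        simp only [← pow_succ', ← pow_mul]
      rw [h3, h2, one_pow, one_mul] at h1
      exact h1
    rw [e1] at e2 e3 e4 e5 e6 e7 e10 e12
    have e9 : α (u 9) = 1 := by
      have h1 := congrArg α (urel (v := expand ([2, 1, 6, 2, 3, 5, 2, 4, 7], 10) ++ [9]) (m := 1) (by decide +kernel))
      rw [pow_one, List.map_append, List.prod_append, rep_prod'] at h1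
      simp only [List.map_cons, List.map_nil, List.prod_cons, List.prod_nil, mul_one, map_pow, map_mul, map_one, e1, e2, e3,
        e4, e5, e6, e7, one_pow, one_mul] at h1
      exact h1
    have e8 : α (u 8) = 1 := by
      rw [u98, map_inv, inv_eq_one] at e9
      exact e9
    have e11 : α (u 11) = 1 := by
      have h1 := congrArg α (urel (v := expand ([1, 3, 10, 4, 6, 2, 5], 9) ++ [11]) (m := 1) (by decide +kernel))
      rw [pow_one, List.map_append, List.prod_append, rep_prod'] at h1
      simp only [List.map_cons, List.map_nil, List.prod_cons, List.prod_nil, mul_one, map_pow, map_mul, map_one, e1, e2, e3,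
        e4, e5, e6, e10, one_pow, one_mul] at h1
      exact h1
    apply perf_top uU.top
    intro x hx
    have h := isLet_iff.1 hx
    match x, h with
    | 1, _ => exact e1
    | 2, _ => exact e2
    | 3, _ => exact e3
    | 4, _ => exact e4
    | 5, _ => exact e5
    | 6, _ => exact e6
    | 7, _ => exact e7
    | 8, _ => exact e8
    | 9, _ => exact e9
    | 10, _ => exact e10
    | 11, _ => exact e11
    | 12, _ => exact e12
    | (n + 13), h => omega

instance : Finite U := by
  have := bdU.1
  exact Finite.of_equiv _ (Subgroup.topEquiv (G := U)).toEquiv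

/-- every perfect central extension is a quotient of the covering group -/
theorem univ_cover {Γ : Type} [Group Γ] {σ : Γ →* Spor.Fi22} (P : PCE σ) {τ : U →* Spor.Fi22}
    (hτ : ∀ x, τ (u x) = FL gS x) : Nat.card σ.ker ∣ Nat.card τ.ker := by
  obtain ⟨y, L, hE⟩ := exists_norm P.ce
  obtain ⟨φ, hφ⟩ := uU.univ _ _ (good12 P.ce L hE)
  have hc : ∀ x, σ (FL y x) = FL gS x := by
    intro x
    obtain ⟨h1, h2⟩ := map_spi σ L.sg
    match x with
    | 0 => exact map_one σ
    | 1 => exact L.sg 1 rfl
    | 2 => exact L.sg 2 rfl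
    | 3 => exact L.sg 3 rfl
    | 4 => exact L.sg 4 rfl
    | 5 => exact L.sg 5 rfl
    | 6 => exact L.sg 6 rfl
    | 7 => exact L.sg 7 rfl
    | 8 => exact h1
    | 9 => exact (map_inv σ _).trans (congrArg _ h1)
    | 10 => exact L.sg 8 rfl
    | 11 => exact h2
    | 12 => exact L.sg 9 rfl
    | (n + 13) => exact map_one σ
  have hτφ : σ.comp φ = τ := by
    apply hom_letters uU.top
    intro x _
    rw [MonoidHom.comp_apply, hφ, hc, hτ]
  refine ker_dvd φ ?_ (fun y => DFunLike.congr_fun hτφ y)
  rw [← MonoidHom.range_eq_top]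
  apply P.top_of_map
  rw [eq_top_iff, ← gS_univ.top]
  unfold Cl
  rw [closure_le]
  rintro _ ⟨x, hx, rfl⟩
  have h := isLet_iff.1 hx
  have k : ∀ x', FL gS x' = gS x → gS x ∈ φ.range.map σ := by
    intro x' hx'
    exact ⟨φ (u x'), ⟨u x', rfl⟩, by rw [hφ, hc, hx']⟩
  match x, h with
  | 1, _ => exact k 1 rfl
  | 2, _ => exact k 2 rfl
  | 3, _ => exact k 3 rfl
  | 4, _ => exact k 4 rfl
  | 5, _ => exact k 5 rfl
  | 6, _ => exact k 6 rfl
  | 7, _ => exact k 7 rfl
  | 8, _ => exact k 10 rfl
  | 9, _ => exact k 12 rfl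
  | (n + 10), h => omega

/-- **The Schur multiplier of `Fi₂₂`, from a double and a triple cover.** -/
theorem mult_of {Γ₂ Γ₃ : Type} [Group Γ₂] [Group Γ₃] {σ₂ : Γ₂ →* Spor.Fi22} {σ₃ : Γ₃ →* Spor.Fi22} (P₂ : PCE σ₂)
    (P₃ : PCE σ₃) (h2 : 2 ∣ Nat.card σ₂.ker) (h3 : 3 ∣ Nat.card σ₃.ker) : HasCyclicSchurMultiplier Spor.Fi22 6 := by
  obtain ⟨τ, hτ, P⟩ := exists_tau
  have hle := card_ker_le P (m := 6) bdU fi22_card (by norm_num) (by norm_num)
  have k2 := h2.trans (univ_cover P₂ hτ)
  have k3 := h3.trans (univ_cover P₃ hτ)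
  have hpos : 0 < Nat.card τ.ker := Nat.card_pos
  have h6 : Nat.card τ.ker = 6 := by omega
  have mb : MB Spor.Fi22 6 := by
    intro Γ _ _ σ P'
    rw [← h6]
    exact univ_cover P' hτ
  have hG : commutator Spor.Fi22 = ⊤ := P.base_perf
  have f2 : Fact (Nat.Prime 2) := ⟨by norm_num⟩
  have f3 : Fact (Nat.Prime 3) := ⟨by norm_num⟩
  obtain ⟨x, hx⟩ := exists_prime_orderOf_dvd_card' 2 k2
  obtain ⟨y, hy⟩ := exists_prime_orderOf_dvd_card' 3 k3
  have hxy : Commute x y := by
    apply Subtype.ext
    exact (mem_center_iff.1 (P.ce.central y.2) x).trans rfl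
  have ho := hxy.orderOf_mul_eq_mul_orderOf_of_coprime (by rw [hx, hy]; norm_num)
  rw [hx, hy] at ho
  refine cyclic_of hG (by norm_num) mb P (z := ((x * y : τ.ker) : U)) (x * y).2 ?_
  rw [Subgroup.orderOf_coe, ho]

end Cfsg.Agent.MRel.F22
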