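import Cfsg.Agent.MRel.J2
import Cfsg.Agent.MRel.G24
import Cfsg.Agent.MRel.Proj
import Cfsg.Agent.MRel.Tr
import Cfsg.Agent.MRel.CoxC
import Cfsg.Agent.MRel.F22X

set_option autoImplicit false

/-!
Lifts of families of transpositions attached to the nodes of a tree (owner: helper83).
-/

namespace Cfsg.Agent.MRel

open Cfsg.Agent.CosetEnum Subgroup Mult

theorem br_pow {H : Type*} [Group H] {A B : H} (s1 : A * A = 1) (s2 : B * B = 1) (hb : A * B * A = B * A * B) :
    (A * B) ^ 3 = 1 := by
  calc (A * B) ^ 3 = (A * B * A) * (B * A * B) := by simp only [pow_succ, pow_zero, one_mul, mul_assoc]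
    _ = (A * B * A) * (A * B * A) := by rw [hb]
    _ = A * B * (A * A) * B * A := by simp only [mul_assoc]
    _ = A * (B * B) * A := by rw [s1, mul_one, mul_assoc A B B]
    _ = 1 := by rw [s2, mul_one, s1]

theorem br_of_pow {H : Type*} [Group H] {A B : H} (s1 : A * A = 1) (s2 : B * B = 1) (h : (A * B) ^ 3 = 1) :
    A * B * A = B * A * B := by
  have h1 : (A * B * A) * (B * A * B) = 1 := by
    rw [← h]; simp only [pow_succ, pow_zero, one_mul, mul_assoc]
  have h2 := eq_inv_of_mul_eq_one_left h1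
  rw [mul_inv_rev, mul_inv_rev, inv_sq s1, inv_sq s2, ← mul_assoc] at h2
  exact h2

/-- a family of involutions attached to the nodes of a graph -/
structure YG {G : Type} [Group G] (g : ℕ → G) (ed nd : ℕ → ℕ → Bool) : Prop where
  sq : ∀ x, g x * g x = 1
  ed3 : ∀ x y, ed x y = true → (g x * g y) ^ 3 = 1
  nd2 : ∀ x y, nd x y = true → g x * g y = g y * g x

section

variable {G : Type} [Group G] {g : ℕ → G} {ed nd : ℕ → ℕ → Bool} (Y : YG g ed nd)
variable {Γ : Type} [Group Γ] {σ : Γ →* G} (C : CE σ)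

include Y in
theorem YG.tr_ed {t : G} (ht : t * t = 1) {y y' : ℕ} (he : ed y y' = true) (h1 : g y * t = t * g y)
    (h2 : g y' * t = t * g y') : C.Tr (g y * g y') t := by
  refine tr_of_odd C ht ?_ (m := 3) (by decide) (Y.ed3 _ _ he)
  rw [mul_assoc, h2, ← mul_assoc, h1, mul_assoc]

include Y in
theorem YG.tr_step {x y y' : ℕ} (h : C.Tr (g y) (g x)) (he : ed y y' = true) (h1 : nd y x = true)
    (h2 : nd y' x = true) : C.Tr (g y') (g x) :=
  tr_cancel (Y.tr_ed C (Y.sq x) he (Y.nd2 _ _ h1) (Y.nd2 _ _ h2)) h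

include Y in
theorem YG.tr_join {C : CE σ} {t : G} {a b c : ℕ} (h1 : C.Tr (g a * g b) t) (h2 : C.Tr (g b * g c) t) :
    C.Tr (g a * g c) t := by
  have := h1.mul_left h2
  have e : g a * g b * (g b * g c) = g a * g c := by
    rw [mul_assoc, ← mul_assoc (g b), Y.sq, one_mul]
  rwa [e] at this

include Y in
theorem YG.tr_flip {C : CE σ} {t : G} {a b : ℕ} (h1 : C.Tr (g a * g b) t) : C.Tr (g b * g a) t := by
  have := h1.inv_left
  rwa [mul_inv_rev, inv_sq (Y.sq a), inv_sq (Y.sq b)] at this

include Y in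
/-- the letters of an `E₇`-diagram with trivial ninth power commute with the lifts of involutions that centralize them -/
theorem YG.tr_e7 {t : G} (ht : t * t = 1) {a b c d e f h : ℕ} (hab : ed a b = true) (hbc : ed b c = true)
    (hcd : ed c d = true) (hde : ed d e = true) (hef : ed e f = true) (hdh : ed d h = true)
    (hw : (g a * g c * g e * g h * (g b * g d * g f)) ^ 9 = 1)
    (ka : g a * t = t * g a) (kb : g b * t = t * g b) (kc : g c * t = t * g c) (kd : g d * t = t * g d)
    (ke : g e * t = t * g e) (kf : g f * t = t * g f) (kh : g h * t = t * g h) : C.Tr (g a) t := by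
  have h0 : C.Tr (g a * g c * g e * g h * (g b * g d * g f)) t := by
    refine tr_of_odd C ht ?_ (m := 9) (by decide) hw
    have ka' : Commute (g a) t := ka
    have kb' : Commute (g b) t := kb
    have kc' : Commute (g c) t := kc
    have kd' : Commute (g d) t := kd
    have ke' : Commute (g e) t := ke
    have kf' : Commute (g f) t := kf
    have kh' : Commute (g h) t := kh
    exact ((((ka'.mul_left kc').mul_left ke').mul_left kh').mul_left ((kb'.mul_left kd').mul_left kf')).eq
  have eab := Y.tr_ed C ht hab ka kb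
  have ebc := Y.tr_ed C ht hbc kb kc
  have ecd := Y.tr_ed C ht hcd kc kd
  have ede := Y.tr_ed C ht hde kd ke
  have eef := Y.tr_ed C ht hef ke kf
  have edh := Y.tr_ed C ht hdh kd kh
  -- `g c * g e`, `g h * g b`, `g d * g f`
  have ece := Y.tr_join ecd ede
  have ebd := Y.tr_join ebc ecd
  have ebh := Y.tr_join ebd edh
  have ehb := Y.tr_flip ebh
  have edf := Y.tr_join ede eef
  have h1 : C.Tr ((g c * g e) * ((g h * g b) * (g d * g f))) t := ece.mul_left (ehb.mul_left edf)
  refine tr_cancel_right (y := (g c * g e) * ((g h * g b) * (g d * g f))) ?_ h1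
  have e : g a * g c * g e * g h * (g b * g d * g f) = g a * ((g c * g e) * ((g h * g b) * (g d * g f))) := by
    simp only [mul_assoc]
  rwa [e] at h0

/-- closure step for the commuting pairs -/
def nxt (ed nd : ℕ → ℕ → Bool) (n : ℕ) (T : List (ℕ × ℕ)) : List (ℕ × ℕ) :=
  (T ++ T.flatMap fun p => (p.2, p.1) ::
    ((List.range (n + 1)).filter fun y => ed p.1 y && nd p.1 p.2 && nd y p.2).map fun y => (y, p.2)).dedup

include Y in
theorem YG.tr_nxt (n : ℕ) {T : List (ℕ × ℕ)} (h : ∀ p ∈ T, C.Tr (g p.1) (g p.2)) :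
    ∀ p ∈ nxt ed nd n T, C.Tr (g p.1) (g p.2) := by
  intro p hp
  unfold nxt at hp
  rw [List.mem_dedup, List.mem_append] at hp
  rcases hp with hp | hp
  · exact h p hp
  · simp only [List.mem_flatMap, List.mem_cons, List.mem_map, List.mem_filter, Bool.and_eq_true] at hp
    obtain ⟨q, hq, rfl | ⟨y, ⟨_, ⟨h1, h2⟩, h3⟩, rfl⟩⟩ := hp
    · exact (h q hq).symm
    · exact Y.tr_step C (h q hq) h1 h2 h3

include Y in
theorem YG.tr_iter (n k : ℕ) {T : List (ℕ × ℕ)} (h : ∀ p ∈ T, C.Tr (g p.1) (g p.2)) :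
    ∀ p ∈ (nxt ed nd n)^[k] T, C.Tr (g p.1) (g p.2) := by
  induction k generalizing T with
  | zero => exact h
  | succ k ih => exact ih (Y.tr_nxt C n h)

end

/-- lifts of the letters with the common square `z` -/
structure LfY {Γ G : Type} [Group Γ] [Group G] (σ : Γ →* G) (g : ℕ → G) (n : ℕ) (ed nd : ℕ → ℕ → Bool) (y : ℕ → Γ)
    (z : Γ) : Prop where
  sg : ∀ x, isLet n x = true → σ (y x) = g x
  sq : ∀ x, isLet n x = true → y x * y x = z
  br : ∀ x x', ed x x' = true → y x * y x' * y x = y x' * y x * y x'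
  cm : ∀ x x', nd x x' = true → y x * y x' = y x' * y x

section

variable {G : Type} [Group G] {g : ℕ → G} {ed nd : ℕ → ℕ → Bool} (Y : YG g ed nd)
variable {Γ : Type} [Group Γ] {σ : Γ →* G} (C : CE σ)

include Y C in
/-- one step along an edge -/
theorem YG.edge_lift {i j : ℕ} (h : ed i j = true) {X z : Γ} (hX : σ X = g i) (hz : X * X = z) :
    ∃ Y, σ Y = g j ∧ Y * Y = z ∧ X * Y * X = Y * X * Y := by
  have hc : (g i * g j) * g i * (g i * g j)⁻¹ = g j := J2.conj3_of (Y.sq i) (Y.sq j) (Y.ed3 _ _ h)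
  obtain ⟨h1, h2⟩ := art3 C hX hc
  refine ⟨C.cj (g i * g j) X, h2, ?_, h1.symm⟩
  have hzc : X * X ∈ center Γ := C.central (by
    rw [MonoidHom.mem_ker, map_mul, hX, Y.sq])
  rw [← map_mul, C.cj_center _ hzc, hz]

include Y C in
theorem YG.exists_fam (par : ℕ → ℕ) (n : ℕ) (hpar : ∀ x, 2 ≤ x → x ≤ n → 1 ≤ par x ∧ par x < x ∧ ed (par x) x = true) :
    ∀ m, 1 ≤ m → m ≤ n → ∃ (y : ℕ → Γ) (z : Γ), (∀ x, 1 ≤ x → x ≤ m → σ (y x) = g x ∧ y x * y x = z) ∧
      ∀ x, 2 ≤ x → x ≤ m → y (par x) * y x * y (par x) = y x * y (par x) * y x := by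
  intro m
  induction m with
  | zero => intro h; omega
  | succ m ih =>
    intro _ hmn
    rcases Nat.eq_zero_or_pos m with rfl | hm
    · obtain ⟨X, hX⟩ := C.surj (g 1)
      refine ⟨fun _ => X, X * X, ?_, ?_⟩
      · intro x h1 h2
        have : x = 1 := by omega
        subst this
        exact ⟨hX, rfl⟩
      · intro x h1 h2
        omega
    · obtain ⟨y, z, h1, h2⟩ := ih hm (by omega)
      obtain ⟨p1, p2, p3⟩ := hpar (m + 1) (by omega) hmn
      obtain ⟨h3, h4⟩ := h1 (par (m + 1)) p1 (by omega)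
      obtain ⟨X, k1, k2, k3⟩ := Y.edge_lift C p3 h3 h4
      refine ⟨Function.update y (m + 1) X, z, ?_, ?_⟩
      · intro x hx1 hx2
        by_cases hx : x = m + 1
        · subst hx
          rw [Function.update_self]
          exact ⟨k1, k2⟩
        · rw [Function.update_of_ne hx]
          exact h1 x hx1 (by omega)
      · intro x hx1 hx2
        by_cases hx : x = m + 1
        · subst hx
          rw [Function.update_self, Function.update_of_ne (by omega)]
          exact k3
        · have := (hpar x hx1 (by omega)).2.1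
          rw [Function.update_of_ne hx, Function.update_of_ne (by omega)]
          exact h2 x hx1 (by omega)

include Y C in
theorem YG.exists_Lf {n : ℕ} (hn : 1 ≤ n) (par : ℕ → ℕ)
    (hpar : ∀ x, 2 ≤ x → x ≤ n → 1 ≤ par x ∧ par x < x ∧ ed (par x) x = true)
    (hed : ∀ x x', ed x x' = true → (2 ≤ x' ∧ x' ≤ n ∧ x = par x') ∨ (2 ≤ x ∧ x ≤ n ∧ x' = par x))
    (hnd : ∀ x x', nd x x' = true → isLet n x = true ∧ isLet n x' = true ∧ C.Tr (g x) (g x')) :
    ∃ y z, LfY σ g n ed nd y z := by
  obtain ⟨y, z, h1, h2⟩ := Y.exists_fam C par n hpar n hn le_rfl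
  have hsg : ∀ x, isLet n x = true → σ (y x) = g x := fun x hx => by
    have := isLet_iff.1 hx
    exact (h1 x this.1 this.2).1
  refine ⟨y, z, hsg, fun x hx => ?_, ?_, ?_⟩
  · have := isLet_iff.1 hx
    exact (h1 x this.1 this.2).2
  · intro x x' h
    rcases hed x x' h with ⟨k1, k2, k3⟩ | ⟨k1, k2, k3⟩
    · subst k3
      exact h2 x' k1 k2
    · subst k3
      exact (h2 x k1 k2).symm
  · intro x x' h
    obtain ⟨k1, k2, k3⟩ := hnd x x' h
    exact (C.tr_iff' (hsg _ k1) (hsg _ k2)).1 k3

/-- scaling -/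
theorem LfY.scale {n : ℕ} {y : ℕ → Γ} {z : Γ} (L : LfY σ g n ed nd y z) {t : Γ} (ht : σ t = 1) (hc : ∀ u, t * u = u * t) :
    LfY σ g n ed nd (fun x => t * y x) (t * t * z) where
  sg x hx := by rw [map_mul, ht, one_mul, L.sg x hx]
  sq x hx := by
    rw [← L.sq x hx]
    calc t * y x * (t * y x) = t * (y x * t) * y x := by simp only [mul_assoc]
      _ = t * (t * y x) * y x := by rw [hc (y x)]
      _ = _ := by simp only [mul_assoc]
  br x x' h := by
    have e : ∀ a b : Γ, t * a * (t * b) * (t * a) = t * t * t * (a * b * a) := by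
      intro a b
      calc t * a * (t * b) * (t * a) = t * (a * t) * (b * t) * a := by simp only [mul_assoc]
        _ = t * (t * a) * (t * b) * a := by rw [hc a, hc b]
        _ = t * t * (a * t) * (b * a) := by simp only [mul_assoc]
        _ = t * t * (t * a) * (b * a) := by rw [hc a]
        _ = _ := by simp only [mul_assoc]
    rw [e, e, L.br x x' h]
  cm x x' h := by
    have e : ∀ a b : Γ, t * a * (t * b) = t * t * (a * b) := by
      intro a b
      calc t * a * (t * b) = t * (a * t) * b := by simp only [mul_assoc]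
        _ = t * (t * a) * b := by rw [hc a]
        _ = _ := by simp only [mul_assoc]
    rw [e, e, L.cm x x' h]

/-- a power of a pair of products of commuting involutions -/
theorem sq4 {A B D E : Γ} {z : Γ} (ha : A * A = z) (hb : B * B = z) (hd : D * D = z) (he : E * E = z)
    (h1 : A * B = B * A) (h2 : A * D = D * A) (h3 : B * D = D * B) (h4 : A * E = E * A) (h5 : B * E = E * B)
    (h6 : D * E = E * D) : (A * B * D * E) * (A * B * D * E) = z ^ 4 := by
  rw [sq_mul_comm, sq_mul_comm, sq_mul_comm h1, ha, hb, hd, he]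
  · simp only [pow_succ, pow_zero, one_mul]
  · exact ((show Commute A D from h2).mul_left h3).eq
  · exact (((show Commute A E from h4).mul_left h5).mul_left h6).eq

theorem sq3 {A B D : Γ} {z : Γ} (ha : A * A = z) (hb : B * B = z) (hd : D * D = z)
    (h1 : A * B = B * A) (h2 : A * D = D * A) (h3 : B * D = D * B) : (A * B * D) * (A * B * D) = z ^ 3 := by
  rw [sq_mul_comm, sq_mul_comm h1, ha, hb, hd]
  · simp only [pow_succ, pow_zero, one_mul]
  · exact ((show Commute A D from h2).mul_left h3).eq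

include C in
/-- normalized lifts -/
theorem YG.exists_norm {n : ℕ} {y : ℕ → Γ} {z : Γ} (L : LfY σ g n ed nd y z) (hg : ∀ x, g x * g x = 1) {a b c d e f h : ℕ}
    (la : isLet n a = true) (lb : isLet n b = true) (lc : isLet n c = true) (ld : isLet n d = true)
    (le : isLet n e = true) (lf : isLet n f = true) (lh : isLet n h = true)
    (hac : nd a c = true) (hae : nd a e = true) (hce : nd c e = true) (hah : nd a h = true) (hch : nd c h = true)
    (heh : nd e h = true) (hbd : nd b d = true) (hbf : nd b f = true) (hdf : nd d f = true)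
    (hw : (g a * g c * g e * g h * (g b * g d * g f)) ^ 9 = 1) :
    ∃ y, LfY σ g n ed nd y 1 ∧ (y a * y c * y e * y h * (y b * y d * y f)) ^ 9 = 1 := by
  have hσ : ∀ x, isLet n x = true → σ (y x) = g x := L.sg
  have hz1 : σ z = 1 := by rw [← L.sq a la, map_mul, hσ a la, hg]
  have hz := cen_of_one C hz1
  have hr1 : σ ((y a * y c * y e * y h * (y b * y d * y f)) ^ 9) = 1 := by
    simp only [map_pow, map_mul]
    rw [hσ a la, hσ c lc, hσ e le, hσ h lh, hσ b lb, hσ d ld, hσ f lf]
    exact hw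
  have hB := sq4 (L.sq a la) (L.sq c lc) (L.sq e le) (L.sq h lh) (L.cm _ _ hac) (L.cm _ _ hae) (L.cm _ _ hce)
    (L.cm _ _ hah) (L.cm _ _ hch) (L.cm _ _ heh)
  have hW := sq3 (L.sq b lb) (L.sq d ld) (L.sq f lf) (L.cm _ _ hbd) (L.cm _ _ hbf) (L.cm _ _ hdf)
  have hr := cen_of_one C hr1
  have h1 := bip hz hB hW hr
  set r := (y a * y c * y e * y h * (y b * y d * y f)) ^ 9 with hrd
  obtain ⟨h2, h3⟩ := norm_pair (hr z) h1
  set t := r⁻¹ * z ^ 31 with ht
  have ht1 : σ t = 1 := by rw [ht, map_mul, map_inv, hr1, map_pow σ z, hz1, inv_one, one_pow, one_mul]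
  have hc := cen_of_one C ht1
  have L' := L.scale ht1 hc
  rw [h2] at L'
  refine ⟨fun x => t * y x, L', ?_⟩
  have e0 : ∀ (m n : ℕ) (a b : Γ), (t ^ m * a) * (t ^ n * b) = t ^ (m + n) * (a * b) := by
    intro m n a b
    have h5 : a * t ^ n = t ^ n * a := (((show Commute t a from hc a).pow_left n).eq).symm
    calc (t ^ m * a) * (t ^ n * b) = t ^ m * (a * t ^ n) * b := by simp only [mul_assoc]
      _ = t ^ m * (t ^ n * a) * b := by rw [h5]
      _ = _ := by rw [pow_add]; simp only [mul_assoc]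
  have e1 : ∀ x, t * y x = t ^ 1 * y x := fun x => by rw [pow_one]
  simp only [e1, e0]
  rw [((show Commute (t ^ 7) _ from ((show Commute t _ from hc _).pow_left 7))).mul_pow, ← pow_mul]
  exact h3

end

end Cfsg.Agent.MRel
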