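import Cfsg.Agent.MRel.F22Z
import Cfsg.Agent.MRel.Y3

set_option autoImplicit false
set_option maxRecDepth 1000000

/-!
The spider element of the covering group of `Fi₂₂` has order dividing three (owner: helper83).
-/

namespace Cfsg.Agent.MRel.F22

open Cfsg.Agent.CosetEnum Subgroup Mult
open Cfsg.Agent.CosetEnum.Fi22 (gS gS_univ fi22_card fi22_simple)

/-- the covering map has kernel of order six -/
theorem ker6 : ∃ τ : U →* Spor.Fi22, (∀ x, τ (u x) = FL gS x) ∧ PCE τ ∧ Nat.card τ.ker = 6 := by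
  obtain ⟨σ₂, P₂, c2⟩ := pce_of_double (Cfsg.Agent.CosetEnum.Fi23.cover Cfsg.Agent.CosetEnum.Fi23.gS_univ) perf22
  obtain ⟨σ₃, P₃, c3⟩ := F27.exists_triple
  obtain ⟨τ, hτ, P⟩ := exists_tau
  have hle := card_ker_le P (m := 6) bdU fi22_card (by norm_num) (by norm_num)
  have k2 := (by rw [c2] : 2 ∣ Nat.card σ₂.ker).trans (univ_cover P₂ hτ)
  have k3 := c3.trans (univ_cover P₃ hτ)
  have hpos : 0 < Nat.card τ.ker := Nat.card_pos
  exact ⟨τ, hτ, P, by omega⟩

theorem cardU : Nat.card U = 387370509926400 := by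
  obtain ⟨τ, _, P, h6⟩ := ker6
  rw [card_ker_eq P, h6, fi22_card]

/-- the relators of the covering presentation in an arbitrary group -/
theorem good12' {H : Type} [Group H] {y : ℕ → H} (sq : ∀ x, isLet 9 x = true → y x * y x = 1)
    (br : ∀ x x', ed x x' = true → y x * y x' * y x = y x' * y x * y x')
    (c : ∀ x x', nd x x' = true → y x * y x' = y x' * y x)
    (hE : (y 9 * y 1 * y 3 * y 4 * (y 6 * y 2 * y 5)) ^ 9 = 1)
    (hs : ∀ t, spi y * t = t * spi y) (hb : ∀ t, bip2 y * t = t * bip2 y) (hbsq : bip2 y * bip2 y = 1) :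
    Good (FL y) 12 M83F9.iv M83F9.RL := by
  have hcs : ∀ z ∈ [8, 11], ∀ t, FL y z * t = t * FL y z := by
    intro z hz
    simp only [List.mem_cons, List.not_mem_nil, or_false] at hz
    rcases hz with rfl | rfl
    · exact hs
    · exact hb
  have hinv : ∀ x, FL y (ivL M83F9.iv x) = (FL y x)⁻¹ := by
    intro x
    match x with
    | 0 => exact inv_one.symm
    | 1 => exact (inv_sq (sq 1 rfl)).symm
    | 2 => exact (inv_sq (sq 2 rfl)).symm
    | 3 => exact (inv_sq (sq 3 rfl)).symm
    | 4 => exact (inv_sq (sq 4 rfl)).symm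
    | 5 => exact (inv_sq (sq 5 rfl)).symm
    | 6 => exact (inv_sq (sq 6 rfl)).symm
    | 7 => exact (inv_sq (sq 7 rfl)).symm
    | 8 => rfl
    | 9 => exact (inv_inv _).symm
    | 10 => exact (inv_sq (sq 8 rfl)).symm
    | 11 => exact (inv_sq hbsq).symm
    | 12 => exact (inv_sq (sq 9 rfl)).symm
    | (n + 13) => exact inv_one.symm
  refine ⟨hinv, ?_, ?_⟩
  · intro x hx
    match x with
    | 0 => rfl
    | 1 => exact absurd hx (by decide)
    | 2 => exact absurd hx (by decide)
    | 3 => exact absurd hx (by decide)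
    | 4 => exact absurd hx (by decide)
    | 5 => exact absurd hx (by decide)
    | 6 => exact absurd hx (by decide)
    | 7 => exact absurd hx (by decide)
    | 8 => exact absurd hx (by decide)
    | 9 => exact absurd hx (by decide)
    | 10 => exact absurd hx (by decide)
    | 11 => exact absurd hx (by decide)
    | 12 => exact absurd hx (by decide)
    | (n + 13) => rfl
  · intro p hp
    have hsplit : (M83F9.RL.all fun p => cenRel [8, 11] M83F9.iv p || coxT p ||
        (p == (expand ([2, 1, 6, 2, 3, 5, 2, 4, 7], 10) ++ [9], 1)) ||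
        (p == (expand ([1, 3, 10, 4, 6, 2, 5], 9) ++ [11], 1)) || (p == ([12, 1, 3, 4, 6, 2, 5], 9))) = true := by
      decide +kernel
    simp only [List.all_eq_true, Bool.or_eq_true, beq_iff_eq] at hsplit
    rcases hsplit p hp with (((h | h) | h) | h) | h
    · exact cenRel_prod hinv hcs h
    · obtain ⟨u, m⟩ := p
      unfold coxT at h
      match u, h with
      | [x, x'], h =>
        simp only [Bool.and_eq_true, Bool.or_eq_true, bne_iff_ne, beq_iff_eq] at h
        obtain ⟨⟨h1, h2⟩, h3⟩ := h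
        obtain ⟨e1, e1'⟩ := FL_nu y h1
        obtain ⟨e2, e2'⟩ := FL_nu y h2
        simp only [List.map_cons, List.map_nil, List.prod_cons, List.prod_nil, mul_one, e1, e2]
        rcases h3 with ⟨rfl, h3⟩ | ⟨rfl, h3⟩
        · rw [pow_two, sq_mul_comm (c _ _ h3), sq _ e1', sq _ e2', one_mul]
        · exact br_pow (sq _ e1') (sq _ e2') (br _ _ h3)
    · subst h
      rw [pow_one, List.map_append, List.prod_append, rep_prod']
      simp only [List.map_cons, List.map_nil, List.prod_cons, List.prod_nil, mul_one, FL, ← mul_assoc]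
      exact mul_inv_cancel _
    · subst h
      rw [pow_one, List.map_append, List.prod_append, rep_prod']
      simp only [List.map_cons, List.map_nil, List.prod_cons, List.prod_nil, mul_one, FL, ← mul_assoc]
      unfold bip2
      simp only [← mul_assoc]
      exact mul_inv_cancel _
    · subst h
      simp only [List.map_cons, List.map_nil, List.prod_cons, List.prod_nil, mul_one, FL, ← mul_assoc]
      simpa only [← mul_assoc] using hE

/-! ### the group `2·Fi₂₂` -/

open Cfsg.Agent.CosetEnum.Fi23 (QK qK UK zK exists_phi kerK zK_ne_one cardK)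

theorem zK_cen : ∀ t : QK, zK * t = t * zK := by
  obtain ⟨φ, hφ, hz⟩ := exists_phi
  intro t
  have h1 : t * zK * t⁻¹ ∈ φ.ker := (inferInstance : φ.ker.Normal).conj_mem _ hz t
  rcases (kerK hφ hz).2 _ h1 with h | h
  · exfalso
    apply zK_ne_one
    rw [mul_inv_eq_one] at h
    exact mul_left_cancel (h.trans (mul_one t).symm)
  · rw [mul_inv_eq_iff_eq_mul] at h
    exact h.symm

theorem zK_sq : zK * zK = 1 := by
  obtain ⟨φ, hφ, hz⟩ := exists_phi
  rcases (kerK hφ hz).2 _ (φ.ker.mul_mem hz hz) with h | h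
  · exact h
  · exact absurd (mul_left_cancel (h.trans (mul_one _).symm)) zK_ne_one

theorem qK_sq (x : ℕ) : qK x * qK x = 1 := by
  have := UK.good.inv x
  have h : ivL Fi23F9.iv x = x := rfl
  rw [h] at this
  nth_rewrite 1 [this]
  exact inv_mul_cancel _

theorem qK_ed {x x' : ℕ} (h : ed x x' = true) : (qK x * qK x') ^ 3 = 1 := by
  have h2 : ∀ p ∈ Fi22T9.RL, p.2 = 3 → p ∈ Fi23F9.RL := by decide +kernel
  simp only [ed, Bool.or_eq_true, List.contains_iff_mem] at h
  rcases h with h | h
  · have := UK.good.rel _ (h2 _ h rfl)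
    simpa using this
  · have := UK.good.rel _ (h2 _ h rfl)
    exact G24.pair_flip (qK_sq x') (qK_sq x) (by simpa using this)

theorem qK_nd {x x' : ℕ} (h : nd x x' = true) : qK x * qK x' = qK x' * qK x := by
  have h2 : ∀ p ∈ Fi22T9.RL, p.2 = 2 → p ∈ Fi23F9.RL := by decide +kernel
  have key : ∀ x x', ([x, x'], 2) ∈ Fi22T9.RL → qK x * qK x' = qK x' * qK x := by
    intro x x' h
    have := UK.good.rel _ (h2 _ h rfl)
    exact J2.comm_of_sq (qK_sq x) (qK_sq x') (by simpa using this)
  simp only [nd, Bool.or_eq_true, List.contains_iff_mem] at h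
  rcases h with h | h
  · exact key _ _ h
  · exact (key _ _ h).symm

theorem qK_E1 : (qK 9 * qK 1 * qK 3 * qK 4 * (qK 6 * qK 2 * qK 5)) ^ 9 = 1 := by
  have n : ∀ {x y}, nd x y = true → qK x * qK y = qK y * qK x := fun h => qK_nd h
  have h3 := cox1 (a := qK 9) (b := qK 6) (c := qK 1) (d := qK 2) (e := qK 3) (f := qK 5) (h := qK 4)
    (n (by decide +kernel)) (n (by decide +kernel)) (n (by decide +kernel)) (n (by decide +kernel))
    (n (by decide +kernel)) (n (by decide +kernel)) (n (by decide +kernel)) (n (by decide +kernel))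
    (n (by decide +kernel)) (n (by decide +kernel)) (n (by decide +kernel)) (n (by decide +kernel))
    (n (by decide +kernel)) (n (by decide +kernel))
  rw [h3, conj_pow]
  have h4 := UK.good.rel ([9, 6, 1, 2, 3, 5, 4], 9) (by decide +kernel)
  have h5 : (qK 9 * qK 6 * qK 1 * qK 2 * qK 3 * qK 5 * qK 4) ^ 9 = 1 := by simpa [mul_assoc] using h4
  rw [h5, mul_one, mul_inv_cancel]

theorem zK_eq : (qK 6 * qK 1 * qK 2 * qK 3 * qK 5 * qK 8 * qK 4) ^ 9 = zK := by
  have h2 : Fi23T10.z9 = expand ([6, 1, 2, 3, 5, 8, 4], 9) := by decide +kernel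
  rw [zK, h2, rep_prod']
  simp [mul_assoc]

theorem bip2_qK : bip2 qK = zK := by
  have n : ∀ {x y}, nd x y = true → qK x * qK y = qK y * qK x := fun h => qK_nd h
  have h3 := cox2 (g := qK 8) (b := qK 6) (c := qK 1) (d := qK 2) (e := qK 3) (f := qK 5) (h := qK 4)
    (n (by decide +kernel)) (n (by decide +kernel)) (n (by decide +kernel)) (n (by decide +kernel))
    (n (by decide +kernel)) (n (by decide +kernel)) (n (by decide +kernel)) (n (by decide +kernel))
    (n (by decide +kernel)) (n (by decide +kernel)) (n (by decide +kernel)) (n (by decide +kernel))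
    (n (by decide +kernel)) (n (by decide +kernel))
  have h4 : (qK 6 * qK 1 * qK 2 * qK 3 * qK 5 * qK 8 * qK 4) ^ 9 =
      zK := zK_eq
  unfold bip2
  rw [h3, conj_pow, h4, ← zK_cen, mul_inv_cancel_right]
  exact inv_sq zK_sq

theorem spi_qK : spi qK = 1 := by
  have := UK.good.rel ([2, 1, 6, 2, 3, 5, 2, 4, 7], 10) (by decide +kernel)
  simpa [spi, mul_assoc] using this

theorem good_qK : Good (FL qK) 12 M83F9.iv M83F9.RL := by
  refine good12' (fun x _ => qK_sq x) (fun x x' h => ?_) (fun x x' h => qK_nd h) qK_E1 ?_ ?_ ?_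
  · exact br_of_pow (qK_sq x) (qK_sq x') (qK_ed h)
  · intro t; rw [spi_qK, one_mul, mul_one]
  · rw [bip2_qK]; exact zK_cen
  · rw [bip2_qK]; exact zK_sq

/-- **The spider element.** -/
theorem u8_cube : u 8 ^ 3 = 1 := by
  obtain ⟨θ, hθ⟩ := uU.univ _ _ good_qK
  have hs : Function.Surjective θ := by
    rw [← MonoidHom.range_eq_top, eq_top_iff, ← UK.top]
    unfold Cl
    rw [closure_le]
    rintro _ ⟨x, hx, rfl⟩
    have h := isLet_iff.1 hx
    match x, h with
    | 1, _ => exact ⟨u 1, hθ 1⟩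
    | 2, _ => exact ⟨u 2, hθ 2⟩
    | 3, _ => exact ⟨u 3, hθ 3⟩
    | 4, _ => exact ⟨u 4, hθ 4⟩
    | 5, _ => exact ⟨u 5, hθ 5⟩
    | 6, _ => exact ⟨u 6, hθ 6⟩
    | 7, _ => exact ⟨u 7, hθ 7⟩
    | 8, _ => exact ⟨u 10, hθ 10⟩
    | 9, _ => exact ⟨u 12, hθ 12⟩
    | (n + 10), h => omega
  have h1 := θ.ker.card_mul_index
  rw [Subgroup.index_ker, MonoidHom.range_eq_top.2 hs, Nat.card_congr Subgroup.topEquiv.toEquiv, cardU, cardK] at h1
  have h2 : Nat.card θ.ker = 3 := by omega
  have h3 : u 8 ∈ θ.ker := by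
    rw [MonoidHom.mem_ker, hθ]
    exact spi_qK
  have h4 : (⟨u 8, h3⟩ : θ.ker) ^ 3 = 1 := by rw [← h2]; exact pow_card_eq_one'
  exact congrArg Subtype.val h4

end Cfsg.Agent.MRel.F22
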