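import Cfsg.Agent.MRel.F22
import Cfsg.Agent.MRel.CoxC

set_option autoImplicit false
set_option maxRecDepth 1000000

/-!
The universal covering group of `Fi₂₂` (owner: helper83).
-/

namespace Cfsg.Agent.MRel.F22

open Cfsg.Agent.CosetEnum Cfsg.Agent.CosetEnum.Fi22 Subgroup Mult

section

variable {Γ : Type} [Group Γ] {σ : Γ →* Spor.Fi22} (C : CE σ)

include C

/-- normalized lifts -/
theorem exists_norm : ∃ y, Lf σ y 1 ∧ (y 9 * y 1 * y 3 * y 4 * (y 6 * y 2 * y 5)) ^ 9 = 1 := by
  obtain ⟨y, z, L⟩ := exists_Lf C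
  have hσ : ∀ x, isLet 9 x = true → σ (y x) = gS x := L.sg
  have hz1 : σ z = 1 := by rw [← L.sq 1 rfl, map_mul, hσ 1 rfl, sq9]
  have hz := cen_of_one C hz1
  have c : ∀ x x', nd x x' = true → y x * y x' = y x' * y x := L.cm
  have hr1 : σ ((y 9 * y 1 * y 3 * y 4 * (y 6 * y 2 * y 5)) ^ 9) = 1 := by
    simp only [map_pow, map_mul]
    rw [hσ 9 rfl, hσ 1 rfl, hσ 3 rfl, hσ 4 rfl, hσ 6 rfl, hσ 2 rfl, hσ 5 rfl]
    exact w_E1
  have hB : (y 9 * y 1 * y 3 * y 4) * (y 9 * y 1 * y 3 * y 4) = z ^ 4 := by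
    rw [sq_mul_comm, sq_mul_comm, sq_mul_comm, L.sq 9 rfl, L.sq 1 rfl, L.sq 3 rfl, L.sq 4 rfl]
    · simp only [pow_succ, pow_zero, one_mul]
    · exact c 9 1 (by decide +kernel)
    · exact ((show Commute (y 9) (y 3) from c 9 3 (by decide +kernel)).mul_left (c 1 3 (by decide +kernel))).eq
    · exact (((show Commute (y 9) (y 4) from c 9 4 (by decide +kernel)).mul_left (c 1 4 (by decide +kernel))).mul_left
        (c 3 4 (by decide +kernel))).eq
  have hW : (y 6 * y 2 * y 5) * (y 6 * y 2 * y 5) = z ^ 3 := by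
    rw [sq_mul_comm, sq_mul_comm, L.sq 6 rfl, L.sq 2 rfl, L.sq 5 rfl]
    · simp only [pow_succ, pow_zero, one_mul]
    · exact c 6 2 (by decide +kernel)
    · exact ((show Commute (y 6) (y 5) from c 6 5 (by decide +kernel)).mul_left (c 2 5 (by decide +kernel))).eq
  have hr := cen_of_one C hr1
  have h1 := bip hz hB hW hr
  have hg : y 9 * y 1 * y 3 * y 4 * (y 6 * y 2 * y 5) = (y 9 * y 1 * y 3 * y 4) * (y 6 * y 2 * y 5) := rfl
  set r := (y 9 * y 1 * y 3 * y 4 * (y 6 * y 2 * y 5)) ^ 9 with hrd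
  obtain ⟨h2, h3⟩ := norm_pair (hr z) h1
  set t := r⁻¹ * z ^ 31 with ht
  have ht1 : σ t = 1 := by rw [ht, map_mul, map_inv, hr1, map_pow σ z, hz1, inv_one, one_pow, one_mul]
  have hc := cen_of_one C ht1
  have L' := L.scale ht1 hc
  rw [h2] at L'
  refine ⟨fun x => t * y x, L', ?_⟩
  have e : ∀ (m n : ℕ) (a b : Γ), (t ^ m * a) * (t ^ n * b) = t ^ (m + n) * (a * b) := by
    intro m n a b
    have h5 : a * t ^ n = t ^ n * a := (((show Commute t a from hc a).pow_left n).eq).symm
    calc (t ^ m * a) * (t ^ n * b) = t ^ m * (a * t ^ n) * b := by simp only [mul_assoc]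
      _ = t ^ m * (t ^ n * a) * b := by rw [h5]
      _ = _ := by rw [pow_add]; simp only [mul_assoc]
  have e1 : ∀ x, t * y x = t ^ 1 * y x := fun x => by rw [pow_one]
  simp only [e1, e]
  rw [((show Commute (t ^ 7) _ from ((show Commute t _ from hc _).pow_left 7))).mul_pow, ← pow_mul]
  exact h3

end

/-- letters of the certificate and letters of `Fi₂₂` -/
def nu : ℕ → ℕ
  | 1 => 1 | 2 => 2 | 3 => 3 | 4 => 4 | 5 => 5 | 6 => 6 | 7 => 7 | 10 => 8 | 12 => 9 | _ => 0

/-- the spider element -/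
def spi {Γ : Type} [Group Γ] (y : ℕ → Γ) : Γ := (y 2 * y 1 * y 6 * y 2 * y 3 * y 5 * y 2 * y 4 * y 7) ^ 10

/-- the second element -/
def bip2 {Γ : Type} [Group Γ] (y : ℕ → Γ) : Γ := ((y 1 * y 3 * y 8 * y 4 * (y 6 * y 2 * y 5)) ^ 9)⁻¹

/-- the letters of the covering group -/
def FL {Γ : Type} [Group Γ] (y : ℕ → Γ) : ℕ → Γ
  | 1 => y 1
  | 2 => y 2
  | 3 => y 3
  | 4 => y 4
  | 5 => y 5
  | 6 => y 6
  | 7 => y 7
  | 8 => spi y
  | 9 => (spi y)⁻¹
  | 10 => y 8
  | 11 => bip2 y
  | 12 => y 9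
  | _ => 1

theorem spi_one : spi gS = 1 := by
  have := rel9 (u := [2, 1, 6, 2, 3, 5, 2, 4, 7]) (m := 10) (by decide +kernel)
  simpa [spi, mul_assoc] using this

theorem bip2_one : bip2 gS = 1 := by
  unfold bip2
  rw [w_E2, inv_one]

/-- test of the Coxeter relators -/
def coxT (p : List ℕ × ℕ) : Bool :=
  match p.1 with
  | [x, y] => (nu x != 0) && (nu y != 0) && ((p.2 == 2 && nd (nu x) (nu y)) || (p.2 == 3 && ed (nu x) (nu y)))
  | _ => false

theorem FL_nu {Γ : Type} [Group Γ] (y : ℕ → Γ) {x : ℕ} (h : nu x ≠ 0) : FL y x = y (nu x) ∧ isLet 9 (nu x) = true := by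
  match x with
  | 0 => exact absurd rfl h
  | 1 => exact ⟨rfl, rfl⟩
  | 2 => exact ⟨rfl, rfl⟩
  | 3 => exact ⟨rfl, rfl⟩
  | 4 => exact ⟨rfl, rfl⟩
  | 5 => exact ⟨rfl, rfl⟩
  | 6 => exact ⟨rfl, rfl⟩
  | 7 => exact ⟨rfl, rfl⟩
  | 8 => exact absurd rfl h
  | 9 => exact absurd rfl h
  | 10 => exact ⟨rfl, rfl⟩
  | 11 => exact absurd rfl h
  | 12 => exact ⟨rfl, rfl⟩
  | (n + 13) => exact absurd rfl h

section

variable {Γ : Type} [Group Γ] {σ : Γ →* Spor.Fi22} (C : CE σ)

theorem map_spi {Γ' : Type} [Group Γ'] (φ : Γ →* Γ') {y : ℕ → Γ} {y' : ℕ → Γ'} (h : ∀ x, isLet 9 x = true → φ (y x) = y' x) :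
    φ (spi y) = spi y' ∧ φ (bip2 y) = bip2 y' := by
  unfold spi bip2
  simp only [map_inv, map_pow, map_mul]
  rw [h 1 rfl, h 2 rfl, h 3 rfl, h 4 rfl, h 5 rfl, h 6 rfl, h 7 rfl, h 8 rfl]
  exact ⟨rfl, rfl⟩

include C in
/-- the relators of the covering presentation -/
theorem good12 {y : ℕ → Γ} (L : Lf σ y 1) (hE : (y 9 * y 1 * y 3 * y 4 * (y 6 * y 2 * y 5)) ^ 9 = 1) :
    Good (FL y) 12 M83F9.iv M83F9.RL := by
  have hsp : σ (spi y) = 1 := by rw [(map_spi σ L.sg).1, spi_one]
  have hbp : σ (bip2 y) = 1 := by rw [(map_spi σ L.sg).2, bip2_one]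
  have sq : ∀ x, isLet 9 x = true → y x * y x = 1 := L.sq
  have c : ∀ x x', nd x x' = true → y x * y x' = y x' * y x := L.cm
  have hbsq : bip2 y * bip2 y = 1 := by
    have hB : (y 1 * y 3 * y 8 * y 4) * (y 1 * y 3 * y 8 * y 4) = 1 := by
      rw [sq_mul_comm, sq_mul_comm, sq_mul_comm, sq 1 rfl, sq 3 rfl, sq 8 rfl, sq 4 rfl]
      · simp
      · exact c 1 3 (by decide +kernel)
      · exact ((show Commute (y 1) (y 8) from c 1 8 (by decide +kernel)).mul_left (c 3 8 (by decide +kernel))).eq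
      · exact (((show Commute (y 1) (y 4) from c 1 4 (by decide +kernel)).mul_left (c 3 4 (by decide +kernel))).mul_left
          (c 8 4 (by decide +kernel))).eq
    have hW : (y 6 * y 2 * y 5) * (y 6 * y 2 * y 5) = 1 := by
      rw [sq_mul_comm, sq_mul_comm, sq 6 rfl, sq 2 rfl, sq 5 rfl]
      · simp
      · exact c 6 2 (by decide +kernel)
      · exact ((show Commute (y 6) (y 5) from c 6 5 (by decide +kernel)).mul_left (c 2 5 (by decide +kernel))).eq
    have h1 : σ ((y 1 * y 3 * y 8 * y 4 * (y 6 * y 2 * y 5)) ^ 9) = 1 := by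
      have := hbp
      unfold bip2 at this
      rwa [map_inv, inv_eq_one] at this
    unfold bip2
    rw [← mul_inv_rev, pow_pair_sq hB hW 9 (cen_of_one C h1), inv_one]
  have hcs : ∀ z ∈ [8, 11], ∀ t, FL y z * t = t * FL y z := by
    intro z hz
    simp only [List.mem_cons, List.not_mem_nil, or_false] at hz
    rcases hz with rfl | rfl
    · exact cen_of_one C hsp
    · exact cen_of_one C hbp
  have hinv : ∀ x, FL y (ivL M83F9.iv x) = (FL y x)⁻¹ := by
    intro x
    match x with
    | 0 => exact inv_one.symm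
    | 1 => exact (inv_sq (sq 1 rfl)).symm
    | 2 => exact (inv_sq (sq 2 rfl)).symm
    | 3 => exact (inv_sq (sq 3 rfl)).symm
    | 4 => exact (inv_sq (sq 4 rfl)).symm
    | 5 => exact (inv_sq (sq 5 rfl)).symm
    | 6 => exact (inv_sq (sq 6 rfl)).symm
    | 7 => exact (inv_sq (sq 7 rfl)).symm
    | 8 => rfl
    | 9 => exact (inv_inv _).symm
    | 10 => exact (inv_sq (sq 8 rfl)).symm
    | 11 => exact (inv_sq hbsq).symm
    | 12 => exact (inv_sq (sq 9 rfl)).symm
    | (n + 13) => exact inv_one.symm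
  refine ⟨hinv, ?_, ?_⟩
  · intro x hx
    match x with
    | 0 => rfl
    | 1 => exact absurd hx (by decide)
    | 2 => exact absurd hx (by decide)
    | 3 => exact absurd hx (by decide)
    | 4 => exact absurd hx (by decide)
    | 5 => exact absurd hx (by decide)
    | 6 => exact absurd hx (by decide)
    | 7 => exact absurd hx (by decide)
    | 8 => exact absurd hx (by decide)
    | 9 => exact absurd hx (by decide)
    | 10 => exact absurd hx (by decide)
    | 11 => exact absurd hx (by decide)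
    | 12 => exact absurd hx (by decide)
    | (n + 13) => rfl
  · intro p hp
    have hsplit : (M83F9.RL.all fun p => cenRel [8, 11] M83F9.iv p || coxT p ||
        (p == (expand ([2, 1, 6, 2, 3, 5, 2, 4, 7], 10) ++ [9], 1)) ||
        (p == (expand ([1, 3, 10, 4, 6, 2, 5], 9) ++ [11], 1)) || (p == ([12, 1, 3, 4, 6, 2, 5], 9))) = true := by
      decide +kernel
    simp only [List.all_eq_true, Bool.or_eq_true, beq_iff_eq] at hsplit
    rcases hsplit p hp with (((h | h) | h) | h) | h
    · exact cenRel_prod hinv hcs h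
    · obtain ⟨u, m⟩ := p
      unfold coxT at h
      match u, h with
      | [x, x'], h =>
        simp only [Bool.and_eq_true, Bool.or_eq_true, bne_iff_ne, beq_iff_eq] at h
        obtain ⟨⟨h1, h2⟩, h3⟩ := h
        obtain ⟨e1, e1'⟩ := FL_nu y h1
        obtain ⟨e2, e2'⟩ := FL_nu y h2
        simp only [List.map_cons, List.map_nil, List.prod_cons, List.prod_nil, mul_one, e1, e2]
        rcases h3 with ⟨rfl, h3⟩ | ⟨rfl, h3⟩
        · rw [pow_two, sq_mul_comm (c _ _ h3), sq _ e1', sq _ e2', one_mul]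
        · have hb := L.br _ _ h3
          have s1 := sq _ e1'
          have s2 := sq _ e2'
          generalize y (nu x) = A at *
          generalize y (nu x') = B at *
          calc (A * B) ^ 3 = (A * B * A) * (B * A * B) := by simp only [pow_succ, pow_zero, one_mul, mul_assoc]
            _ = (A * B * A) * (A * B * A) := by rw [hb]
            _ = A * B * (A * A) * B * A := by simp only [mul_assoc]
            _ = A * (B * B) * A := by rw [s1, mul_one, mul_assoc A B B]
            _ = 1 := by rw [s2, mul_one, s1]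
    · subst h
      rw [pow_one, List.map_append, List.prod_append, rep_prod']
      simp only [List.map_cons, List.map_nil, List.prod_cons, List.prod_nil, mul_one, FL, ← mul_assoc]
      exact mul_inv_cancel _
    · subst h
      rw [pow_one, List.map_append, List.prod_append, rep_prod']
      simp only [List.map_cons, List.map_nil, List.prod_cons, List.prod_nil, mul_one, FL, ← mul_assoc]
      unfold bip2
      simp only [← mul_assoc]
      exact mul_inv_cancel _
    · subst h
      simp only [List.map_cons, List.map_nil, List.prod_cons, List.prod_nil, mul_one, FL, ← mul_assoc]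
      simpa only [← mul_assoc] using hE

end

/-! ### the presented covering group -/

/-- the covering group -/
abbrev U : Type := QG 12 M83F9.iv M83F9.RL

/-- its letters -/
abbrev u : ℕ → U := qg 12 M83F9.iv M83F9.RL

theorem uU : Univ u 12 M83F9.iv M83F9.RL := univ_qg _ _ _

theorem idCE : CE (MonoidHom.id Spor.Fi22) := ⟨Function.surjective_id, by
  intro x hx
  rw [MonoidHom.mem_ker, MonoidHom.id_apply] at hx
  rw [hx]; exact one_mem _⟩

theorem LfG : Lf (MonoidHom.id Spor.Fi22) gS 1 where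
  sg _ _ := rfl
  sq x _ := sq9 x
  br x x' h := by
    have h1 := J2.conj3_of (sq9 x) (sq9 x') (ed_pow h)
    rw [mul_inv_rev, inv_sq (sq9 x), inv_sq (sq9 x')] at h1
    have h2 : gS x * gS x' * gS x * (gS x' * gS x) * gS x = gS x' * gS x := by rw [h1]
    rw [mul_assoc _ (gS x' * gS x) (gS x), mul_assoc (gS x') (gS x) (gS x), sq9, mul_one] at h2
    have h3 : gS x * gS x' * gS x * gS x' * gS x' = gS x' * gS x * gS x' := by rw [h2]
    rwa [mul_assoc _ (gS x') (gS x'), sq9, mul_one] at h3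
  cm x x' h := nd_comm h

theorem goodG : Good (FL gS) 12 M83F9.iv M83F9.RL := good12 idCE LfG w_E1

theorem bdU : Bd (⊤ : Subgroup U) 387370509926400 := by
  have g := uU.good
  rw [← uU.top]
  have h2 := (Bd.zero u).cl (M := 6) Fi22F2.cert g (by decide +kernel) (by decide +kernel) (by norm_num) rfl
  have h3 := h2.cl (M := 24) Fi22F3.cert g (by decide +kernel) (by decide +kernel) (by norm_num) rfl
  have h4 := h3.cl (M := 192) Fi22F4.cert g (by decide +kernel) (by decide +kernel) (by norm_num) rfl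
  have h5 := h4.cl (M := 1920) Fi22F5.cert g (by decide +kernel) (by decide +kernel) (by norm_num) rfl
  have h6 := h5.cl (M := 51840) Fi22F6.cert g (by decide +kernel) (by decide +kernel) (by norm_num) rfl
  have h7 := h6.cl (M := 37791360) M83F7.cert g (by decide +kernel) (by decide +kernel) (by norm_num) rfl
  have h8 := h7.cl (M := 27512110080) M83F8.cert g (by decide +kernel) (by decide +kernel) (by norm_num) rfl
  exact h8.cl (M := 387370509926400) M83F9.cert g (by decide +kernel) (by decide +kernel) (by norm_num) rfl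

end Cfsg.Agent.MRel.F22
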