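import Cfsg.Agent.MRel.F22X
import Cfsg.Agent.CosetEnum.M83.FM0
import Cfsg.Agent.CosetEnum.M83.FM1
import Cfsg.Agent.CosetEnum.M83.FM2

set_option autoImplicit false
set_option maxRecDepth 1000000

/-!
The triple cover of `Fi₂₂` from its representation of degree twenty-seven over the field with four elements
(owner: helper83).
-/

namespace Cfsg.Agent.MRel

open Cfsg.Agent.CosetEnum Subgroup Mult

theorem ne_of_perf {R : Type} [Group R] {M : ℕ → R} {ng : ℕ} (h1 : commutator ↥(Cl M ng) = ⊤) {w : List ℕ}
    (hw : wOK ng w = true) (h : (w.map M).prod ≠ 1) : ∃ x, M x ∉ center R := by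
  by_contra hcon
  push Not at hcon
  have hle : Cl M ng ≤ center R := by
    unfold Cl
    rw [closure_le]
    rintro _ ⟨x, _, rfl⟩
    exact hcon x
  have h2 : commutator ↥(Cl M ng) = ⊥ := by
    rw [_root_.commutator_def, commutator_eq_bot_iff_le_centralizer]
    intro x _ y _
    exact Subtype.ext (mem_center_iff.1 (hle x.2) y)
  rw [h2] at h1
  have h3 : (⟨(w.map M).prod, word_mem_Cl M hw⟩ : Cl M ng) = 1 := by
    have : (⟨(w.map M).prod, word_mem_Cl M hw⟩ : Cl M ng) ∈ (⊥ : Subgroup ↥(Cl M ng)) := by
      rw [h1]; exact mem_top _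
    exact mem_bot.1 this
  exact h (congrArg Subtype.val h3)

theorem dvd_ker {R G : Type} [Group R] [Group G] {M : ℕ → R} {ng : ℕ} {σ : Cl M ng →* G}
    (h2 : ∀ y : Cl M ng, σ y = 1 ↔ (y : R) ∈ center R) {w : List ℕ} (hw : wOK ng w = true)
    (h : (w.map M).prod ∈ center R) {n : ℕ} (ho : orderOf (w.map M).prod = n) : n ∣ Nat.card σ.ker := by
  let y : Cl M ng := ⟨(w.map M).prod, word_mem_Cl M hw⟩
  have hy : y ∈ σ.ker := by
    rw [MonoidHom.mem_ker, h2]
    exact h
  have ho : orderOf (⟨y, hy⟩ : σ.ker) = n := by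
    rw [Subgroup.orderOf_mk, Subgroup.orderOf_mk, ho]
  rw [← ho]
  exact orderOf_dvd_natCard _

end Cfsg.Agent.MRel

namespace Cfsg.Agent.MRel.F27

open Cfsg.Agent.CosetEnum Cfsg.Agent.CosetEnum.Fi22 Subgroup Mult Mat2

theorem d2 : D2 54 idr Ls 11 [(10, 11)] sc where
  ok := by decide +kernel
  idok := by decide +kernel
  len := rfl
  zero := rfl
  scok := by
    intro w hw
    have h0 := ok0
    have h1 := ok1
    have h2 := ok2
    rw [List.all_eq_true] at h0 h1 h2
    simp only [sc, List.mem_append] at hw
    rcases hw with (hw | hw) | hw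
    · exact h0 w hw
    · exact h1 w hw
    · exact h2 w hw
  inv := by decide +kernel
  out := rfl

/-- the ambient subgroup -/
noncomputable def TT : Subgroup (Matrix (Fin 54) (Fin 54) (ZMod 2))ˣ := Cl d2.M 11

/-- the ambient group -/
abbrev R : Type := ↥TT

theorem mem_TT {x : ℕ} (h : isLet 11 x = true) : d2.M x ∈ TT := mem_Cl d2.M h

theorem let911 {x : ℕ} (h : isLet 9 x = true) : isLet 11 x = true := by
  have := isLet_iff.1 h
  exact isLet_iff.2 (by omega)

/-- the letters -/
noncomputable def M' (x : ℕ) : R := if h : isLet 9 x = true then ⟨d2.M x, mem_TT (let911 h)⟩ else 1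

theorem coe_M' {x : ℕ} (h : isLet 9 x = true) : ((M' x : R) : (Matrix (Fin 54) (Fin 54) (ZMod 2))ˣ) = d2.M x := by
  unfold M'
  rw [dif_pos h]

theorem coe_word {w : List ℕ} (hw : wOK 9 w = true) :
    (((w.map M').prod : R) : (Matrix (Fin 54) (Fin 54) (ZMod 2))ˣ) = (w.map d2.M).prod := by
  induction w with
  | nil => rfl
  | cons x w ih =>
    have hw' := hw
    simp only [wOK, List.all_cons, Bool.and_eq_true] at hw'
    have h2 : wOK 9 w = true := hw'.2
    rw [List.map_cons, List.prod_cons, Subgroup.coe_mul, ih h2, coe_M' hw'.1, List.map_cons, List.prod_cons]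

theorem one_word {w : List ℕ} (hw : wOK 9 w = true) (h : w ∈ sc) : (w.map M').prod = 1 := by
  apply Subtype.ext
  rw [coe_word hw, d2.one_word h]
  rfl

/-- the scalar -/
noncomputable def z : R := ⟨d2.M 10, mem_TT rfl⟩

theorem h1011 : d2.M 11 = (d2.M 10)⁻¹ := by
  have h := d2.one_word (w := [11, 10]) (by decide +kernel)
  simp only [List.map_cons, List.map_nil, List.prod_cons, List.prod_nil, mul_one] at h
  exact eq_inv_of_mul_eq_one_left h

theorem comm10 {x : ℕ} (h : [10, x, 11, x] ∈ sc) (h2 : [x, x] ∈ sc) : d2.M 10 * d2.M x = d2.M x * d2.M 10 :=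
  d2.comm h h2 (by decide +kernel)

theorem z_cen : z ∈ center R := by
  rw [mem_center_iff]
  have hle : TT ≤ centralizer {d2.M 10} := by
    show Subgroup.closure _ ≤ _
    rw [closure_le]
    rintro _ ⟨x, hx, rfl⟩
    rw [SetLike.mem_coe, mem_centralizer_iff]
    rintro y rfl
    have h := isLet_iff.1 hx
    match x, h with
    | 1, _ => exact comm10 (by decide +kernel) (by decide +kernel)
    | 2, _ => exact comm10 (by decide +kernel) (by decide +kernel)
    | 3, _ => exact comm10 (by decide +kernel) (by decide +kernel)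
    | 4, _ => exact comm10 (by decide +kernel) (by decide +kernel)
    | 5, _ => exact comm10 (by decide +kernel) (by decide +kernel)
    | 6, _ => exact comm10 (by decide +kernel) (by decide +kernel)
    | 7, _ => exact comm10 (by decide +kernel) (by decide +kernel)
    | 8, _ => exact comm10 (by decide +kernel) (by decide +kernel)
    | 9, _ => exact comm10 (by decide +kernel) (by decide +kernel)
    | 10, _ => rfl
    | 11, _ => rw [h1011, mul_inv_cancel, inv_mul_cancel]
    | (n + 12), h => omega
  intro y
  apply Subtype.ext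
  exact (mem_centralizer_iff.1 (hle y.2) _ rfl).symm

theorem z_ne : d2.M 10 ≠ 1 := by
  intro h
  have h1 : mat 54 (lrow2 idr Ls 10) = 1 := by rw [← d2.coe_M, h, Units.val_one]
  have h2 := congrFun (congrFun h1 0) 0
  rw [Matrix.one_apply_eq] at h2
  have h3 : mat 54 (lrow2 idr Ls 10) 0 0 = 0 := by
    unfold mat bit
    rw [if_neg]
    decide +kernel
  rw [h3] at h2
  exact absurd h2 (by decide)

theorem z_ord : orderOf z = 3 := by
  have f3 : Fact (Nat.Prime 3) := ⟨by norm_num⟩
  apply orderOf_eq_prime
  · apply Subtype.ext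
    have h := d2.one_word (w := [10, 10, 10]) (by decide +kernel)
    simp only [List.map_cons, List.map_nil, List.prod_cons, List.prod_nil, mul_one] at h
    rw [Subgroup.coe_pow, pow_succ, pow_two, mul_assoc]
    exact h
  · intro h
    exact z_ne (congrArg Subtype.val h)

/-- the spider word -/
theorem spider : ((expand ([2, 1, 6, 2, 3, 5, 2, 4, 7], 10)).map M').prod = z := by
  apply Subtype.ext
  rw [coe_word (by decide +kernel)]
  have h := d2.one_word (w := expand ([2, 1, 6, 2, 3, 5, 2, 4, 7], 10) ++ [11]) (by decide +kernel)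
  rw [List.map_append, List.prod_append] at h
  simp only [List.map_cons, List.map_nil, List.prod_cons, List.prod_nil, mul_one, h1011] at h
  exact mul_inv_eq_one.1 h

theorem hab (x : ℕ) (hx : isLet 9 x = true) : abl M' 9 x = 1 := by
  have hw : ∀ w : List ℕ, wOK 9 w = true → w ∈ sc → (w.map (abl M' 9)).prod = 1 := fun w h1 h2 => abl_rel h1 (one_word h1 h2)
  set a := abl M' 9 with ha
  have hsq : ∀ x, [x, x] ∈ sc → isLet 9 x = true → a x * a x = 1 := by
    intro x h1 h2
    have := hw [x, x] (by simp [wOK, h2]) h1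
    simpa using this
  have hed : ∀ x y, [x, x] ∈ sc → [y, y] ∈ sc → isLet 9 x = true → isLet 9 y = true → expand ([x, y], 3) ∈ sc →
      a y = a x := by
    intro x y h1 h2 h3 h4 h5
    have h6 := hw (expand ([x, y], 3)) (by simp [wOK, expand, List.replicate, h3, h4]) h5
    rw [rep_prod'] at h6
    simp only [List.map_cons, List.map_nil, List.prod_cons, List.prod_nil, mul_one] at h6
    have h7 : (a x * a y) ^ 3 = (a x * a x) * (a y * a y) * (a x * a y) := by
      simp only [pow_succ, pow_zero, one_mul]
      ac_rfl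
    rw [h7, hsq x h1 h3, hsq y h2 h4, one_mul, one_mul] at h6
    rw [← inv_sq (hsq x h1 h3)]
    exact eq_inv_of_mul_eq_one_right h6
  have e2 := hed 1 2 (by decide +kernel) (by decide +kernel) rfl rfl (by decide +kernel)
  have e6 := hed 1 6 (by decide +kernel) (by decide +kernel) rfl rfl (by decide +kernel)
  have e3 := (hed 2 3 (by decide +kernel) (by decide +kernel) rfl rfl (by decide +kernel)).trans e2
  have e4 := (hed 2 4 (by decide +kernel) (by decide +kernel) rfl rfl (by decide +kernel)).trans e2
  have e7 := (hed 4 7 (by decide +kernel) (by decide +kernel) rfl rfl (by decide +kernel)).trans e4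
  have e5 := (hed 3 5 (by decide +kernel) (by decide +kernel) rfl rfl (by decide +kernel)).trans e3
  have e8 := (hed 5 8 (by decide +kernel) (by decide +kernel) rfl rfl (by decide +kernel)).trans e5
  have e9 := (hed 6 9 (by decide +kernel) (by decide +kernel) rfl rfl (by decide +kernel)).trans e6
  have e1 : a 1 = 1 := by
    have h1 := hw (expand ([9, 6, 1, 2, 3, 5, 4], 9)) (by decide +kernel) (by decide +kernel)
    rw [rep_prod'] at h1
    simp only [List.map_cons, List.map_nil, List.prod_cons, List.prod_nil, mul_one, e2, e3, e4, e5, e6, e9] at h1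
    have h2 := hsq 1 (by decide +kernel) rfl
    generalize a 1 = b at *
    have h3 : (b * (b * (b * (b * (b * (b * b)))))) ^ 9 = (b * b) ^ 31 * b := by
      rw [← pow_two, ← pow_mul, ← pow_succ]
      simp only [← pow_succ', ← pow_mul]
    rw [h3, h2, one_pow, one_mul] at h1
    exact h1
  rw [e1] at e2 e3 e4 e5 e6 e7 e8 e9
  have h := isLet_iff.1 hx
  match x, h with
  | 1, _ => exact e1
  | 2, _ => exact e2
  | 3, _ => exact e3
  | 4, _ => exact e4
  | 5, _ => exact e5
  | 6, _ => exact e6
  | 7, _ => exact e7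
  | 8, _ => exact e8
  | 9, _ => exact e9
  | (n + 10), h => omega

theorem z_ne_one : z ≠ 1 := by
  intro h
  exact z_ne (congrArg Subtype.val h)

theorem hne : ∃ x, M' x ∉ center R :=
  ne_of_perf (perf_of_abl (M := M') hab) (w := expand ([2, 1, 6, 2, 3, 5, 2, 4, 7], 10)) (by decide +kernel)
    (by rw [spider]; exact z_ne_one)

/-- **The triple cover.** -/
theorem exists_triple : ∃ σ : Cl M' 9 →* Spor.Fi22, PCE σ ∧ 3 ∣ Nat.card σ.ker := by
  have hs : IsSimpleGroup Spor.Fi22 := fi22_simple
  obtain ⟨σ, h1, h2, -⟩ := exists_proj gS_univ (M := M') (R := R) (fun x => by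
    have h : ivL Fi22T9.iv x = x := rfl
    rw [h]
    by_cases hx : isLet 9 x = true
    · have h2 : [x, x] ∈ sc := by
        have h3 := isLet_iff.1 hx
        match x, h3 with
        | 1, _ => decide +kernel
        | 2, _ => decide +kernel
        | 3, _ => decide +kernel
        | 4, _ => decide +kernel
        | 5, _ => decide +kernel
        | 6, _ => decide +kernel
        | 7, _ => decide +kernel
        | 8, _ => decide +kernel
        | 9, _ => decide +kernel
        | (n + 10), h => omega
      have := one_word (w := [x, x]) (by simp [wOK, hx]) h2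
      simp only [List.map_cons, List.map_nil, List.prod_cons, List.prod_nil, mul_one] at this
      rw [this]
      exact one_mem _
    · unfold M'
      rw [dif_neg hx, mul_one]
      exact one_mem _) (fun x hx => by
    unfold M'
    rw [dif_neg (by rw [hx]; exact Bool.noConfusion)]) (fun p hp => by
    have hsplit : (Fi22T9.RL.all fun p => wOK 9 (expand p) && (sc.contains (expand p) ||
      p == ([2, 1, 6, 2, 3, 5, 2, 4, 7], 10))) = true := by decide +kernel
    simp only [List.all_eq_true, Bool.and_eq_true, Bool.or_eq_true, List.contains_iff_mem, beq_iff_eq] at hsplit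
    obtain ⟨h3, h4⟩ := hsplit p hp
    have h5 : ((p.1.map M').prod) ^ p.2 = ((expand p).map M').prod := (rep_prod' M' p.1 p.2).symm
    rw [h5]
    rcases h4 with h4 | rfl
    · rw [one_word h3 h4]; exact one_mem _
    · rw [spider]; exact z_cen) hne
  refine ⟨σ, ⟨h1, perf_of_abl hab⟩, ?_⟩
  exact dvd_ker h2 (w := expand ([2, 1, 6, 2, 3, 5, 2, 4, 7], 10)) (by decide +kernel) (by rw [spider]; exact z_cen)
    (by rw [spider]; exact z_ord)

end Cfsg.Agent.MRel.F27
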