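import Cfsg.Agent.MRel.F22Y
import Cfsg.Agent.MRel.Dbl
import Cfsg.Agent.CosetEnum.Fi23.Main

set_option autoImplicit false

/-!
The Schur multiplier of `Fi₂₂` is cyclic of order six (owner: helper83).
-/

namespace Cfsg.Agent.MRel.F22

open Cfsg.Agent.CosetEnum Cfsg.Agent.CosetEnum.Fi22 Subgroup Mult

theorem perf22 : commutator Spor.Fi22 = ⊤ := by
  have hs : IsSimpleGroup Spor.Fi22 := fi22_simple
  have hf : Finite Spor.Fi22 := Nat.finite_of_card_ne_zero (by rw [fi22_card]; norm_num)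
  exact G24.perf_of_simple fi22_card (by norm_num)

/-- **The Schur multiplier of `Fi₂₂`.** -/
theorem mult_Fi22 : HasCyclicSchurMultiplier Spor.Fi22 6 := by
  obtain ⟨σ₂, P₂, c2⟩ := pce_of_double (Cfsg.Agent.CosetEnum.Fi23.cover Cfsg.Agent.CosetEnum.Fi23.gS_univ) perf22
  obtain ⟨σ₃, P₃, c3⟩ := F27.exists_triple
  exact mult_of P₂ P₃ (by rw [c2]) c3

end Cfsg.Agent.MRel.F22
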