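import Cfsg.Agent.MRel.F22K
import Cfsg.Agent.CosetEnum.M83.CertsH
import Cfsg.Agent.CosetEnum.M83.XH

set_option autoImplicit false
set_option maxRecDepth 1000000

/-!
The Schur multiplier of `Fi₂₃` is trivial (owner: helper83).
-/

namespace Cfsg.Agent.MRel.F23

open Cfsg.Agent.CosetEnum Subgroup Mult
open Cfsg.Agent.MRel.F22 (spi bip2 FL U u uU u8_cube good12')

/-- the letters of `Fi₂₃` -/
abbrev g : ℕ → Spor.Fi23 := Cfsg.Agent.CosetEnum.Fi23.gS

theorem gU : Univ g 10 Fi23T10.iv Fi23T10.RL := Cfsg.Agent.CosetEnum.Fi23.gS_univ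

theorem sq10 (x : ℕ) : g x * g x = 1 := by
  have := gU.good.inv x
  have h : ivL Fi23T10.iv x = x := rfl
  rw [h] at this
  nth_rewrite 1 [this]
  exact inv_mul_cancel _

theorem rel10 {u : List ℕ} {m : ℕ} (h : (u, m) ∈ Fi23T10.RL) : ((u.map g).prod) ^ m = 1 := gU.good.rel (u, m) h

theorem pair10 {x y m : ℕ} (h : ([x, y], m) ∈ Fi23T10.RL) : (g x * g y) ^ m = 1 := by
  have := rel10 h
  simpa using this

/-- joined letters -/
def ed (x y : ℕ) : Bool := Fi23T10.RL.contains ([x, y], 3) || Fi23T10.RL.contains ([y, x], 3)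

/-- letters that are not joined -/
def nd (x y : ℕ) : Bool := Fi23T10.RL.contains ([x, y], 2) || Fi23T10.RL.contains ([y, x], 2)

theorem yg : YG g ed nd where
  sq := sq10
  ed3 x y h := by
    simp only [ed, Bool.or_eq_true, List.contains_iff_mem] at h
    rcases h with h | h
    · exact pair10 h
    · exact G24.pair_flip (sq10 y) (sq10 x) (pair10 h)
  nd2 x y h := by
    simp only [nd, Bool.or_eq_true, List.contains_iff_mem] at h
    rcases h with h | h
    · exact J2.comm_of_sq (sq10 x) (sq10 y) (pair10 h)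
    · exact (J2.comm_of_sq (sq10 y) (sq10 x) (pair10 h)).symm

theorem w_E1 : (g 9 * g 1 * g 3 * g 4 * (g 6 * g 2 * g 5)) ^ 9 = 1 := by
  have n : ∀ {x y}, nd x y = true → g x * g y = g y * g x := fun h => yg.nd2 _ _ h
  have h3 := cox1 (a := g 9) (b := g 6) (c := g 1) (d := g 2) (e := g 3) (f := g 5) (h := g 4)
    (n (by decide +kernel)) (n (by decide +kernel)) (n (by decide +kernel)) (n (by decide +kernel))
    (n (by decide +kernel)) (n (by decide +kernel)) (n (by decide +kernel)) (n (by decide +kernel))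
    (n (by decide +kernel)) (n (by decide +kernel)) (n (by decide +kernel)) (n (by decide +kernel))
    (n (by decide +kernel)) (n (by decide +kernel))
  rw [h3, conj_pow]
  have h4 := rel10 (u := [9, 6, 1, 2, 3, 5, 4]) (m := 9) (by decide +kernel)
  have h5 : (g 9 * g 6 * g 1 * g 2 * g 3 * g 5 * g 4) ^ 9 = 1 := by simpa [mul_assoc] using h4
  rw [h5, mul_one, mul_inv_cancel]

theorem spi_g : spi g = 1 := by
  have := rel10 (u := [2, 1, 6, 2, 3, 5, 2, 4, 7]) (m := 10) (by decide +kernel)
  simpa [spi, mul_assoc] using this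

/-- the bipartite element is the central element of `⟨a, …, i⟩` -/
theorem bip2_g : bip2 g * bip2 g = 1 ∧ ∀ x, isLet 9 x = true → g x * bip2 g = bip2 g * g x := by
  obtain ⟨ψ, hs, hψ⟩ := Cfsg.Agent.CosetEnum.Fi23.exists_psi gU
  let φ : Cfsg.Agent.CosetEnum.Fi23.QK →* Spor.Fi23 := (Cl g 9).subtype.comp ψ
  have hφ : ∀ x, isLet 9 x = true → φ (Cfsg.Agent.CosetEnum.Fi23.qK x) = g x := hψ
  have h1 := (F22.map_spi φ hφ).2
  rw [F22.bip2_qK] at h1
  rw [← h1]
  refine ⟨by rw [← map_mul, F22.zK_sq, map_one], fun x hx => ?_⟩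
  rw [← hφ x hx, ← map_mul, ← map_mul, F22.zK_cen]

/-- the commuting pairs -/
def TT : List (ℕ × ℕ) := (nxt ed nd 10)^[14] [(9, 10)]

theorem tt_mem : ∀ p ∈ Fi23T10.RL, p.2 = 2 → (p.1.getD 0 0, p.1.getD 1 0) ∈ TT := by decide +kernel

theorem pow_pair_sq' {H : Type*} [Group H] {x y : H} (hx : x * x = 1) (hy : y * y = 1) (m : ℕ)
    (hc : x * (x * y) ^ m = (x * y) ^ m * x) : (x * y) ^ m * (x * y) ^ m = 1 := by
  have h1 : x * (x * y) ^ m * x⁻¹ = ((x * y) ^ m)⁻¹ := by
    rw [← conj_pow, ← inv_pow, mul_inv_rev, inv_sq hx, inv_sq hy, ← mul_assoc x x y, hx, one_mul]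
  rw [hc, mul_inv_cancel_right] at h1
  nth_rewrite 1 [h1]
  exact inv_mul_cancel _

section

variable {Γ : Type} [Group Γ] {σ : Γ →* Spor.Fi23} (C : CE σ)

theorem tr_910 : C.Tr (g 9) (g 10) := by
  have n : ∀ {x y}, nd x y = true → g x * g y = g y * g x := fun h => yg.nd2 _ _ h
  exact yg.tr_e7 C (sq10 10) (a := 9) (b := 6) (c := 1) (d := 2) (e := 3) (f := 5) (h := 4) (by decide +kernel)
    (by decide +kernel) (by decide +kernel) (by decide +kernel) (by decide +kernel) (by decide +kernel) w_E1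
    (n (by decide +kernel)) (n (by decide +kernel)) (n (by decide +kernel)) (n (by decide +kernel))
    (n (by decide +kernel)) (n (by decide +kernel)) (n (by decide +kernel))

theorem tt_tr : ∀ p ∈ TT, C.Tr (g p.1) (g p.2) :=
  yg.tr_iter C 10 14 (T := [(9, 10)]) (by
    intro p hp
    rw [List.mem_singleton] at hp
    subst hp
    exact tr_910 C)

theorem tr_nd {x y : ℕ} (h : nd x y = true) : C.Tr (g x) (g y) := by
  have key : ∀ x y, ([x, y], 2) ∈ Fi23T10.RL → C.Tr (g x) (g y) := fun x y h => tt_tr C (x, y) (tt_mem _ h rfl)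
  simp only [nd, Bool.or_eq_true, List.contains_iff_mem] at h
  rcases h with h | h
  · exact key _ _ h
  · exact (key _ _ h).symm

/-- the tree -/
def par : ℕ → ℕ
  | 2 => 1 | 3 => 2 | 4 => 2 | 5 => 3 | 6 => 1 | 7 => 4 | 8 => 5 | 9 => 6 | 10 => 8 | _ => 0

include C in
theorem exists_L : ∃ y, LfY σ g 10 ed nd y 1 ∧ (y 9 * y 1 * y 3 * y 4 * (y 6 * y 2 * y 5)) ^ 9 = 1 := by
  obtain ⟨y, z, L⟩ := yg.exists_Lf C (n := 10) (by norm_num) par (by
    intro x h1 h2
    interval_cases x <;> decide +kernel) (by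
    intro x x' h
    have hl : ∀ p ∈ Fi23T10.RL, p.2 = 3 → 2 ≤ p.1.getD 1 0 ∧ p.1.getD 1 0 ≤ 10 ∧ p.1.getD 0 0 = par (p.1.getD 1 0) := by
      decide +kernel
    simp only [ed, Bool.or_eq_true, List.contains_iff_mem] at h
    rcases h with h | h
    · exact Or.inl (hl _ h rfl)
    · exact Or.inr (hl _ h rfl)) (by
    intro x x' h
    have hl : ∀ p ∈ Fi23T10.RL, (p.1.all fun x => isLet 10 x) = true := by decide +kernel
    have h3 : isLet 10 x = true ∧ isLet 10 x' = true := by
      simp only [nd, Bool.or_eq_true, List.contains_iff_mem] at h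
      rcases h with h | h <;> have h' := hl _ h <;> simp only [List.all_cons, Bool.and_eq_true] at h' <;> tauto
    exact ⟨h3.1, h3.2, tr_nd C h⟩)
  exact YG.exists_norm C L sq10 (a := 9) (b := 6) (c := 1) (d := 2) (e := 3) (f := 5) (h := 4) rfl rfl rfl rfl rfl rfl rfl
    (by decide +kernel) (by decide +kernel) (by decide +kernel) (by decide +kernel) (by decide +kernel)
    (by decide +kernel) (by decide +kernel) (by decide +kernel) (by decide +kernel) w_E1

include C in
theorem tr_t {x : ℕ} (hx : isLet 9 x = true) : C.Tr (g x) (bip2 g) := by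
  obtain ⟨h1, h2⟩ := bip2_g
  have k9 : C.Tr (g 9) (bip2 g) := yg.tr_e7 C h1 (a := 9) (b := 6) (c := 1) (d := 2) (e := 3) (f := 5) (h := 4)
    (by decide +kernel) (by decide +kernel) (by decide +kernel) (by decide +kernel) (by decide +kernel)
    (by decide +kernel) w_E1 (h2 _ rfl) (h2 _ rfl) (h2 _ rfl) (h2 _ rfl) (h2 _ rfl) (h2 _ rfl) (h2 _ rfl)
  have s : ∀ {y y' : ℕ}, C.Tr (g y) (bip2 g) → ed y y' = true → isLet 9 y = true → isLet 9 y' = true →
      C.Tr (g y') (bip2 g) := fun h3 he h4 h5 => tr_cancel (yg.tr_ed C h1 he (h2 _ h4) (h2 _ h5)) h3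
  have k6 := s k9 (y' := 6) (by decide +kernel) rfl rfl
  have k1 := s k6 (y' := 1) (by decide +kernel) rfl rfl
  have k2 := s k1 (y' := 2) (by decide +kernel) rfl rfl
  have k3 := s k2 (y' := 3) (by decide +kernel) rfl rfl
  have k4 := s k2 (y' := 4) (by decide +kernel) rfl rfl
  have k5 := s k3 (y' := 5) (by decide +kernel) rfl rfl
  have k7 := s k4 (y' := 7) (by decide +kernel) rfl rfl
  have k8 := s k5 (y' := 8) (by decide +kernel) rfl rfl
  have h := isLet_iff.1 hx
  match x, h with
  | 1, _ => exact k1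
  | 2, _ => exact k2
  | 3, _ => exact k3
  | 4, _ => exact k4
  | 5, _ => exact k5
  | 6, _ => exact k6
  | 7, _ => exact k7
  | 8, _ => exact k8
  | 9, _ => exact k9
  | (n + 10), h => omega

end

theorem ed22 {x x' : ℕ} (h : F22.ed x x' = true) : ed x x' = true ∧ isLet 9 x = true ∧ isLet 9 x' = true := by
  have h2 : ∀ p ∈ Fi22T9.RL, p.2 = 3 → p ∈ Fi23T10.RL ∧ (p.1.all fun x => isLet 9 x) = true := by decide +kernel
  simp only [F22.ed, Bool.or_eq_true, List.contains_iff_mem] at h
  simp only [ed, Bool.or_eq_true, List.contains_iff_mem]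
  rcases h with h | h
  · have h3 := h2 _ h rfl
    simp only [List.all_cons, List.all_nil, Bool.and_eq_true, and_true] at h3
    exact ⟨Or.inl h3.1, h3.2.1, h3.2.2⟩
  · have h3 := h2 _ h rfl
    simp only [List.all_cons, List.all_nil, Bool.and_eq_true, and_true] at h3
    exact ⟨Or.inr h3.1, h3.2.2, h3.2.1⟩

theorem nd22 {x x' : ℕ} (h : F22.nd x x' = true) : nd x x' = true ∧ isLet 9 x = true ∧ isLet 9 x' = true := by
  have h2 : ∀ p ∈ Fi22T9.RL, p.2 = 2 → p ∈ Fi23T10.RL ∧ (p.1.all fun x => isLet 9 x) = true := by decide +kernel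
  simp only [F22.nd, Bool.or_eq_true, List.contains_iff_mem] at h
  simp only [nd, Bool.or_eq_true, List.contains_iff_mem]
  rcases h with h | h
  · have h3 := h2 _ h rfl
    simp only [List.all_cons, List.all_nil, Bool.and_eq_true, and_true] at h3
    exact ⟨Or.inl h3.1, h3.2.1, h3.2.2⟩
  · have h3 := h2 _ h rfl
    simp only [List.all_cons, List.all_nil, Bool.and_eq_true, and_true] at h3
    exact ⟨Or.inr h3.1, h3.2.2, h3.2.1⟩

section

variable {Γ : Type} [Group Γ] {σ : Γ →* Spor.Fi23} (C : CE σ) {y : ℕ → Γ} (L : LfY σ g 10 ed nd y 1)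
  (hE : (y 9 * y 1 * y 3 * y 4 * (y 6 * y 2 * y 5)) ^ 9 = 1)

include L

theorem sg9 (x : ℕ) (hx : isLet 9 x = true) : σ (y x) = g x := by
  have := isLet_iff.1 hx
  exact L.sg x (isLet_iff.2 (by omega))

theorem sq9 (x : ℕ) (hx : isLet 9 x = true) : y x * y x = 1 := by
  have := isLet_iff.1 hx
  exact L.sq x (isLet_iff.2 (by omega))

include C in
theorem spi_cen (t : Γ) : spi y * t = t * spi y := by
  apply cen_of_one C
  rw [(F22.map_spi σ (sg9 L)).1, spi_g]

include hE C

/-- the spider element has order dividing three -/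
theorem spi_cube : spi y ^ 3 = 1 := by
  let K : Subgroup Γ := Cl y 9
  let y' : ℕ → K := fun x => if h : isLet 9 x = true then ⟨y x, mem_Cl y h⟩ else 1
  have hy' : ∀ x, isLet 9 x = true → ((y' x : K) : Γ) = y x := fun x hx => by
    show (((if h : isLet 9 x = true then ⟨y x, mem_Cl y h⟩ else 1 : K)) : Γ) = _
    rw [dif_pos hx]
  have hm := F22.map_spi K.subtype (y := y') (y' := y) hy'
  obtain ⟨b1, b2⟩ := bip2_g
  have hbσ : σ (bip2 y) = bip2 g := (F22.map_spi σ (sg9 L)).2
  have hbc : ∀ x, isLet 9 x = true → y x * bip2 y = bip2 y * y x := fun x hx =>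
    (C.tr_iff' (sg9 L x hx) hbσ).1 (tr_t C hx)
  have hbK : ∀ t ∈ K, bip2 y * t = t * bip2 y := by
    have hle : K ≤ centralizer {bip2 y} := by
      show Subgroup.closure _ ≤ _
      rw [closure_le]
      rintro _ ⟨x, hx, rfl⟩
      rw [SetLike.mem_coe, mem_centralizer_iff]
      rintro t rfl
      exact (hbc x hx).symm
    intro t ht
    exact mem_centralizer_iff.1 (hle ht) _ rfl
  have c : ∀ x x', F22.nd x x' = true → y x * y x' = y x' * y x := fun x x' h => L.cm _ _ (nd22 h).1
  have hbsq : bip2 y * bip2 y = 1 := by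
    have hB := sq4 (z := 1) (L.sq 1 rfl) (L.sq 3 rfl) (L.sq 8 rfl) (L.sq 4 rfl) (c 1 3 (by decide +kernel))
      (c 1 8 (by decide +kernel)) (c 3 8 (by decide +kernel)) (c 1 4 (by decide +kernel)) (c 3 4 (by decide +kernel))
      (c 8 4 (by decide +kernel))
    have hW := sq3 (z := 1) (L.sq 6 rfl) (L.sq 2 rfl) (L.sq 5 rfl) (c 6 2 (by decide +kernel))
      (c 6 5 (by decide +kernel)) (c 2 5 (by decide +kernel))
    rw [one_pow] at hB hW
    have hcomm : (y 1 * y 3 * y 8 * y 4) * ((y 1 * y 3 * y 8 * y 4) * (y 6 * y 2 * y 5)) ^ 9 =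
        ((y 1 * y 3 * y 8 * y 4) * (y 6 * y 2 * y 5)) ^ 9 * (y 1 * y 3 * y 8 * y 4) := by
      have k : ∀ x, isLet 9 x = true → Commute (bip2 y) (y x) := fun x hx => (hbc x hx).symm
      have k1 : Commute (bip2 y) (y 1 * y 3 * y 8 * y 4) :=
        (((k 1 rfl).mul_right (k 3 rfl)).mul_right (k 8 rfl)).mul_right (k 4 rfl)
      have k2 := k1.inv_left
      unfold bip2 at k2
      rw [inv_inv] at k2
      exact k2.eq.symm
    unfold bip2
    rw [← mul_inv_rev, pow_pair_sq' hB hW 9 hcomm, inv_one]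
  have good : Good (FL y') 12 M83F9.iv M83F9.RL := by
    refine good12' (fun x hx => ?_) (fun x x' h => ?_) (fun x x' h => ?_) ?_ ?_ ?_ ?_
    · apply Subtype.ext
      rw [Subgroup.coe_mul, hy' x hx]
      exact sq9 L x hx
    · obtain ⟨h1, h2, h3⟩ := ed22 h
      apply Subtype.ext
      simp only [Subgroup.coe_mul]
      rw [hy' x h2, hy' x' h3]
      exact L.br _ _ h1
    · obtain ⟨h1, h2, h3⟩ := nd22 h
      apply Subtype.ext
      simp only [Subgroup.coe_mul]
      rw [hy' x h2, hy' x' h3]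
      exact L.cm _ _ h1
    · apply Subtype.ext
      simp only [Subgroup.coe_mul, Subgroup.coe_pow]
      rw [hy' 9 rfl, hy' 1 rfl, hy' 3 rfl, hy' 4 rfl, hy' 6 rfl, hy' 2 rfl, hy' 5 rfl]
      exact hE
    · intro t
      apply Subtype.ext
      rw [Subgroup.coe_mul, Subgroup.coe_mul]
      have : ((spi y' : K) : Γ) = spi y := hm.1
      rw [this]
      exact spi_cen C L t
    · intro t
      apply Subtype.ext
      rw [Subgroup.coe_mul, Subgroup.coe_mul]
      have : ((bip2 y' : K) : Γ) = bip2 y := hm.2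
      rw [this]
      exact hbK t t.2
    · apply Subtype.ext
      rw [Subgroup.coe_mul]
      have : ((bip2 y' : K) : Γ) = bip2 y := hm.2
      rw [this]
      exact hbsq
  obtain ⟨θ, hθ⟩ := uU.univ _ _ good
  have h8 : θ (u 8) = spi y' := hθ 8
  have h1 : (spi y') ^ 3 = 1 := by rw [← h8, ← map_pow, u8_cube, map_one]
  have h2 := congrArg K.subtype h1
  rw [map_pow, map_one, hm.1] at h2
  exact h2

end

/-- letters of the certificate -/
def nuH : ℕ → ℕ
  | 1 => 1 | 2 => 2 | 3 => 3 | 4 => 4 | 5 => 5 | 6 => 7 | 7 => 8 | 8 => 10 | 9 => 6 | _ => 0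

/-- the letters of `⟨b, …, j⟩` -/
def FH {Γ : Type} [Group Γ] (y : ℕ → Γ) : ℕ → Γ
  | 1 => y 1
  | 2 => y 2
  | 3 => y 3
  | 4 => y 4
  | 5 => y 5
  | 6 => y 7
  | 7 => y 8
  | 8 => y 10
  | 9 => y 6
  | 10 => spi y
  | 11 => (spi y)⁻¹
  | _ => 1

theorem FH_nu {Γ : Type} [Group Γ] (y : ℕ → Γ) {x : ℕ} (h : nuH x ≠ 0) : FH y x = y (nuH x) ∧ isLet 10 (nuH x) = true := by
  match x with
  | 0 => exact absurd rfl h
  | 1 => exact ⟨rfl, rfl⟩
  | 2 => exact ⟨rfl, rfl⟩
  | 3 => exact ⟨rfl, rfl⟩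
  | 4 => exact ⟨rfl, rfl⟩
  | 5 => exact ⟨rfl, rfl⟩
  | 6 => exact ⟨rfl, rfl⟩
  | 7 => exact ⟨rfl, rfl⟩
  | 8 => exact ⟨rfl, rfl⟩
  | 9 => exact ⟨rfl, rfl⟩
  | 10 => exact absurd rfl h
  | 11 => exact absurd rfl h
  | (n + 12) => exact absurd rfl h

/-- test of the Coxeter relators -/
def coxH (p : List ℕ × ℕ) : Bool :=
  match p.1 with
  | [x, y] => (nuH x != 0) && (nuH y != 0) && ((p.2 == 2 && nd (nuH x) (nuH y)) || (p.2 == 3 && ed (nuH x) (nuH y)))
  | _ => false

section

variable {Γ : Type} [Group Γ] {σ : Γ →* Spor.Fi23} (C : CE σ) {y : ℕ → Γ} (L : LfY σ g 10 ed nd y 1)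
  (hE : (y 9 * y 1 * y 3 * y 4 * (y 6 * y 2 * y 5)) ^ 9 = 1)

include C L hE

theorem goodH : Good (FH y) 11 M83H9.iv M83H9.RL := by
  have hcs : ∀ z ∈ [10], ∀ t, FH y z * t = t * FH y z := by
    intro z hz
    simp only [List.mem_cons, List.not_mem_nil, or_false] at hz
    subst hz
    exact spi_cen C L
  have hinv : ∀ x, FH y (ivL M83H9.iv x) = (FH y x)⁻¹ := by
    intro x
    match x with
    | 0 => exact inv_one.symm
    | 1 => exact (inv_sq (L.sq 1 rfl)).symm
    | 2 => exact (inv_sq (L.sq 2 rfl)).symm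
    | 3 => exact (inv_sq (L.sq 3 rfl)).symm
    | 4 => exact (inv_sq (L.sq 4 rfl)).symm
    | 5 => exact (inv_sq (L.sq 5 rfl)).symm
    | 6 => exact (inv_sq (L.sq 7 rfl)).symm
    | 7 => exact (inv_sq (L.sq 8 rfl)).symm
    | 8 => exact (inv_sq (L.sq 10 rfl)).symm
    | 9 => exact (inv_sq (L.sq 6 rfl)).symm
    | 10 => rfl
    | 11 => exact (inv_inv _).symm
    | (n + 12) => exact inv_one.symm
  refine ⟨hinv, ?_, ?_⟩
  · intro x hx
    match x with
    | 0 => rfl
    | 1 => exact absurd hx (by decide)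
    | 2 => exact absurd hx (by decide)
    | 3 => exact absurd hx (by decide)
    | 4 => exact absurd hx (by decide)
    | 5 => exact absurd hx (by decide)
    | 6 => exact absurd hx (by decide)
    | 7 => exact absurd hx (by decide)
    | 8 => exact absurd hx (by decide)
    | 9 => exact absurd hx (by decide)
    | 10 => exact absurd hx (by decide)
    | 11 => exact absurd hx (by decide)
    | (n + 12) => rfl
  · intro p hp
    have hsplit : (M83H9.RL.all fun p => cenRel [10] M83H9.iv p || coxH p ||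
        (p == (expand ([2, 1, 9, 2, 3, 5, 2, 4, 6], 10) ++ [11], 1)) || (p == ([10, 10, 10], 1))) = true := by
      decide +kernel
    simp only [List.all_eq_true, Bool.or_eq_true, beq_iff_eq] at hsplit
    rcases hsplit p hp with ((h | h) | h) | h
    · exact cenRel_prod hinv hcs h
    · obtain ⟨u, m⟩ := p
      unfold coxH at h
      match u, h with
      | [x, x'], h =>
        simp only [Bool.and_eq_true, Bool.or_eq_true, bne_iff_ne, beq_iff_eq] at h
        obtain ⟨⟨h1, h2⟩, h3⟩ := h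
        obtain ⟨e1, e1'⟩ := FH_nu y h1
        obtain ⟨e2, e2'⟩ := FH_nu y h2
        simp only [List.map_cons, List.map_nil, List.prod_cons, List.prod_nil, mul_one, e1, e2]
        rcases h3 with ⟨rfl, h3⟩ | ⟨rfl, h3⟩
        · rw [pow_two, sq_mul_comm (L.cm _ _ h3), L.sq _ e1', L.sq _ e2', one_mul]
        · exact br_pow (L.sq _ e1') (L.sq _ e2') (L.br _ _ h3)
    · subst h
      rw [pow_one, List.map_append, List.prod_append, rep_prod']
      simp only [List.map_cons, List.map_nil, List.prod_cons, List.prod_nil, mul_one, FH, ← mul_assoc]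
      exact mul_inv_cancel _
    · subst h
      have := spi_cube C L hE
      simp only [List.map_cons, List.map_nil, List.prod_cons, List.prod_nil, mul_one, FH, pow_one]
      rw [pow_succ, pow_two, mul_assoc] at this
      exact this

theorem bdH : Bd (Cl (FH y) 11) 19808719257600 := by
  have g := goodH C L hE
  have h2 := (Bd.zero (FH y)).cl (M := 6) Fi22F2.cert g (by decide +kernel) (by decide +kernel) (by norm_num) rfl
  have h3 := h2.cl (M := 24) Fi22F3.cert g (by decide +kernel) (by decide +kernel) (by norm_num) rfl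
  have h4 := h3.cl (M := 192) Fi22F4.cert g (by decide +kernel) (by decide +kernel) (by norm_num) rfl
  have h5 := h4.cl (M := 1920) Fi22F5.cert g (by decide +kernel) (by decide +kernel) (by norm_num) rfl
  have h6 := h5.cl (M := 51840) M83H6.cert g (by decide +kernel) (by decide +kernel) (by norm_num) rfl
  have h7 := h6.cl (M := 2903040) M83H7.cert g (by decide +kernel) (by decide +kernel) (by norm_num) rfl
  have h8 := h7.cl (M := 696729600) M83H8.cert g (by decide +kernel) (by decide +kernel) (by norm_num) rfl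
  exact h8.cl (M := 19808719257600) M83H9.cert g (by decide +kernel) (by decide +kernel) (by norm_num) rfl

/-- the spider element is trivial -/
theorem spi_one : spi y = 1 := by
  have hG : Finite Spor.Fi23 := Nat.finite_of_card_ne_zero (by
    rw [Cfsg.Agent.CosetEnum.Fi23.card10 gU]; norm_num)
  by_contra hne
  have b := bdH C L hE
  set K : Subgroup Γ := Cl (FH y) 11 with hK
  have hfin : Finite K := b.1
  -- lower bound of the image
  have hlow : 9904359628800 ≤ Nat.card (K.map σ) := by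
    obtain ⟨A, hA, _⟩ := Fi23T10.tabOK.exists_action gU
    have hA' : Acts Spor.Fi23 Fi23T10.P g M83XH.lets := hA.mono (by decide +kernel)
    have h1 := card_ge hA' M83XH.chain
    have h2 : 9904359628800 ≤ (M83XH.ls.map fun p => p.2.length).prod := by decide +kernel
    refine h2.trans (h1.trans (Nat.le_of_dvd Nat.card_pos (Subgroup.card_dvd_of_le ?_)))
    rw [closure_le]
    rintro _ ⟨x, hx, rfl⟩
    have hx' : x ∈ [1, 2, 3, 4, 5, 6, 7, 8, 10] := hx
    have k : ∀ x', isLet 11 x' = true → σ (FH y x') = g x → g x ∈ K.map σ := fun x' h1 h2 =>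
      ⟨FH y x', mem_Cl (FH y) h1, h2⟩
    simp only [List.mem_cons, List.not_mem_nil, or_false] at hx'
    rcases hx' with rfl | rfl | rfl | rfl | rfl | rfl | rfl | rfl | rfl
    · exact k 1 rfl (L.sg 1 rfl)
    · exact k 2 rfl (L.sg 2 rfl)
    · exact k 3 rfl (L.sg 3 rfl)
    · exact k 4 rfl (L.sg 4 rfl)
    · exact k 5 rfl (L.sg 5 rfl)
    · exact k 9 rfl (L.sg 6 rfl)
    · exact k 6 rfl (L.sg 7 rfl)
    · exact k 7 rfl (L.sg 8 rfl)
    · exact k 8 rfl (L.sg 10 rfl)
  -- the kernel
  let f : K →* K.map σ := σ.subgroupMap K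
  have hf : Function.Surjective f := σ.subgroupMap_surjective K
  have h1 := f.ker.card_mul_index
  rw [Subgroup.index_ker, MonoidHom.range_eq_top.2 hf, Nat.card_congr Subgroup.topEquiv.toEquiv] at h1
  have hw : spi y ∈ K := mem_Cl (FH y) (x := 10) rfl
  have hw1 : (⟨spi y, hw⟩ : K) ∈ f.ker := by
    rw [MonoidHom.mem_ker]
    apply Subtype.ext
    show σ (spi y) = 1
    rw [(F22.map_spi σ (sg9 L)).1, spi_g]
  have h3 : 3 ∣ Nat.card f.ker := by
    have f3 : Fact (Nat.Prime 3) := ⟨by norm_num⟩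
    have ho : orderOf (⟨⟨spi y, hw⟩, hw1⟩ : f.ker) = 3 := by
      apply orderOf_eq_prime
      · apply Subtype.ext
        apply Subtype.ext
        exact spi_cube C L hE
      · intro h
        exact hne (congrArg (fun t : f.ker => ((t : K) : Γ)) h)
    rw [← ho]
    exact orderOf_dvd_natCard _
  have hpos : 0 < Nat.card f.ker := Nat.card_pos
  have h4 := b.2
  have h5 : 3 ≤ Nat.card f.ker := Nat.le_of_dvd hpos h3
  have h6 : 3 * 9904359628800 ≤ Nat.card f.ker * Nat.card (K.map σ) := Nat.mul_le_mul h5 hlow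
  rw [h1] at h6
  have h7 : Nat.card K ≤ 19808719257600 := h4
  omega

/-- the lifts satisfy the relators of `Fi₂₃` -/
theorem good23 : Good (fun x => if isLet 10 x = true then y x else 1) 10 Fi23T10.iv Fi23T10.RL := by
  have hsp := spi_one C L hE
  have hv : ∀ x, isLet 10 x = true → (if isLet 10 x = true then y x else 1) = y x := fun x hx => if_pos hx
  refine ⟨fun x => ?_, fun x hx => ?_, fun p hp => ?_⟩
  · have h : ivL Fi23T10.iv x = x := rfl
    rw [h]
    beta_reduce
    split_ifs with hx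
    · exact (inv_sq (L.sq x hx)).symm
    · exact inv_one.symm
  · beta_reduce
    rw [if_neg (by rw [hx]; exact Bool.noConfusion)]
  · have hsplit : (Fi23T10.RL.all fun p => (p.1.length == 2 && p.2 == 3 && ed (p.1.getD 0 0) (p.1.getD 1 0)) ||
        (p.1.length == 2 && p.2 == 2 && nd (p.1.getD 0 0) (p.1.getD 1 0)) ||
        p == ([2, 1, 6, 2, 3, 5, 2, 4, 7], 10) || p == ([9, 6, 1, 2, 3, 5, 4], 9)) = true := by decide +kernel
    have hlet : ∀ p ∈ Fi23T10.RL, (p.1.all fun x => isLet 10 x) = true := by decide +kernel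
    simp only [List.all_eq_true, Bool.or_eq_true, Bool.and_eq_true, beq_iff_eq] at hsplit
    have hl := hlet p hp
    rcases hsplit p hp with ((h | h) | h) | h
    · obtain ⟨v, m⟩ := p
      obtain ⟨⟨k1, k2⟩, k3⟩ := h
      match v, k1 with
      | [x, x'], _ =>
        simp only [List.all_cons, List.all_nil, Bool.and_eq_true, and_true] at hl
        simp only at k2
        subst k2
        simp only [List.map_cons, List.map_nil, List.prod_cons, List.prod_nil, mul_one, hv x hl.1, hv x' hl.2]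
        exact br_pow (L.sq _ hl.1) (L.sq _ hl.2) (L.br _ _ k3)
    · obtain ⟨v, m⟩ := p
      obtain ⟨⟨k1, k2⟩, k3⟩ := h
      match v, k1 with
      | [x, x'], _ =>
        simp only [List.all_cons, List.all_nil, Bool.and_eq_true, and_true] at hl
        simp only at k2
        subst k2
        change nd x x' = true at k3
        simp only [List.map_cons, List.map_nil, List.prod_cons, List.prod_nil, mul_one, hv x hl.1, hv x' hl.2]
        rw [pow_two, sq_mul_comm (L.cm _ _ k3), L.sq _ hl.1, L.sq _ hl.2, one_mul]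
    · subst h
      have : spi (fun x => if isLet 10 x = true then y x else 1) = 1 := hsp
      simpa [spi, mul_assoc] using this
    · subst h
      have n : ∀ {x y'}, nd x y' = true → y x * y y' = y y' * y x := fun h => L.cm _ _ h
      have h3 := cox1 (a := y 9) (b := y 6) (c := y 1) (d := y 2) (e := y 3) (f := y 5) (h := y 4)
        (n (by decide +kernel)) (n (by decide +kernel)) (n (by decide +kernel)) (n (by decide +kernel))
        (n (by decide +kernel)) (n (by decide +kernel)) (n (by decide +kernel)) (n (by decide +kernel))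
        (n (by decide +kernel)) (n (by decide +kernel)) (n (by decide +kernel)) (n (by decide +kernel))
        (n (by decide +kernel)) (n (by decide +kernel))
      have h4 := pow_conj_one h3 (n := 9) hE
      have h5 : ([9, 6, 1, 2, 3, 5, 4].map fun x => if isLet 10 x = true then y x else 1).prod =
          y 9 * y 6 * y 1 * y 2 * y 3 * y 5 * y 4 := by
        simp only [List.map_cons, List.map_nil, List.prod_cons, List.prod_nil, mul_one, mul_assoc]
        rfl
      rw [h5]
      exact h4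

end

/-- perfect central extensions of `Fi₂₃` are trivial -/
theorem mb : MB Spor.Fi23 1 := by
  intro Γ _ _ σ P
  obtain ⟨y, L, hE⟩ := exists_L P.ce
  obtain ⟨φ, hφ⟩ := gU.univ _ _ (good23 P.ce L hE)
  have h1 : σ.comp φ = MonoidHom.id _ := by
    apply hom_letters gU.top
    intro x hx
    rw [MonoidHom.comp_apply, hφ, if_pos hx]
    exact L.sg x hx
  have h2 : φ.range = ⊤ := by
    apply P.top_of_map
    rw [eq_top_iff]
    intro x _
    exact ⟨φ x, ⟨x, rfl⟩, DFunLike.congr_fun h1 x⟩
  have h3 : σ.ker = ⊥ := by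
    rw [eq_bot_iff]
    intro x hx
    have h4 : x ∈ φ.range := by rw [h2]; exact mem_top _
    obtain ⟨w, rfl⟩ := h4
    have h5 : w = 1 := by
      have := DFunLike.congr_fun h1 w
      rw [MonoidHom.comp_apply] at this
      rw [MonoidHom.mem_ker] at hx
      rw [hx] at this
      exact this.symm
    rw [h5, map_one]
    exact one_mem _
  rw [h3, Subgroup.card_bot]

theorem perf : commutator Spor.Fi23 = ⊤ := by
  have hf : Finite Spor.Fi23 := Nat.finite_of_card_ne_zero (by
    rw [Cfsg.Agent.CosetEnum.Fi23.card10 gU]; norm_num)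
  have hs : IsSimpleGroup Spor.Fi23 := Cfsg.Agent.CosetEnum.Fi23.fi23_simple
  exact G24.perf_of_simple (Cfsg.Agent.CosetEnum.Fi23.card10 gU) (by norm_num)

/-- **The Schur multiplier of `Fi₂₃`.** -/
theorem mult_Fi23 : HasCyclicSchurMultiplier Spor.Fi23 1 := by
  have hf : Finite Spor.Fi23 := Nat.finite_of_card_ne_zero (by
    rw [Cfsg.Agent.CosetEnum.Fi23.card10 gU]; norm_num)
  have P : PCE (MonoidHom.id Spor.Fi23) := by
    refine ⟨⟨Function.surjective_id, ?_⟩, perf⟩
    intro x hx
    have : x = 1 := hx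
    rw [this]; exact one_mem _
  exact cyclic_of perf Nat.one_pos mb P (z := 1) rfl (one_dvd _)

end Cfsg.Agent.MRel.F23
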