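import Cfsg.Agent.MRel.SuzX

set_option autoImplicit false
set_option maxRecDepth 1000000

/-!
The Schur multiplier of the presented `G₂(4)` is cyclic of order two (owner: helper83).
-/

namespace Cfsg.Agent.MRel.G24X

open Cfsg.Agent.CosetEnum Cfsg.Agent.CosetEnum.Suz Subgroup Mult Mat

/-- the words in six letters -/
def sc6 : List (List ℕ × ℕ) := SuzMat.sc.filter fun q => wOK 6 q.1

theorem md : MD 65536 19 12 SuzMat.idr (SuzMat.Ls.take 7) 6 SuzT6.iv sc6 where
  hp := by norm_num
  hn := by norm_num
  hB := by norm_num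
  ok := by decide +kernel
  idok := by decide +kernel
  len := rfl
  zero := rfl
  scok := by decide +kernel
  inv := by decide +kernel
  out := rfl

theorem hab (x : ℕ) (hx : isLet 6 x = true) : abl md.M 6 x = 1 := by
  have h : ∀ w : List ℕ, wOK 6 w = true → (w, 1) ∈ sc6 → (w.map (abl md.M 6)).prod = 1 :=
    fun w hw hm => abl_rel hw (md.one_word hm)
  have hp : ∀ (u : List ℕ) (n : ℕ), wOK 6 (expand (u, n)) = true → (expand (u, n), 1) ∈ sc6 →
      ((u.map (abl md.M 6)).prod) ^ n = 1 := fun u n hw hm => by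
    rw [← SuzX.w_prod]; exact h _ hw hm
  obtain ⟨h1, h2, h3, h4, h5, h6, -⟩ := SuzX.ab_alg (a := abl md.M 6 1) (b := abl md.M 6 2) (c := abl md.M 6 3)
    (d := abl md.M 6 4) (e := abl md.M 6 5) (f := abl md.M 6 6) (g := abl md.M 6 6)
    (by simpa using h [1, 1] (by decide) (by decide +kernel))
    (by simpa using h [2, 2] (by decide) (by decide +kernel))
    (by simpa using h [3, 3] (by decide) (by decide +kernel))
    (by simpa using h [6, 6] (by decide) (by decide +kernel))
    (by simpa using h [6, 6] (by decide) (by decide +kernel))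
    (by simpa using hp [1, 2] 5 (by decide) (by decide +kernel))
    (by simpa using hp [2, 3] 3 (by decide) (by decide +kernel))
    (by simpa using hp [2, 6] 3 (by decide) (by decide +kernel))
    (by simpa using hp [2, 6] 3 (by decide) (by decide +kernel))
    (by simpa [mul_assoc] using h [4, 4, 4, 4] (by decide) (by decide +kernel))
    (by simpa [mul_assoc] using h [4, 4, 5, 5] (by decide) (by decide +kernel))
    (by
      have := h [1, 3, 4, 3, 4, 3, 4, 3, 4] (by decide) (by decide +kernel)
      simpa [pow_succ, mul_assoc] using this)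
    (by
      have := hp [2, 3, 4, 3, 4, 2, 3, 4, 3, 4, 2, 3, 4, 3, 4, 2, 3, 4, 3, 4, 2, 3, 4, 3, 4, 5] 3 (by decide)
        (by decide +kernel)
      have e : ([2, 3, 4, 3, 4, 2, 3, 4, 3, 4, 2, 3, 4, 3, 4, 2, 3, 4, 3, 4, 2, 3, 4, 3, 4, 5] : List ℕ) =
        expand ([2, 3, 4, 3, 4], 5) ++ [5] := rfl
      rw [e, List.map_append, List.prod_append, SuzX.w_prod] at this
      simpa [mul_assoc] using this)
    (by
      have := h [4, 5, 4, 5, 4, 5, 4, 4] (by decide) (by decide +kernel)
      simpa [pow_succ, mul_assoc] using this)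
  have h := isLet_iff.1 hx
  match x, h with
  | 1, _ => exact h1
  | 2, _ => exact h2
  | 3, _ => exact h3
  | 4, _ => exact h4
  | 5, _ => exact h5
  | 6, _ => exact h6
  | (n + 7), h => omega

theorem ord18 : orderOf ((18 : ℕ) : ZMod 19) = 2 := by
  have hf : Fact (Nat.Prime 2) := ⟨by norm_num⟩
  exact orderOf_eq_prime (by decide) (by decide)

/-- **The Schur multiplier of the presented `G₂(4)`.** -/
theorem mult_Q6 : HasCyclicSchurMultiplier Q6 2 := by
  have hs : IsSimpleGroup Q6 := simple6
  have hfin : Finite Q6 := Nat.finite_of_card_ne_zero (by rw [card6]; norm_num)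
  exact md.cyclic U6 (by decide +kernel) hab
    (w := [1, 2, 3, 6, 1, 2, 3, 6, 1, 2, 3, 6, 1, 2, 3, 6, 1, 2, 3, 6])
    (c := 18) (by decide +kernel) (by decide) (by norm_num) ord18 (G24.perf_of_simple card6 (by norm_num)) G24.mb6

end Cfsg.Agent.MRel.G24X
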