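import Cfsg.Agent.MRel.HNW

/-! Relations of words, part 1 (generated; owner: helper83). -/

set_option autoImplicit false
set_option maxRecDepth 1000000

namespace Cfsg.Agent.MRel.HNX

open Cfsg.Agent.CosetEnum Cfsg.Agent.KMat Cfsg.Agent.HN

theorem c10 : allR (prB PM ms prs) 10 1 = true := by decide +kernel

theorem c11 : allR (prB PM ms prs) 11 1 = true := by decide +kernel

theorem c12 : allR (prB PM ms prs) 12 1 = true := by decide +kernel

theorem c13 : allR (prB PM ms prs) 13 1 = true := by decide +kernel

theorem c14 : allR (prB PM ms prs) 14 1 = true := by decide +kernel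

theorem c15 : allR (prB PM ms prs) 15 1 = true := by decide +kernel

theorem c16 : allR (prB PM ms prs) 16 1 = true := by decide +kernel

theorem c17 : allR (prB PM ms prs) 17 1 = true := by decide +kernel

theorem c18 : allR (prB PM ms prs) 18 1 = true := by decide +kernel

theorem c19 : allR (prB PM ms prs) 19 1 = true := by decide +kernel

theorem v1 : Cov (prB PM ms prs) 10 20 :=
  (((((((((Cov.of c10 rfl).trans (Cov.of c11 rfl)).trans (Cov.of c12 rfl)).trans (Cov.of c13 rfl)).trans (Cov.of c14 rfl)).trans (Cov.of c15 rfl)).trans (Cov.of c16 rfl)).trans (Cov.of c17 rfl)).trans (Cov.of c18 rfl)).trans (Cov.of c19 rfl)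

end Cfsg.Agent.MRel.HNX
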