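import Cfsg.Agent.MRel.HNW

/-! Relations of words, part 10 (generated; owner: helper83). -/

set_option autoImplicit false
set_option maxRecDepth 1000000

namespace Cfsg.Agent.MRel.HNX

open Cfsg.Agent.CosetEnum Cfsg.Agent.KMat Cfsg.Agent.HN

theorem c100 : allR (prB PM ms prs) 100 1 = true := by decide +kernel

theorem c101 : allR (prB PM ms prs) 101 1 = true := by decide +kernel

theorem c102 : allR (prB PM ms prs) 102 1 = true := by decide +kernel

theorem c103 : allR (prB PM ms prs) 103 1 = true := by decide +kernel

theorem c104 : allR (prB PM ms prs) 104 1 = true := by decide +kernel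

theorem c105 : allR (prB PM ms prs) 105 1 = true := by decide +kernel

theorem c106 : allR (prB PM ms prs) 106 1 = true := by decide +kernel

theorem c107 : allR (prB PM ms prs) 107 1 = true := by decide +kernel

theorem c108 : allR (prB PM ms prs) 108 1 = true := by decide +kernel

theorem c109 : allR (prB PM ms prs) 109 1 = true := by decide +kernel

theorem v10 : Cov (prB PM ms prs) 100 110 :=
  (((((((((Cov.of c100 rfl).trans (Cov.of c101 rfl)).trans (Cov.of c102 rfl)).trans (Cov.of c103 rfl)).trans (Cov.of c104 rfl)).trans (Cov.of c105 rfl)).trans (Cov.of c106 rfl)).trans (Cov.of c107 rfl)).trans (Cov.of c108 rfl)).trans (Cov.of c109 rfl)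

end Cfsg.Agent.MRel.HNX
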