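import Cfsg.Agent.MRel.HNW

/-! Relations of words, part 11 (generated; owner: helper83). -/

set_option autoImplicit false
set_option maxRecDepth 1000000

namespace Cfsg.Agent.MRel.HNX

open Cfsg.Agent.CosetEnum Cfsg.Agent.KMat Cfsg.Agent.HN

theorem c110 : allR (prB PM ms prs) 110 1 = true := by decide +kernel

theorem c111 : allR (prB PM ms prs) 111 1 = true := by decide +kernel

theorem c112 : allR (prB PM ms prs) 112 1 = true := by decide +kernel

theorem c113 : allR (prB PM ms prs) 113 1 = true := by decide +kernel

theorem c114 : allR (prB PM ms prs) 114 1 = true := by decide +kernel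

theorem c115 : allR (prB PM ms prs) 115 1 = true := by decide +kernel

theorem c116 : allR (prB PM ms prs) 116 1 = true := by decide +kernel

theorem c117 : allR (prB PM ms prs) 117 1 = true := by decide +kernel

theorem c118 : allR (prB PM ms prs) 118 1 = true := by decide +kernel

theorem c119 : allR (prB PM ms prs) 119 1 = true := by decide +kernel

theorem v11 : Cov (prB PM ms prs) 110 120 :=
  (((((((((Cov.of c110 rfl).trans (Cov.of c111 rfl)).trans (Cov.of c112 rfl)).trans (Cov.of c113 rfl)).trans (Cov.of c114 rfl)).trans (Cov.of c115 rfl)).trans (Cov.of c116 rfl)).trans (Cov.of c117 rfl)).trans (Cov.of c118 rfl)).trans (Cov.of c119 rfl)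

end Cfsg.Agent.MRel.HNX
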