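import Cfsg.Agent.MRel.HNW

/-! Relations of words, part 12 (generated; owner: helper83). -/

set_option autoImplicit false
set_option maxRecDepth 1000000

namespace Cfsg.Agent.MRel.HNX

open Cfsg.Agent.CosetEnum Cfsg.Agent.KMat Cfsg.Agent.HN

theorem c120 : allR (prB PM ms prs) 120 1 = true := by decide +kernel

theorem c121 : allR (prB PM ms prs) 121 1 = true := by decide +kernel

theorem c122 : allR (prB PM ms prs) 122 1 = true := by decide +kernel

theorem c123 : allR (prB PM ms prs) 123 1 = true := by decide +kernel

theorem c124 : allR (prB PM ms prs) 124 1 = true := by decide +kernel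

theorem c125 : allR (prB PM ms prs) 125 1 = true := by decide +kernel

theorem c126 : allR (prB PM ms prs) 126 1 = true := by decide +kernel

theorem c127 : allR (prB PM ms prs) 127 1 = true := by decide +kernel

theorem c128 : allR (prB PM ms prs) 128 1 = true := by decide +kernel

theorem c129 : allR (prB PM ms prs) 129 1 = true := by decide +kernel

theorem v12 : Cov (prB PM ms prs) 120 130 :=
  (((((((((Cov.of c120 rfl).trans (Cov.of c121 rfl)).trans (Cov.of c122 rfl)).trans (Cov.of c123 rfl)).trans (Cov.of c124 rfl)).trans (Cov.of c125 rfl)).trans (Cov.of c126 rfl)).trans (Cov.of c127 rfl)).trans (Cov.of c128 rfl)).trans (Cov.of c129 rfl)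

end Cfsg.Agent.MRel.HNX
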