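import Cfsg.Agent.MRel.HNW

/-! Relations of words, part 13 (generated; owner: helper83). -/

set_option autoImplicit false
set_option maxRecDepth 1000000

namespace Cfsg.Agent.MRel.HNX

open Cfsg.Agent.CosetEnum Cfsg.Agent.KMat Cfsg.Agent.HN

theorem c130 : allR (prB PM ms prs) 130 1 = true := by decide +kernel

theorem c131 : allR (prB PM ms prs) 131 1 = true := by decide +kernel

theorem c132 : allR (prB PM ms prs) 132 1 = true := by decide +kernel

theorem v13 : Cov (prB PM ms prs) 130 133 :=
  ((Cov.of c130 rfl).trans (Cov.of c131 rfl)).trans (Cov.of c132 rfl)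

end Cfsg.Agent.MRel.HNX
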