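import Cfsg.Agent.MRel.HNW

/-! Relations of words, part 2 (generated; owner: helper83). -/

set_option autoImplicit false
set_option maxRecDepth 1000000

namespace Cfsg.Agent.MRel.HNX

open Cfsg.Agent.CosetEnum Cfsg.Agent.KMat Cfsg.Agent.HN

theorem c20 : allR (prB PM ms prs) 20 1 = true := by decide +kernel

theorem c21 : allR (prB PM ms prs) 21 1 = true := by decide +kernel

theorem c22 : allR (prB PM ms prs) 22 1 = true := by decide +kernel

theorem c23 : allR (prB PM ms prs) 23 1 = true := by decide +kernel

theorem c24 : allR (prB PM ms prs) 24 1 = true := by decide +kernel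

theorem c25 : allR (prB PM ms prs) 25 1 = true := by decide +kernel

theorem c26 : allR (prB PM ms prs) 26 1 = true := by decide +kernel

theorem c27 : allR (prB PM ms prs) 27 1 = true := by decide +kernel

theorem c28 : allR (prB PM ms prs) 28 1 = true := by decide +kernel

theorem c29 : allR (prB PM ms prs) 29 1 = true := by decide +kernel

theorem v2 : Cov (prB PM ms prs) 20 30 :=
  (((((((((Cov.of c20 rfl).trans (Cov.of c21 rfl)).trans (Cov.of c22 rfl)).trans (Cov.of c23 rfl)).trans (Cov.of c24 rfl)).trans (Cov.of c25 rfl)).trans (Cov.of c26 rfl)).trans (Cov.of c27 rfl)).trans (Cov.of c28 rfl)).trans (Cov.of c29 rfl)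

end Cfsg.Agent.MRel.HNX
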