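import Cfsg.Agent.MRel.HNW

/-! Relations of words, part 3 (generated; owner: helper83). -/

set_option autoImplicit false
set_option maxRecDepth 1000000

namespace Cfsg.Agent.MRel.HNX

open Cfsg.Agent.CosetEnum Cfsg.Agent.KMat Cfsg.Agent.HN

theorem c30 : allR (prB PM ms prs) 30 1 = true := by decide +kernel

theorem c31 : allR (prB PM ms prs) 31 1 = true := by decide +kernel

theorem c32 : allR (prB PM ms prs) 32 1 = true := by decide +kernel

theorem c33 : allR (prB PM ms prs) 33 1 = true := by decide +kernel

theorem c34 : allR (prB PM ms prs) 34 1 = true := by decide +kernel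

theorem c35 : allR (prB PM ms prs) 35 1 = true := by decide +kernel

theorem c36 : allR (prB PM ms prs) 36 1 = true := by decide +kernel

theorem c37 : allR (prB PM ms prs) 37 1 = true := by decide +kernel

theorem c38 : allR (prB PM ms prs) 38 1 = true := by decide +kernel

theorem c39 : allR (prB PM ms prs) 39 1 = true := by decide +kernel

theorem v3 : Cov (prB PM ms prs) 30 40 :=
  (((((((((Cov.of c30 rfl).trans (Cov.of c31 rfl)).trans (Cov.of c32 rfl)).trans (Cov.of c33 rfl)).trans (Cov.of c34 rfl)).trans (Cov.of c35 rfl)).trans (Cov.of c36 rfl)).trans (Cov.of c37 rfl)).trans (Cov.of c38 rfl)).trans (Cov.of c39 rfl)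

end Cfsg.Agent.MRel.HNX
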