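import Cfsg.Agent.MRel.HNW

/-! Relations of words, part 4 (generated; owner: helper83). -/

set_option autoImplicit false
set_option maxRecDepth 1000000

namespace Cfsg.Agent.MRel.HNX

open Cfsg.Agent.CosetEnum Cfsg.Agent.KMat Cfsg.Agent.HN

theorem c40 : allR (prB PM ms prs) 40 1 = true := by decide +kernel

theorem c41 : allR (prB PM ms prs) 41 1 = true := by decide +kernel

theorem c42 : allR (prB PM ms prs) 42 1 = true := by decide +kernel

theorem c43 : allR (prB PM ms prs) 43 1 = true := by decide +kernel

theorem c44 : allR (prB PM ms prs) 44 1 = true := by decide +kernel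

theorem c45 : allR (prB PM ms prs) 45 1 = true := by decide +kernel

theorem c46 : allR (prB PM ms prs) 46 1 = true := by decide +kernel

theorem c47 : allR (prB PM ms prs) 47 1 = true := by decide +kernel

theorem c48 : allR (prB PM ms prs) 48 1 = true := by decide +kernel

theorem c49 : allR (prB PM ms prs) 49 1 = true := by decide +kernel

theorem v4 : Cov (prB PM ms prs) 40 50 :=
  (((((((((Cov.of c40 rfl).trans (Cov.of c41 rfl)).trans (Cov.of c42 rfl)).trans (Cov.of c43 rfl)).trans (Cov.of c44 rfl)).trans (Cov.of c45 rfl)).trans (Cov.of c46 rfl)).trans (Cov.of c47 rfl)).trans (Cov.of c48 rfl)).trans (Cov.of c49 rfl)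

end Cfsg.Agent.MRel.HNX
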