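import Cfsg.Agent.MRel.HNW

/-! Relations of words, part 5 (generated; owner: helper83). -/

set_option autoImplicit false
set_option maxRecDepth 1000000

namespace Cfsg.Agent.MRel.HNX

open Cfsg.Agent.CosetEnum Cfsg.Agent.KMat Cfsg.Agent.HN

theorem c50 : allR (prB PM ms prs) 50 1 = true := by decide +kernel

theorem c51 : allR (prB PM ms prs) 51 1 = true := by decide +kernel

theorem c52 : allR (prB PM ms prs) 52 1 = true := by decide +kernel

theorem c53 : allR (prB PM ms prs) 53 1 = true := by decide +kernel

theorem c54 : allR (prB PM ms prs) 54 1 = true := by decide +kernel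

theorem c55 : allR (prB PM ms prs) 55 1 = true := by decide +kernel

theorem c56 : allR (prB PM ms prs) 56 1 = true := by decide +kernel

theorem c57 : allR (prB PM ms prs) 57 1 = true := by decide +kernel

theorem c58 : allR (prB PM ms prs) 58 1 = true := by decide +kernel

theorem c59 : allR (prB PM ms prs) 59 1 = true := by decide +kernel

theorem v5 : Cov (prB PM ms prs) 50 60 :=
  (((((((((Cov.of c50 rfl).trans (Cov.of c51 rfl)).trans (Cov.of c52 rfl)).trans (Cov.of c53 rfl)).trans (Cov.of c54 rfl)).trans (Cov.of c55 rfl)).trans (Cov.of c56 rfl)).trans (Cov.of c57 rfl)).trans (Cov.of c58 rfl)).trans (Cov.of c59 rfl)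

end Cfsg.Agent.MRel.HNX
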