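import Cfsg.Agent.MRel.HNW

/-! Relations of words, part 6 (generated; owner: helper83). -/

set_option autoImplicit false
set_option maxRecDepth 1000000

namespace Cfsg.Agent.MRel.HNX

open Cfsg.Agent.CosetEnum Cfsg.Agent.KMat Cfsg.Agent.HN

theorem c60 : allR (prB PM ms prs) 60 1 = true := by decide +kernel

theorem c61 : allR (prB PM ms prs) 61 1 = true := by decide +kernel

theorem c62 : allR (prB PM ms prs) 62 1 = true := by decide +kernel

theorem c63 : allR (prB PM ms prs) 63 1 = true := by decide +kernel

theorem c64 : allR (prB PM ms prs) 64 1 = true := by decide +kernel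

theorem c65 : allR (prB PM ms prs) 65 1 = true := by decide +kernel

theorem c66 : allR (prB PM ms prs) 66 1 = true := by decide +kernel

theorem c67 : allR (prB PM ms prs) 67 1 = true := by decide +kernel

theorem c68 : allR (prB PM ms prs) 68 1 = true := by decide +kernel

theorem c69 : allR (prB PM ms prs) 69 1 = true := by decide +kernel

theorem v6 : Cov (prB PM ms prs) 60 70 :=
  (((((((((Cov.of c60 rfl).trans (Cov.of c61 rfl)).trans (Cov.of c62 rfl)).trans (Cov.of c63 rfl)).trans (Cov.of c64 rfl)).trans (Cov.of c65 rfl)).trans (Cov.of c66 rfl)).trans (Cov.of c67 rfl)).trans (Cov.of c68 rfl)).trans (Cov.of c69 rfl)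

end Cfsg.Agent.MRel.HNX
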