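import Cfsg.Agent.MRel.HNW

/-! Relations of words, part 7 (generated; owner: helper83). -/

set_option autoImplicit false
set_option maxRecDepth 1000000

namespace Cfsg.Agent.MRel.HNX

open Cfsg.Agent.CosetEnum Cfsg.Agent.KMat Cfsg.Agent.HN

theorem c70 : allR (prB PM ms prs) 70 1 = true := by decide +kernel

theorem c71 : allR (prB PM ms prs) 71 1 = true := by decide +kernel

theorem c72 : allR (prB PM ms prs) 72 1 = true := by decide +kernel

theorem c73 : allR (prB PM ms prs) 73 1 = true := by decide +kernel

theorem c74 : allR (prB PM ms prs) 74 1 = true := by decide +kernel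

theorem c75 : allR (prB PM ms prs) 75 1 = true := by decide +kernel

theorem c76 : allR (prB PM ms prs) 76 1 = true := by decide +kernel

theorem c77 : allR (prB PM ms prs) 77 1 = true := by decide +kernel

theorem c78 : allR (prB PM ms prs) 78 1 = true := by decide +kernel

theorem c79 : allR (prB PM ms prs) 79 1 = true := by decide +kernel

theorem v7 : Cov (prB PM ms prs) 70 80 :=
  (((((((((Cov.of c70 rfl).trans (Cov.of c71 rfl)).trans (Cov.of c72 rfl)).trans (Cov.of c73 rfl)).trans (Cov.of c74 rfl)).trans (Cov.of c75 rfl)).trans (Cov.of c76 rfl)).trans (Cov.of c77 rfl)).trans (Cov.of c78 rfl)).trans (Cov.of c79 rfl)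

end Cfsg.Agent.MRel.HNX
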