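import Cfsg.Agent.MRel.HNW

/-! Relations of words, part 8 (generated; owner: helper83). -/

set_option autoImplicit false
set_option maxRecDepth 1000000

namespace Cfsg.Agent.MRel.HNX

open Cfsg.Agent.CosetEnum Cfsg.Agent.KMat Cfsg.Agent.HN

theorem c80 : allR (prB PM ms prs) 80 1 = true := by decide +kernel

theorem c81 : allR (prB PM ms prs) 81 1 = true := by decide +kernel

theorem c82 : allR (prB PM ms prs) 82 1 = true := by decide +kernel

theorem c83 : allR (prB PM ms prs) 83 1 = true := by decide +kernel

theorem c84 : allR (prB PM ms prs) 84 1 = true := by decide +kernel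

theorem c85 : allR (prB PM ms prs) 85 1 = true := by decide +kernel

theorem c86 : allR (prB PM ms prs) 86 1 = true := by decide +kernel

theorem c87 : allR (prB PM ms prs) 87 1 = true := by decide +kernel

theorem c88 : allR (prB PM ms prs) 88 1 = true := by decide +kernel

theorem c89 : allR (prB PM ms prs) 89 1 = true := by decide +kernel

theorem v8 : Cov (prB PM ms prs) 80 90 :=
  (((((((((Cov.of c80 rfl).trans (Cov.of c81 rfl)).trans (Cov.of c82 rfl)).trans (Cov.of c83 rfl)).trans (Cov.of c84 rfl)).trans (Cov.of c85 rfl)).trans (Cov.of c86 rfl)).trans (Cov.of c87 rfl)).trans (Cov.of c88 rfl)).trans (Cov.of c89 rfl)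

end Cfsg.Agent.MRel.HNX
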