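import Cfsg.Agent.MRel.HNW

/-! Relations of words, part 9 (generated; owner: helper83). -/

set_option autoImplicit false
set_option maxRecDepth 1000000

namespace Cfsg.Agent.MRel.HNX

open Cfsg.Agent.CosetEnum Cfsg.Agent.KMat Cfsg.Agent.HN

theorem c90 : allR (prB PM ms prs) 90 1 = true := by decide +kernel

theorem c91 : allR (prB PM ms prs) 91 1 = true := by decide +kernel

theorem c92 : allR (prB PM ms prs) 92 1 = true := by decide +kernel

theorem c93 : allR (prB PM ms prs) 93 1 = true := by decide +kernel

theorem c94 : allR (prB PM ms prs) 94 1 = true := by decide +kernel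

theorem c95 : allR (prB PM ms prs) 95 1 = true := by decide +kernel

theorem c96 : allR (prB PM ms prs) 96 1 = true := by decide +kernel

theorem c97 : allR (prB PM ms prs) 97 1 = true := by decide +kernel

theorem c98 : allR (prB PM ms prs) 98 1 = true := by decide +kernel

theorem c99 : allR (prB PM ms prs) 99 1 = true := by decide +kernel

theorem v9 : Cov (prB PM ms prs) 90 100 :=
  (((((((((Cov.of c90 rfl).trans (Cov.of c91 rfl)).trans (Cov.of c92 rfl)).trans (Cov.of c93 rfl)).trans (Cov.of c94 rfl)).trans (Cov.of c95 rfl)).trans (Cov.of c96 rfl)).trans (Cov.of c97 rfl)).trans (Cov.of c98 rfl)).trans (Cov.of c99 rfl)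

end Cfsg.Agent.MRel.HNX
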