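import Cfsg.Agent.MRel.HNP0
import Cfsg.Agent.MRel.HNP1
import Cfsg.Agent.MRel.HNP2
import Cfsg.Agent.MRel.HNP3
import Cfsg.Agent.MRel.HNP4
import Cfsg.Agent.MRel.HNP5
import Cfsg.Agent.MRel.HNP6
import Cfsg.Agent.MRel.HNP7
import Cfsg.Agent.MRel.HNP8
import Cfsg.Agent.MRel.HNP9
import Cfsg.Agent.MRel.HNP10
import Cfsg.Agent.MRel.HNP11
import Cfsg.Agent.MRel.HNP12
import Cfsg.Agent.MRel.HNP13
import Cfsg.Agent.CosetEnum.HN.Ord
import Cfsg.Agent.MRel.Proj

/-!
The Schur multiplier of the Harada-Norton group is trivial (owner: helper83).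
-/

set_option autoImplicit false
set_option maxRecDepth 1000000

namespace Cfsg.Agent.MRel.HNX

open Cfsg.Agent.CosetEnum (Cov)
open Cfsg.Agent.KMat Cfsg.Agent.HN Cfsg.Agent.MRel.KM Cfsg.Agent.MRel.Stab Cfsg.Spor

theorem pcovX : Cov (prB PM ms prs) 0 133 :=
  (((((((((((((v0).trans v1).trans v2).trans v3).trans v4).trans v5).trans v6).trans v7).trans v8).trans v9).trans v10).trans v11).trans v12).trans v13

/-- the letters -/
def L46 : List ℕ := List.range' 1 46

theorem L46_sub : ∀ x ∈ L46, x ∈ lets50 := by decide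

/-- the matrix group -/
noncomputable abbrev R : Subgroup MU := phi.range

theorem L46_R : ∀ x ∈ L46, Ug x ∈ R := by
  intro x hx
  rw [L46, List.mem_range'_1] at hx
  rcases Nat.lt_or_ge x 20 with h | h
  · rw [Ug_low (by omega)]
    apply rg19
    simp only [letsM, List.mem_cons, List.not_mem_nil, or_false]
    omega
  · exact rgU (by omega)

theorem mem2 {q : List ℕ × List ℕ} (h : q ∈ prs2) : q ∈ prs := List.mem_append_left _ h
theorem mem3 {q : List ℕ × List ℕ} (h : q ∈ prs3) : q ∈ prs := List.mem_append_right _ (List.mem_append_left _ h)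
theorem mem5 {q : List ℕ × List ℕ} (h : q ∈ prs5) : q ∈ prs :=
  List.mem_append_right _ (List.mem_append_right _ (List.mem_append_left _ h))
theorem memO {q : List ℕ × List ℕ} (h : q ∈ prsO) : q ∈ prs :=
  List.mem_append_right _ (List.mem_append_right _ (List.mem_append_right _ h))

theorem up {l : List (List ℕ × List ℕ)} (hl : ∀ q ∈ l, q ∈ prs) {ι : Type} {s : List ι} {f : ι → List ℕ × List ℕ}
    (h : (s.all fun q => l.contains (f q)) = true) : (s.all fun q => prs.contains (f q)) = true := by
  rw [List.all_eq_true] at h ⊢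
  intro x hx
  have h1 : f x ∈ l := by simpa using h x hx
  simpa using hl _ h1

/-- letters -/
noncomputable abbrev g2 : ℕ → R := fun i => Cfsg.Agent.MulX.Coh.val (gu Ug R) (W2.getD i [])
/-- letters -/
noncomputable abbrev g3 : ℕ → R := fun i => Cfsg.Agent.MulX.Coh.val (gu Ug R) (W3.getD i [])
/-- letters -/
noncomputable abbrev g5 : ℕ → R := fun i => Cfsg.Agent.MulX.Coh.val (gu Ug R) (W5.getD i [])

theorem W2L : (W2.all fun w => w.all fun x => L46.contains x) = true := by decide +kernel
theorem W3L : (W3.all fun w => w.all fun x => L46.contains x) = true := by decide +kernel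
theorem W5L : (W5.all fun w => w.all fun x => L46.contains x) = true := by decide +kernel

theorem h2 : Holds g2 HNC2.rules := holds FG R pcovX L46_sub L46_R W2L (up (fun _ h => mem2 h) rl2)
theorem h3 : Holds g3 HNC3.rules := holds FG R pcovX L46_sub L46_R W3L (up (fun _ h => mem3 h) rl3)
theorem h5 : Holds g5 HNC5.rules := holds FG R pcovX L46_sub L46_R W5L (up (fun _ h => mem5 h) rl5)

theorem crd2 : 2 ^ 14 ≤ Nat.card ↥(Subgroup.closure (g2 '' {i | i < 14})) :=
  card_closure FG R pcovX L46_sub L46_R W2L (l0 := [32, 33, 34, 35, 36, 37, 38, 39, 40]) (l1 := [41, 42, 43, 44, 45]) (lw := lw2)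
    (up (fun _ h => mem2 h) ll2) (by decide +kernel) (by decide +kernel) e0_vec b2_vec fx2 d21 d20 finR rfl

theorem crd3 : 3 ^ 6 ≤ Nat.card ↥(Subgroup.closure (g3 '' {i | i < 6})) :=
  card_closure FG R pcovX L46_sub L46_R W3L (l0 := [26, 27, 28, 29, 30]) (l1 := [31]) (lw := lw3)
    (up (fun _ h => mem3 h) ll3) (by decide +kernel) (by decide +kernel) e0_vec b3_vec fx3 d31 d30 finR rfl

theorem crd5 : 5 ^ 6 ≤ Nat.card ↥(Subgroup.closure (g5 '' {i | i < 6})) :=
  card_closure FG R pcovX L46_sub L46_R W5L (l0 := [20, 21]) (l1 := [22, 23, 24, 25]) (lw := lw5)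
    (up (fun _ h => mem5 h) ll5) (by decide +kernel) (by decide +kernel) e0_vec b5_vec fx5 d51 d50 finR rfl

/-! ### The order -/


theorem phi_inj : Function.Injective phi := by
  haveI := simple_HN
  rcases (inferInstance : phi.ker.Normal).eq_bot_or_eq_top with h | h
  · exact (MonoidHom.ker_eq_bot_iff _).1 h
  · exfalso
    have h1 : phi (gN 9) = 1 := by
      have : gN 9 ∈ phi.ker := by rw [h]; exact Subgroup.mem_top _
      exact this
    rw [gN9, phi_let (by decide)] at h1
    refine RT.ne (u := [6]) (u' := []) ?_ (by simp) e7_vec t_mv (by simpa using h1)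
    intro x hx
    simp only [List.mem_cons, List.not_mem_nil, or_false] at hx
    subst hx
    decide

/-- the isomorphism -/
noncomputable def eR : Spor.HN ≃* R := MonoidHom.ofInjective phi_inj

theorem card_R : Nat.card R = 273030912000000 := by
  rw [← Nat.card_congr eR.toEquiv, card_HN]

theorem pb2 : PB R 2 1 := by
  haveI := finR
  exact PB_one Nat.prime_two g2 HNC2.good rfl rfl h2 HNC2.pc_ok crd2 card_R (by norm_num) 1

theorem pb3 : PB R 3 1 := by
  haveI := finR
  exact PB_one Nat.prime_three g3 HNC3.good rfl rfl h3 HNC3.pc_ok crd3 card_R (by norm_num) 1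

theorem pb5 : PB R 5 1 := by
  haveI := finR
  exact PB_one Nat.prime_five g5 HNC5.good rfl rfl h5 HNC5.pc_ok crd5 card_R (by norm_num) 1

/-- words -/
def w7 : List ℕ := [13, 6, 19]
/-- words -/
def w11 : List ℕ := [16, 15, 17, 6, 19, 13, 14]
/-- words -/
def w19 : List ℕ := [46]

theorem k7 : prs.contains ((List.replicate 7 w7).flatten, []) = true := by
  simpa using memO (q := ((List.replicate 7 w7).flatten, [])) (by decide +kernel)
theorem k11 : prs.contains ((List.replicate 11 w11).flatten, []) = true := by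
  simpa using memO (q := ((List.replicate 11 w11).flatten, [])) (by decide +kernel)
theorem k19 : prs.contains ((List.replicate 19 w19).flatten, []) = true := by
  simpa using memO (q := ((List.replicate 19 w19).flatten, [])) (by decide +kernel)

theorem m7 : Nat.beq (walk PM ms w7 e7) e7 = false := by decide +kernel
theorem m11 : Nat.beq (walk PM ms w11 e7) e7 = false := by decide +kernel
theorem m19 : Nat.beq (walk PM ms w19 e7) e7 = false := by decide +kernel

theorem o7 : orderOf (Cfsg.Agent.MulX.Coh.val (gu Ug R) w7) = 7 :=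
  orderOf_word FG R pcovX L46_sub L46_R (by norm_num) e7_vec (by decide) k7 m7
theorem o11 : orderOf (Cfsg.Agent.MulX.Coh.val (gu Ug R) w11) = 11 :=
  orderOf_word FG R pcovX L46_sub L46_R (by norm_num) e7_vec (by decide) k11 m11
theorem o19 : orderOf (Cfsg.Agent.MulX.Coh.val (gu Ug R) w19) = 19 :=
  orderOf_word FG R pcovX L46_sub L46_R (by norm_num) e7_vec (by decide) k19 m19

theorem pb7 : PB R 7 1 := by
  haveI := finR
  exact PB.of_cyclic (by norm_num) (cyc_index o7 (by norm_num) card_R (by norm_num)) 1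
theorem pb11 : PB R 11 1 := by
  haveI := finR
  exact PB.of_cyclic (by norm_num) (cyc_index o11 (by norm_num) card_R (by norm_num)) 1
theorem pb19 : PB R 19 1 := by
  haveI := finR
  exact PB.of_cyclic (by norm_num) (cyc_index o19 (by norm_num) card_R (by norm_num)) 1

theorem mbR : MB R 1 := by
  haveI := finR
  apply MB.of_PB
  intro p hp
  by_cases h : p ∣ Nat.card R
  · rw [card_R] at h
    have h2 : p ∣ 2 ^ 14 * (3 ^ 6 * (5 ^ 6 * (7 * (11 * 19)))) := by
      have e : 273030912000000 = 2 ^ 14 * (3 ^ 6 * (5 ^ 6 * (7 * (11 * 19)))) := by norm_num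
      rwa [e] at h
    rcases hp.dvd_mul.1 h2 with h | h
    · rw [(Nat.prime_dvd_prime_iff_eq hp Nat.prime_two).1 (hp.dvd_of_dvd_pow h)]
      exact pb2
    rcases hp.dvd_mul.1 h with h | h
    · rw [(Nat.prime_dvd_prime_iff_eq hp Nat.prime_three).1 (hp.dvd_of_dvd_pow h)]
      exact pb3
    rcases hp.dvd_mul.1 h with h | h
    · rw [(Nat.prime_dvd_prime_iff_eq hp Nat.prime_five).1 (hp.dvd_of_dvd_pow h)]
      exact pb5
    rcases hp.dvd_mul.1 h with h | h
    · rw [(Nat.prime_dvd_prime_iff_eq hp (by norm_num)).1 h]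
      exact pb7
    rcases hp.dvd_mul.1 h with h | h
    · rw [(Nat.prime_dvd_prime_iff_eq hp (by norm_num)).1 h]
      exact pb11
    · rw [(Nat.prime_dvd_prime_iff_eq hp (by norm_num)).1 h]
      exact pb19
  · exact PB.of_not_card hp h 1

theorem mb : MB Spor.HN 1 := mbR.equiv eR.symm

theorem notComm (hab : ∀ a b : Spor.HN, a * b = b * a) : False := by
  haveI := simple_HN
  haveI := finite_HN
  letI : CommGroup Spor.HN := { (inferInstance : Group Spor.HN) with mul_comm := hab }
  have h1 : (Nat.card Spor.HN).Prime := IsSimpleGroup.prime_card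
  rw [card_HN] at h1
  have h2 : (2 : ℕ) ∣ 273030912000000 := by norm_num
  rcases (Nat.dvd_prime h1).1 h2 with h3 | h3 <;> omega

theorem perf_HN : commutator Spor.HN = ⊤ := by
  haveI := simple_HN
  rcases (inferInstance : (commutator Spor.HN).Normal).eq_bot_or_eq_top with h | h
  · exfalso
    rw [commutator_def, Subgroup.commutator_eq_bot_iff_le_centralizer] at h
    exact notComm fun a b => (Subgroup.mem_centralizer_iff.1 (h (Subgroup.mem_top a)) b (Subgroup.mem_top b)).symm
  · exact h

theorem mult_HN : Cfsg.HasCyclicSchurMultiplier Spor.HN 1 := by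
  haveI := finite_HN
  have P : PCE (MonoidHom.id Spor.HN) := by
    refine ⟨⟨Function.surjective_id, ?_⟩, perf_HN⟩
    intro x hx
    have : x = 1 := hx
    rw [this]; exact one_mem _
  exact cyclic_of perf_HN one_pos mb P (z := 1) rfl (one_dvd _)

end Cfsg.Agent.MRel.HNX
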