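import Cfsg.Agent.MRel.HNW

/-! Relations of words, part 0 (generated; owner: helper83). -/

set_option autoImplicit false
set_option maxRecDepth 1000000

namespace Cfsg.Agent.MRel.HNX

open Cfsg.Agent.CosetEnum Cfsg.Agent.KMat Cfsg.Agent.HN

theorem c0 : allR (prB PM ms prs) 0 1 = true := by decide +kernel

theorem c1 : allR (prB PM ms prs) 1 1 = true := by decide +kernel

theorem c2 : allR (prB PM ms prs) 2 1 = true := by decide +kernel

theorem c3 : allR (prB PM ms prs) 3 1 = true := by decide +kernel

theorem c4 : allR (prB PM ms prs) 4 1 = true := by decide +kernel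

theorem c5 : allR (prB PM ms prs) 5 1 = true := by decide +kernel

theorem c6 : allR (prB PM ms prs) 6 1 = true := by decide +kernel

theorem c7 : allR (prB PM ms prs) 7 1 = true := by decide +kernel

theorem c8 : allR (prB PM ms prs) 8 1 = true := by decide +kernel

theorem c9 : allR (prB PM ms prs) 9 1 = true := by decide +kernel

theorem v0 : Cov (prB PM ms prs) 0 10 :=
  (((((((((Cov.of c0 rfl).trans (Cov.of c1 rfl)).trans (Cov.of c2 rfl)).trans (Cov.of c3 rfl)).trans (Cov.of c4 rfl)).trans (Cov.of c5 rfl)).trans (Cov.of c6 rfl)).trans (Cov.of c7 rfl)).trans (Cov.of c8 rfl)).trans (Cov.of c9 rfl)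

end Cfsg.Agent.MRel.HNX
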