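import Cfsg.Agent.MRel.Tr
import Cfsg.Agent.MRel.G24
import Cfsg.Agent.MulX.Lift
import Cfsg.Agent.CosetEnum.M83.CertsE
import Cfsg.Agent.CosetEnum.He.Simple

set_option autoImplicit false
set_option maxRecDepth 1000000

/-!
The relative bound `Sp₄(4) < He` (owner: helper83).
-/

namespace Cfsg.Agent.MRel.He

open Cfsg.Agent.CosetEnum Cfsg.Agent.CosetEnum.He Subgroup Mult

/-- words that are trivial in `He` -/
def us : List (List ℕ) := (M83E.RL.filter fun p => wOK 7 p.1).map expand ++ [[10, 5, 10, 5, 10, 5], [9, 5, 9, 6]]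

theorem us_cov : Cov (trivB HeT10.P us) 0 HeT10.P.m := Cov.of (c := 2058) (by decide +kernel) rfl

theorem us_rel : ∀ u ∈ us, (u.map gH).prod = 1 := LH.rels FH.1 (us := us) (by decide +kernel) us_cov

/-- the relators in the letters of the subgroup -/
def RL7 : List (List ℕ × ℕ) := M83E.RL.filter fun p => wOK 7 p.1

theorem g7 : Good gH 10 HeT10.iv RL7 where
  inv := gH_good0.inv
  one := gH_good0.one
  rel p hp := by
    rw [← prod_expand]
    exact us_rel _ (List.mem_append_left _ (List.mem_map.2 ⟨p, hp, rfl⟩))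

theorem sqH {x : ℕ} (h : ivL HeT10.iv x = x) : gH x * gH x = 1 := by
  have := gH_good0.inv x
  rw [h] at this
  nth_rewrite 1 [this]
  exact inv_mul_cancel _

theorem relH {u : List ℕ} {m : ℕ} (h : (u, m) ∈ HeT10.RL) : ((u.map gH).prod) ^ m = 1 := gH_good.rel (u, m) h

theorem pairH {x y m : ℕ} (h : ([x, y], m) ∈ HeT10.RL) : (gH x * gH y) ^ m = 1 := by
  have := relH h
  simpa using this

theorem commH {x y : ℕ} (hx : ivL HeT10.iv x = x) (hy : ivL HeT10.iv y = y) (h : ([x, y], 2) ∈ HeT10.RL) :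
    gH x * gH y = gH y * gH x := J2.comm_of_sq (sqH hx) (sqH hy) (pairH h)

theorem relk {u : List ℕ} (h : u ∈ us) : (u.map gH).prod = 1 := us_rel u h

theorem gk3 : (gH 10 * gH 5) ^ 3 = 1 := by
  have := relk (u := [10, 5, 10, 5, 10, 5]) (by decide +kernel)
  simpa [pow_succ, mul_assoc] using this

theorem k3 : gH 5 ^ 3 = 1 := by
  have := relk (u := [5, 5, 5]) (by decide +kernel)
  simpa [pow_succ, mul_assoc] using this

theorem gH6 : gH 6 = (gH 5)⁻¹ := gH_good0.inv 5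

theorem kb : gH 5 * gH 9 = gH 9 * gH 5 := by
  have := relk (u := [9, 5, 9, 6]) (by decide +kernel)
  simp only [List.map_cons, List.map_nil, List.prod_cons, List.prod_nil, mul_one, gH6] at this
  have h2 : gH 9 * gH 5 * gH 9 * (gH 5)⁻¹ = 1 := by simpa only [mul_assoc] using this
  rw [mul_inv_eq_one] at h2
  have h3 := sqH (x := 9) rfl
  calc gH 5 * gH 9 = gH 9 * gH 5 * gH 9 * gH 9 := by rw [h2]
    _ = gH 9 * gH 5 := by rw [mul_assoc (gH 9 * gH 5), h3, mul_one]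

theorem kc : gH 5 * gH 1 = gH 1 * gH 5 := by
  have := relk (u := [1, 5, 1, 6]) (by decide +kernel)
  simp only [List.map_cons, List.map_nil, List.prod_cons, List.prod_nil, mul_one, gH6] at this
  have h2 : gH 1 * gH 5 * gH 1 * (gH 5)⁻¹ = 1 := by simpa only [mul_assoc] using this
  rw [mul_inv_eq_one] at h2
  have h3 := sqH (x := 1) rfl
  calc gH 5 * gH 1 = gH 1 * gH 5 * gH 1 * gH 1 := by rw [h2]
    _ = gH 1 * gH 5 := by rw [mul_assoc (gH 1 * gH 5), h3, mul_one]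

/-- `a` lies in the subgroup -/
theorem a_mem : gH 7 ∈ Cl gH 6 := by
  have h := relH (u := [7, 1, 2, 1, 2, 1, 2, 1, 2, 1, 2]) (m := 1) (by decide)
  rw [List.map_cons, List.prod_cons, pow_one] at h
  rw [eq_inv_of_mul_eq_one_left h]
  exact inv_mem (word_mem_Cl gH (by decide))

theorem Cl76 : Cl gH 7 = Cl gH 6 := by
  apply le_antisymm
  · unfold Cl
    rw [closure_le]
    rintro _ ⟨x, hx, rfl⟩
    have h := isLet_iff.1 hx
    by_cases h7 : x = 7
    · subst h7; exact a_mem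
    · exact mem_Cl gH (isLet_iff.2 ⟨h.1, by omega⟩)
  · exact Cl_mono gH (by norm_num)

theorem perf7 : commutator ↥(Cl gH 7) = ⊤ := by
  rw [Cl76]
  have h1 := simple_N
  have h2 : Finite (Cl gH 6) := Nat.finite_of_card_ne_zero (by rw [card_N]; norm_num)
  exact G24.perf_of_simple card_N (by norm_num)

theorem card7 : Nat.card (Cl gH 7) = 979200 := by rw [Cl76, card_N]

/-- `h = (ab)^2` normalizes the subgroup -/
theorem norm8 (x : GH) (hx : x ∈ Cl gH 7) : gH 8 * x * (gH 8)⁻¹ ∈ Cl gH 7 := by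
  rw [Cl76] at hx ⊢
  have hn : ((Cl gH 6).subgroupOf (Cl gH 8)).Normal := Subgroup.normal_of_index_eq_two index_N
  have := hn.conj_mem ⟨x, N_le hx⟩ hx ⟨gH 8, mem_Cl gH rfl⟩
  exact this

theorem ah_aux {G : Type*} [Group G] {a b : G} (ha : a * a = 1) (hb : b * b = 1) (h4 : (a * b) ^ 4 = 1) :
    (a * b) ^ 2 * a * ((a * b) ^ 2)⁻¹ = a := by
  rw [mul_inv_eq_iff_eq_mul]
  have h5 : a * b * a * b * a * (b * a * b) = 1 := by
    rw [← h4]; simp only [pow_succ, pow_zero, one_mul, mul_assoc]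
  have h6 := eq_inv_of_mul_eq_one_left h5
  have h7 : (b * a * b)⁻¹ = b * a * b := by
    rw [mul_inv_rev, mul_inv_rev, inv_sq ha, inv_sq hb, mul_assoc]
  calc (a * b) ^ 2 * a = a * b * a * b * a := by simp only [pow_two, mul_assoc]
    _ = (a * a) * b * a * b := by rw [h6, h7, ha, one_mul]
    _ = a * (a * b) ^ 2 := by simp only [pow_two, mul_assoc]

theorem a_h : gH 8 * gH 7 * (gH 8)⁻¹ = gH 7 :=
  ah_aux (sqH (x := 7) rfl) (sqH (x := 9) rfl) (pairH (x := 7) (y := 9) (m := 4) (by decide))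

/-! ### lifts -/

section

variable {Γ : Type} [Group Γ] {σ : Γ →* GH} (C : CE σ) (s : Cl gH 7 →* Γ)

/-- lifts of the letters of the subgroup -/
noncomputable def l (x : ℕ) : Γ := if hx : isLet 7 x = true then s ⟨gH x, mem_Cl gH hx⟩ else 1

theorem l_eq (x : ℕ) (hx : isLet 7 x = true) : l s x = s ⟨gH x, mem_Cl gH hx⟩ := dif_pos hx

/-- lift of `b` -/
noncomputable def lb : Γ := C.cj (gH 1 * gH 9) (l s 1)

/-- lift of `g` -/
noncomputable def lg : Γ := C.cj (gH 2 * gH 10) (l s 2)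

/-- the relator `X` -/
noncomputable def vx : Γ := l s 3 * (l s 7 * lb C s * l s 1) ^ 3

/-- the relator `Y` -/
noncomputable def vy : Γ := l s 6 * (lb C s * l s 1 * l s 2 * l s 3) ^ 7

/-- the relator `W` -/
noncomputable def vw : Γ := (l s 1 * l s 2 * l s 4 * lg C s) ^ 4

/-- the letters of the covering presentation -/
noncomputable def fE : ℕ → Γ
  | 1 => l s 1
  | 2 => l s 2
  | 3 => l s 3
  | 4 => l s 4
  | 5 => l s 5
  | 6 => l s 6
  | 7 => l s 7
  | 8 => lb C s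
  | 9 => lg C s
  | 10 => vx C s
  | 11 => (vx C s)⁻¹
  | 12 => vy C s
  | 13 => (vy C s)⁻¹
  | 14 => vw C s
  | 15 => (vw C s)⁻¹
  | _ => 1

theorem hf7 (x : ℕ) (hx : isLet 7 x = true) : fE C s x = s ⟨gH x, mem_Cl gH hx⟩ := by
  have h := isLet_iff.1 hx
  rw [← l_eq s x hx]
  match x, h with
  | 1, _ => rfl
  | 2, _ => rfl
  | 3, _ => rfl
  | 4, _ => rfl
  | 5, _ => rfl
  | 6, _ => rfl
  | 7, _ => rfl
  | (n + 8), h => omega

theorem conj_cb : (gH 1 * gH 9) * gH 1 * (gH 1 * gH 9)⁻¹ = gH 9 :=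
  J2.conj3_of (sqH rfl) (sqH rfl) (pairH (x := 1) (y := 9) (m := 3) (by decide))

theorem conj_dg : (gH 2 * gH 10) * gH 2 * (gH 2 * gH 10)⁻¹ = gH 10 :=
  J2.conj3_of (sqH rfl) (sqH rfl) (pairH (x := 2) (y := 10) (m := 3) (by decide))

variable (hs : ∀ h : Cl gH 7, σ (s h) = h)

include hs

theorem σ_l (x : ℕ) (hx : isLet 7 x = true) : σ (l s x) = gH x := by rw [l_eq s x hx, hs]

omit hs in
theorem l_sq {x : ℕ} (hx : isLet 7 x = true) (h : ivL HeT10.iv x = x) : l s x * l s x = 1 := by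
  rw [l_eq s x hx]
  exact lift_sq s hx (sqH h)

theorem lb_spec : (l s 1 * lb C s) ^ 3 = 1 ∧ σ (lb C s) = gH 9 ∧ lb C s * lb C s = 1 := by
  have hb := l_sq s (x := 1) rfl rfl
  have h2 := σ_l s hs 1 rfl
  unfold lb
  generalize l s 1 = x at hb h2
  exact ⟨art3_inv C h2 conj_cb hb, (art3 C h2 conj_cb).2, cj_sq C hb⟩

theorem lg_spec : (l s 2 * lg C s) ^ 3 = 1 ∧ σ (lg C s) = gH 10 ∧ lg C s * lg C s = 1 := by
  have hb := l_sq s (x := 2) rfl rfl
  have h2 := σ_l s hs 2 rfl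
  unfold lg
  generalize l s 2 = x at hb h2
  exact ⟨art3_inv C h2 conj_dg hb, (art3 C h2 conj_dg).2, cj_sq C hb⟩

omit hs in
theorem e_fg : gH 3 = ((gH 4 * gH 10) ^ 2)⁻¹ := by
  have h := relH (u := [3, 4, 10, 4, 10]) (m := 1) (by decide)
  have h2 : gH 3 * (gH 4 * gH 10) ^ 2 = 1 := by simpa [pow_two, mul_assoc] using h
  exact eq_inv_of_mul_eq_one_left h2

omit hs in
theorem c_mul {x y a : GH} (hx : x * a = a * x) (hy : y * a = a * y) : x * y * a = a * (x * y) := by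
  rw [mul_assoc, hy, ← mul_assoc, hx, mul_assoc]

omit hs in
theorem tr_b : C.Tr (gH 2) (gH 9) ∧ C.Tr (gH 3) (gH 9) ∧ C.Tr (gH 4) (gH 9) ∧ C.Tr (gH 10) (gH 9) ∧ C.Tr (gH 5) (gH 9) := by
  have hb := sqH (x := 9) rfl
  have cd := commH (x := 2) (y := 9) rfl rfl (by decide)
  have ce := commH (x := 3) (y := 9) rfl rfl (by decide)
  have cf := commH (x := 4) (y := 9) rfl rfl (by decide)
  have cg := (commH (x := 9) (y := 10) rfl rfl (by decide)).symm
  have t1 : C.Tr (gH 2 * gH 3) (gH 9) := tr_of_odd C hb (c_mul cd ce) (m := 3) (by decide) (pairH (by decide))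
  have t2 : C.Tr (gH 2 * gH 4) (gH 9) := tr_of_odd C hb (c_mul cd cf) (m := 3) (by decide) (pairH (by decide))
  have t3 : C.Tr (gH 2 * gH 10) (gH 9) := tr_of_odd C hb (c_mul cd cg) (m := 3) (by decide) (pairH (by decide))
  have t4 : C.Tr (gH 4 * gH 10) (gH 9) := by
    have := t2.inv_left.mul_left t3
    have e : (gH 2 * gH 4)⁻¹ * (gH 2 * gH 10) = gH 4 * gH 10 := by
      rw [mul_inv_rev, mul_assoc, inv_mul_cancel_left, inv_sq (sqH (x := 4) rfl)]
    rwa [e] at this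
  have t5 : C.Tr (gH 3) (gH 9) := by
    rw [e_fg, pow_two]
    exact (t4.mul_left t4).inv_left
  have t6 := tr_cancel_right t1 t5
  exact ⟨t6, t5, tr_cancel t2 t6, tr_cancel t3 t6, tr_of_odd C hb kb (m := 3) (by decide) k3⟩

theorem tr_ag : C.Tr (gH 10) (gH 7) := by
  have ha := sqH (x := 7) rfl
  have cd := commH (x := 2) (y := 7) rfl rfl (by decide)
  have cg := (commH (x := 7) (y := 10) rfl rfl (by decide)).symm
  have t3 : C.Tr (gH 2 * gH 10) (gH 7) := tr_of_odd C ha (c_mul cd cg) (m := 3) (by decide) (pairH (by decide))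
  exact tr_cancel t3 (tr_of_lift C s hs (mem_Cl gH rfl) (mem_Cl gH rfl) cd)

omit hs in
theorem tr_cg : C.Tr (gH 10) (gH 1) := by
  have hc := sqH (x := 1) rfl
  have cg := (commH (x := 1) (y := 10) rfl rfl (by decide)).symm
  have t3 : C.Tr (gH 10 * gH 5) (gH 1) := tr_of_odd C hc (c_mul cg kc) (m := 3) (by decide) gk3
  exact tr_cancel_right t3 (tr_of_odd C hc kc (m := 3) (by decide) k3)

omit hs in
/-- the relations of `e, f, g` -/
theorem efg_aux {e f g : Γ} (he : e * e = 1) (hf : f * f = 1) (hg : g * g = 1) (hef : e * f = f * e)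
    (hz : ∀ y, e * (f * g) ^ 2 * y = y * (e * (f * g) ^ 2)) :
    e * (f * g) ^ 2 * (e * (f * g) ^ 2) = 1 ∧ e * g = g * e := by
  have e1 : ((f * g) ^ 2)⁻¹ = (g * f) ^ 2 := by rw [← inv_pow, mul_inv_rev, inv_sq hf, inv_sq hg]
  have e2 : f * (e * (f * g) ^ 2) * f⁻¹ = e * (g * f) ^ 2 := by
    rw [inv_sq hf]
    calc f * (e * (f * g) ^ 2) * f = (f * e) * (f * g) ^ 2 * f := by simp only [mul_assoc]
      _ = e * (f * f) * g * f * g * f := by rw [← hef]; simp only [pow_two, mul_assoc]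
      _ = e * (g * f) ^ 2 := by rw [hf, mul_one]; simp only [pow_two, mul_assoc]
  rw [← hz f, mul_inv_cancel_right] at e2
  -- `(f g)^2 = (g f)^2`
  have e3 : (f * g) ^ 2 = (g * f) ^ 2 := mul_left_cancel e2
  have e4 : (f * g) ^ 2 * (f * g) ^ 2 = 1 := by
    nth_rewrite 2 [e3]
    rw [← e1, mul_inv_cancel]
  have e5 : e * (f * g) ^ 2 = (f * g) ^ 2 * e := by
    have h1 := hz e
    have h2 : e * (f * g) ^ 2 * e = e * (e * (f * g) ^ 2) := h1
    rw [mul_assoc] at h2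
    exact (mul_left_cancel h2).symm
  have e6 : (f * g) ^ 2 * g = g * (f * g) ^ 2 := by
    rw [e3]
    calc (g * f) ^ 2 * g = g * (f * g) ^ 2 := by simp only [pow_two, mul_assoc]
      _ = g * (g * f) ^ 2 := by rw [e3]
  refine ⟨?_, ?_⟩
  · rw [mul_assoc, ← mul_assoc ((f * g) ^ 2), ← e5, mul_assoc e, e4, mul_one, he]
  · have h1 := hz g
    rw [mul_assoc, e6, ← mul_assoc, ← mul_assoc] at h1
    exact mul_right_cancel h1

omit hs in
/-- the relations of `a, b` -/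
theorem ab_aux {a b : Γ} (ha : a * a = 1) (hb : b * b = 1) (h : (a * b) ^ 2 * a * ((a * b) ^ 2)⁻¹ = a) :
    (a * b) ^ 4 = 1 := by
  rw [mul_inv_eq_iff_eq_mul] at h
  have e1 : ((a * b) ^ 2)⁻¹ = (b * a) ^ 2 := by rw [← inv_pow, mul_inv_rev, inv_sq ha, inv_sq hb]
  have e2 : (b * a) ^ 2 = (a * b) ^ 2 := by
    calc (b * a) ^ 2 = (a * a) * b * a * b * a := by rw [ha, one_mul]; simp only [pow_two, mul_assoc]
      _ = a * ((a * b) ^ 2 * a) := by simp only [pow_two, mul_assoc]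
      _ = (a * a) * (a * b) ^ 2 := by rw [h, mul_assoc]
      _ = (a * b) ^ 2 := by rw [ha, one_mul]
  have e3 : (a * b) ^ 4 = (a * b) ^ 2 * (a * b) ^ 2 := by rw [← pow_add]
  rw [e3]
  nth_rewrite 2 [← e2]
  rw [← e1, mul_inv_cancel]

omit hs in
theorem comm_of_tr {x y : Γ} {a b : GH} (hx : σ x = a) (hy : σ y = b) (h : C.Tr a b) : x * y = y * x :=
  (C.tr_iff' hx hy).1 h

theorem ab4 : (l s 7 * lb C s) ^ 4 = 1 := by
  obtain ⟨-, hb, hb2⟩ := lb_spec C s hs
  apply ab_aux (l_sq s (x := 7) rfl rfl) hb2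
  have h1 : σ ((l s 7 * lb C s) ^ 2) = gH 8 := by
    rw [map_pow, map_mul, hb, σ_l s hs 7 rfl]; rfl
  have h2 := conj_lift C perf7 s hs (y := (l s 7 * lb C s) ^ 2) (by rw [h1]; exact norm8) ⟨gH 7, mem_Cl gH rfl⟩
  have h3 : (⟨σ ((l s 7 * lb C s) ^ 2) * gH 7 * (σ ((l s 7 * lb C s) ^ 2))⁻¹, by rw [h1]; exact norm8 _ (mem_Cl gH rfl)⟩ :
      Cl gH 7) = ⟨gH 7, mem_Cl gH rfl⟩ := by
    apply Subtype.ext
    show σ ((l s 7 * lb C s) ^ 2) * gH 7 * (σ ((l s 7 * lb C s) ^ 2))⁻¹ = gH 7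
    rw [h1, a_h]
  rw [h3, ← l_eq s 7 rfl] at h2
  exact h2

theorem σ_vx : σ (vx C s) = 1 := by
  unfold vx
  rw [map_mul, map_pow, map_mul, map_mul, (lb_spec C s hs).2.1, σ_l s hs 3 rfl, σ_l s hs 7 rfl, σ_l s hs 1 rfl]
  have := relH (u := [3, 7, 9, 1, 7, 9, 1, 7, 9, 1]) (m := 1) (by decide)
  simpa [pow_succ, mul_assoc] using this

theorem σ_vy : σ (vy C s) = 1 := by
  unfold vy
  rw [map_mul, map_pow, map_mul, map_mul, map_mul, (lb_spec C s hs).2.1, σ_l s hs 6 rfl, σ_l s hs 1 rfl,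
    σ_l s hs 2 rfl, σ_l s hs 3 rfl]
  have := relH (u := [6, 9, 1, 2, 3, 9, 1, 2, 3, 9, 1, 2, 3, 9, 1, 2, 3, 9, 1, 2, 3, 9, 1, 2, 3, 9, 1, 2, 3]) (m := 1)
    (by decide)
  simpa [pow_succ, mul_assoc] using this

theorem σ_vw : σ (vw C s) = 1 := by
  unfold vw
  rw [map_pow, map_mul, map_mul, map_mul, (lg_spec C s hs).2.1, σ_l s hs 1 rfl, σ_l s hs 2 rfl, σ_l s hs 4 rfl]
  have := relH (u := [1, 2, 4, 10]) (m := 4) (by decide)
  simpa [mul_assoc] using this

theorem σ_u : σ (l s 3 * (l s 4 * lg C s) ^ 2) = 1 := by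
  rw [map_mul, map_pow, map_mul, (lg_spec C s hs).2.1, σ_l s hs 3 rfl, σ_l s hs 4 rfl]
  have := relH (u := [3, 4, 10, 4, 10]) (m := 1) (by decide)
  simpa [pow_two, mul_assoc] using this

theorem cen_z (z : ℕ) (hz : z ∈ [10, 11, 12, 13, 14, 15]) : σ (fE C s z) = 1 := by
  simp only [List.mem_cons, List.not_mem_nil, or_false] at hz
  rcases hz with rfl | rfl | rfl | rfl | rfl | rfl
  · exact σ_vx C s hs
  · show σ (vx C s)⁻¹ = 1
    rw [map_inv, σ_vx C s hs, inv_one]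
  · exact σ_vy C s hs
  · show σ (vy C s)⁻¹ = 1
    rw [map_inv, σ_vy C s hs, inv_one]
  · exact σ_vw C s hs
  · show σ (vw C s)⁻¹ = 1
    rw [map_inv, σ_vw C s hs, inv_one]

omit hs in
theorem fE_one (x : ℕ) (hx : isLet 15 x = false) : fE C s x = 1 := by
  match x with
  | 0 => rfl
  | 1 => exact absurd hx (by decide)
  | 2 => exact absurd hx (by decide)
  | 3 => exact absurd hx (by decide)
  | 4 => exact absurd hx (by decide)
  | 5 => exact absurd hx (by decide)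
  | 6 => exact absurd hx (by decide)
  | 7 => exact absurd hx (by decide)
  | 8 => exact absurd hx (by decide)
  | 9 => exact absurd hx (by decide)
  | 10 => exact absurd hx (by decide)
  | 11 => exact absurd hx (by decide)
  | 12 => exact absurd hx (by decide)
  | 13 => exact absurd hx (by decide)
  | 14 => exact absurd hx (by decide)
  | 15 => exact absurd hx (by decide)
  | (n + 16) => rfl

omit hs in
theorem l56 : l s 5 = (l s 6)⁻¹ := by
  rw [l_eq s 5 rfl, l_eq s 6 rfl, ← map_inv]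
  congr 1

theorem fE_inv (x : ℕ) : fE C s (ivL M83E.iv x) = (fE C s x)⁻¹ := by
  match x with
  | 0 => exact inv_one.symm
  | 1 => exact (inv_sq (l_sq s rfl rfl)).symm
  | 2 => exact (inv_sq (l_sq s rfl rfl)).symm
  | 3 => exact (inv_sq (l_sq s rfl rfl)).symm
  | 4 => exact (inv_sq (l_sq s rfl rfl)).symm
  | 5 => exact (inv_eq_iff_eq_inv.2 (l56 s)).symm
  | 6 => exact l56 s
  | 7 => exact (inv_sq (l_sq s rfl rfl)).symm
  | 8 => exact (inv_sq (lb_spec C s hs).2.2).symm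
  | 9 => exact (inv_sq (lg_spec C s hs).2.2).symm
  | 10 => rfl
  | 11 => exact (inv_inv _).symm
  | 12 => rfl
  | 13 => exact (inv_inv _).symm
  | 14 => rfl
  | 15 => exact (inv_inv _).symm
  | (n + 16) => exact inv_one.symm

omit hs in
theorem pow_two_of_comm {x y : Γ} (hx : x * x = 1) (hy : y * y = 1) (h : x * y = y * x) : (x * y) ^ 2 = 1 := by
  rw [pow_two]
  nth_rewrite 2 [h]
  rw [mul_assoc, ← mul_assoc y y x, hy, one_mul, hx]

/-- the remaining relators -/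
def rest : List (List ℕ × ℕ) := [([8, 1], 3), ([2, 9], 3), ([8, 2], 2), ([8, 3], 2), ([8, 4], 2), ([8, 5, 8, 6], 1),
  ([8, 9], 2), ([3, 9], 2), ([7, 9], 2), ([7, 8], 4), ([1, 9], 2), ([3, 7, 8, 1, 7, 8, 1, 7, 8, 1, 11], 1),
  ([1, 2, 4, 9, 1, 2, 4, 9, 1, 2, 4, 9, 1, 2, 4, 9, 15], 1),
  ([6, 8, 1, 2, 3, 8, 1, 2, 3, 8, 1, 2, 3, 8, 1, 2, 3, 8, 1, 2, 3, 8, 1, 2, 3, 8, 1, 2, 3, 13], 1),
  ([3, 4, 9, 4, 9, 3, 4, 9, 4, 9], 1)]

theorem fE_good : Good (fE C s) 15 M83E.iv M83E.RL := by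
  obtain ⟨b1, b2, b3⟩ := lb_spec C s hs
  obtain ⟨g1, g2, g3⟩ := lg_spec C s hs
  obtain ⟨td, te, tf, tg, tk⟩ := tr_b C
  have cbd := comm_of_tr C (σ_l s hs 2 rfl) b2 td
  have cbe := comm_of_tr C (σ_l s hs 3 rfl) b2 te
  have cbf := comm_of_tr C (σ_l s hs 4 rfl) b2 tf
  have cbg := comm_of_tr C g2 b2 tg
  have cbk := comm_of_tr C (σ_l s hs 5 rfl) b2 tk
  have cga := comm_of_tr C g2 (σ_l s hs 7 rfl) (tr_ag C s hs)
  have cgc := comm_of_tr C g2 (σ_l s hs 1 rfl) (tr_cg C)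
  have ef : l s 3 * l s 4 = l s 4 * l s 3 := by
    rw [l_eq s 3 rfl, l_eq s 4 rfl, ← map_mul, ← map_mul]
    congr 1
    exact Subtype.ext (commH (x := 3) (y := 4) rfl rfl (by decide))
  obtain ⟨uu, eg⟩ := efg_aux (l_sq s (x := 3) rfl rfl) (l_sq s (x := 4) rfl rfl) g3 ef (cen_of_one C (σ_u C s hs))
  refine good_step g7 s (hf7 C s) (fE_inv C s hs) (fE_one C s) [10, 11, 12, 13, 14, 15]
    (fun z hz y => cen_of_one C (cen_z C s hs z hz) y)
    (rest ++ [1, 2, 3, 4, 5, 7, 8, 9].map fun x => (MulX.cmW M83E.iv [3, 4, 9, 4, 9] x, 1)) ?_ (by decide +kernel)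
  intro p hp
  rcases List.mem_append.1 hp with hp | hp
  · simp only [rest, List.mem_cons, List.not_mem_nil, or_false] at hp
    rcases hp with rfl | rfl | rfl | rfl | rfl | rfl | rfl | rfl | rfl | rfl | rfl | rfl | rfl | rfl | rfl
    · simpa [fE] using G24.pair_flip (l_sq s (x := 1) rfl rfl) b3 b1
    · simpa [fE] using g1
    · simpa [fE] using pow_two_of_comm b3 (l_sq s (x := 2) rfl rfl) cbd.symm
    · simpa [fE] using pow_two_of_comm b3 (l_sq s (x := 3) rfl rfl) cbe.symm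
    · simpa [fE] using pow_two_of_comm b3 (l_sq s (x := 4) rfl rfl) cbf.symm
    · simp only [List.map_cons, List.map_nil, List.prod_cons, List.prod_nil, mul_one, pow_one, fE]
      rw [← mul_assoc, ← mul_assoc, ← cbk, mul_assoc (l s 5), b3, mul_one, l56 s, inv_mul_cancel]
    · simpa [fE] using pow_two_of_comm b3 g3 cbg.symm
    · simpa [fE] using pow_two_of_comm (l_sq s (x := 3) rfl rfl) g3 eg
    · simpa [fE] using pow_two_of_comm (l_sq s (x := 7) rfl rfl) g3 cga.symm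
    · simpa [fE] using ab4 C s hs
    · simpa [fE] using pow_two_of_comm (l_sq s (x := 1) rfl rfl) g3 cgc.symm
    · have h : vx C s * (vx C s)⁻¹ = 1 := mul_inv_cancel _
      nth_rewrite 1 [vx] at h
      simp only [List.map_cons, List.map_nil, List.prod_cons, List.prod_nil, mul_one, pow_one, fE]
      simpa [pow_succ, mul_assoc] using h
    · have h : vw C s * (vw C s)⁻¹ = 1 := mul_inv_cancel _
      nth_rewrite 1 [vw] at h
      simp only [List.map_cons, List.map_nil, List.prod_cons, List.prod_nil, mul_one, pow_one, fE]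
      simpa [pow_succ, mul_assoc] using h
    · have h : vy C s * (vy C s)⁻¹ = 1 := mul_inv_cancel _
      nth_rewrite 1 [vy] at h
      simp only [List.map_cons, List.map_nil, List.prod_cons, List.prod_nil, mul_one, pow_one, fE]
      simpa [pow_succ, mul_assoc] using h
    · simp only [List.map_cons, List.map_nil, List.prod_cons, List.prod_nil, mul_one, pow_one, fE]
      simpa [pow_succ, mul_assoc] using uu
  · obtain ⟨x, -, rfl⟩ := List.mem_map.1 hp
    show ((MulX.cmW M83E.iv [3, 4, 9, 4, 9] x).map (fE C s)).prod ^ 1 = 1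
    rw [pow_one, MulX.cmW_prod (fE_inv C s hs)]
    have h1 : (([3, 4, 9, 4, 9] : List ℕ).map (fE C s)).prod = l s 3 * (l s 4 * lg C s) ^ 2 := by
      simp [fE, pow_two, mul_assoc]
    rw [h1, cen_of_one C (σ_u C s hs), mul_inv_cancel_right, mul_inv_cancel]

theorem fE_top (P : PCE σ) : Cl (fE C s) 15 = ⊤ := by
  apply P.top_of_map
  rw [eq_top_iff, ← gH_univ.top]
  have mem : ∀ n, isLet 15 n = true → fE C s n ∈ Cl (fE C s) 15 := fun n hn => mem_Cl _ hn
  have m7 : ∀ n (hn : isLet 7 n = true), gH n ∈ (Cl (fE C s) 15).map σ := by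
    intro n hn
    refine ⟨fE C s n, mem n ?_, by rw [hf7 C s n hn, hs]⟩
    have := isLet_iff.1 hn
    exact isLet_iff.2 ⟨this.1, by omega⟩
  have m9 : gH 9 ∈ (Cl (fE C s) 15).map σ := ⟨fE C s 8, mem 8 rfl, (lb_spec C s hs).2.1⟩
  have m10 : gH 10 ∈ (Cl (fE C s) 15).map σ := ⟨fE C s 9, mem 9 rfl, (lg_spec C s hs).2.1⟩
  have m8 : gH 8 ∈ (Cl (fE C s) 15).map σ := by
    have : gH 8 = (gH 7 * gH 9) ^ 2 := rfl
    rw [this]
    exact pow_mem (mul_mem (m7 7 rfl) m9) 2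
  unfold Cl at m7 m8 m9 m10 ⊢
  rw [Subgroup.closure_le]
  rintro _ ⟨x, hx, rfl⟩
  have hx' := isLet_iff.1 (show isLet 10 x = true from hx)
  by_cases h7 : isLet 7 x = true
  · exact m7 x h7
  · have h8 : 8 ≤ x := by
      by_contra hc
      exact h7 (isLet_iff.2 ⟨hx'.1, by omega⟩)
    have : x = 8 ∨ x = 9 ∨ x = 10 := by omega
    rcases this with rfl | rfl | rfl
    · exact m8
    · exact m9
    · exact m10

end

/-- the relative bound -/
theorem rb : RB (Cl gH 7) 1 := by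
  rintro Γ _ _ σ P ⟨s, hs⟩
  have hfin : Finite (Cl gH 7) := Nat.finite_of_card_ne_zero (by rw [card7]; norm_num)
  have b1 : Bd (Cl (fE P.ce s) 7) 979200 := bd_of_lift s (hf7 P.ce s) card7
  have b2 : Bd (Cl (fE P.ce s) 15) 4030387200 :=
    b1.cl M83E.cert (fE_good P.ce s hs) (by decide +kernel) (by decide +kernel) (by norm_num) rfl
  rw [fE_top P.ce s hs P] at b2
  have := card_ker_le P (m := 1) b2 card_He (by norm_num) (by norm_num)
  have h0 : 0 < Nat.card σ.ker := Nat.card_pos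
  exact dvd_of_eq (by omega)

end Cfsg.Agent.MRel.He
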