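import Cfsg.Agent.MRel.He
import Cfsg.Agent.MRel.Proj
import Cfsg.Agent.S2092

set_option autoImplicit false
set_option maxRecDepth 1000000

/-!
The Schur multiplier of `He` is trivial (owner: helper83).
-/

namespace Cfsg.Agent.MRel.HeX

open Cfsg.Agent.CosetEnum Cfsg.Agent.CosetEnum.He Subgroup Mult Matrix

theorem mbSp : MB SpK 1 := by
  have h1 : HasCyclicSchurMultiplier (PSp 2 K4) (Nat.gcd 2 (4 - 1)) :=
    Cfsg.Agent.S2092.result (F := K4) K4.card_K4 2 le_rfl (fun _ => by norm_num) (by norm_num)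
  have h2 : Subgroup.center SpK = ⊥ := by
    have h3 : Nat.card (Subgroup.center SpK) = 1 := by
      rw [ClassSp.card_center, K4.card_K4]
      rfl
    exact Subgroup.eq_bot_of_card_eq _ h3
  have e := (QuotientGroup.quotientMulEquivOfEq h2).trans QuotientGroup.quotientBot
  exact (MB.of_cyclic h1).equiv e

/-- **The Schur multiplier of the Held group.** -/
theorem mb : MB GH 1 := by
  obtain ⟨e1⟩ := isoSp
  obtain ⟨e2, -⟩ := isoN
  have h1 : MB (Cl gH 6) 1 := (mbSp.equiv e1.symm).equiv e2
  have h2 : MB (Cl gH 7) 1 := by rw [He.Cl76]; exact h1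
  have := MB.of_rel He.perf7 h2 He.rb
  rwa [mul_one] at this

theorem mult_He : HasCyclicSchurMultiplier Spor.He 1 := by
  have hfin : Finite Spor.He := (inferInstance : Finite GH)
  have P : PCE (MonoidHom.id Spor.He) := by
    refine ⟨⟨Function.surjective_id, ?_⟩, perfect_He⟩
    intro x hx
    have : x = 1 := hx
    rw [this]; exact one_mem _
  exact cyclic_of perfect_He Nat.one_pos mb P (z := 1) rfl (one_dvd _)

end Cfsg.Agent.MRel.HeX
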