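import Cfsg.Agent.MRel.Proj

set_option autoImplicit false

/-!
Packed matrices over the field with two elements: a row vector is a natural number in binary (owner: helper83).
-/

namespace Cfsg.Agent.MRel.Mat2

open Finset

/-- product of a vector with a matrix -/
noncomputable def vm (rows : List ℕ) : ℕ → ℕ :=
  @List.rec ℕ (fun _ => ℕ → ℕ) (fun _ => 0) (fun r _ ih v => Nat.xor (Nat.mul (Nat.mod v 2) r) (ih (Nat.div v 2))) rows

/-- action of a word -/
noncomputable def act (L : ℕ → List ℕ) (w : List ℕ) : ℕ → ℕ :=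
  @List.rec ℕ (fun _ => ℕ → ℕ) (fun v => v) (fun x _ ih v => ih (vm (L x) v)) w

/-- test that the word acts trivially -/
noncomputable def oneB (n : ℕ) (L : ℕ → List ℕ) (w : List ℕ) : Bool :=
  (List.range n).all fun i => Nat.beq (act L w (Nat.pow 2 i)) (Nat.pow 2 i)

theorem vm_nil (v : ℕ) : vm [] v = 0 := rfl
theorem vm_cons (r : ℕ) (rows : List ℕ) (v : ℕ) : vm (r :: rows) v = (v % 2 * r) ^^^ vm rows (v / 2) := rfl
theorem act_nil (L : ℕ → List ℕ) (v : ℕ) : act L [] v = v := rfl
theorem act_cons (L : ℕ → List ℕ) (x : ℕ) (w : List ℕ) (v : ℕ) : act L (x :: w) v = act L w (vm (L x) v) := rfl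

/-- binary digit -/
def bit (v j : ℕ) : ZMod 2 := if v.testBit j then 1 else 0

theorem bit_xor (a b j : ℕ) : bit (a ^^^ b) j = bit a j + bit b j := by
  unfold bit
  rw [Nat.testBit_xor]
  cases a.testBit j <;> cases b.testBit j <;> decide

theorem bit_zero (j : ℕ) : bit 0 j = 0 := by simp [bit]

theorem bit_div (v j : ℕ) : bit (v / 2) j = bit v (j + 1) := by
  unfold bit
  rw [Nat.testBit_succ]

theorem bit_mul (v r j : ℕ) : bit (v % 2 * r) j = bit v 0 * bit r j := by
  have h0 : v.testBit 0 = decide (v % 2 = 1) := Nat.testBit_zero v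
  rcases Nat.mod_two_eq_zero_or_one v with h | h
  · rw [h, zero_mul, bit_zero]
    unfold bit
    rw [h0, h]
    simp
  · rw [h, one_mul]
    have : bit v 0 = 1 := by
      unfold bit
      rw [h0, h]
      simp
    rw [this, one_mul]

theorem bit_vm (rows : List ℕ) : ∀ v j, bit (vm rows v) j = ∑ i ∈ range rows.length, bit v i * bit (rows.getD i 0) j := by
  induction rows with
  | nil => intro v j; rw [vm_nil, bit_zero]; simp
  | cons r rows ih =>
    intro v j
    rw [vm_cons, bit_xor, ih, List.length_cons, sum_range_succ', bit_mul, add_comm]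
    congr 1
    exact sum_congr rfl fun i _ => by rw [bit_div]; rfl

/-- the vector with given digits -/
def vec (n : ℕ) (v : ℕ) : Fin n → ZMod 2 := fun j => bit v j

/-- the matrix with given rows -/
def mat (n : ℕ) (rows : List ℕ) : Matrix (Fin n) (Fin n) (ZMod 2) := fun i j => bit (rows.getD i 0) j

theorem vec_vm {n : ℕ} {rows : List ℕ} (h : rows.length = n) (v : ℕ) :
    vec n (vm rows v) = Matrix.vecMul (vec n v) (mat n rows) := by
  funext j
  show bit (vm rows v) j = _
  rw [bit_vm, h, Matrix.vecMul, dotProduct, Finset.sum_range]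
  rfl

theorem vec_act {n : ℕ} {L : ℕ → List ℕ} (h : ∀ x, (L x).length = n) (w : List ℕ) : ∀ v,
    vec n (act L w v) = Matrix.vecMul (vec n v) ((w.map fun x => mat n (L x)).prod) := by
  induction w with
  | nil => intro v; rw [act_nil]; simp
  | cons x w ih =>
    intro v
    rw [act_cons, ih, vec_vm (h x), List.map_cons, List.prod_cons, Matrix.vecMul_vecMul]

theorem vec_pow {n : ℕ} (i : Fin n) : vec n (2 ^ (i : ℕ)) = Pi.single i 1 := by
  funext j
  show bit _ _ = _
  unfold bit
  rw [Nat.testBit_two_pow]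
  by_cases h : i = j
  · subst h; simp
  · rw [Pi.single_eq_of_ne (Ne.symm h)]
    have : (i : ℕ) ≠ j := fun h' => h (Fin.ext h')
    simp [this]

/-- **Trivial words.** -/
theorem oneB_spec {n : ℕ} {L : ℕ → List ℕ} (h : ∀ x, (L x).length = n) {w : List ℕ} (hw : oneB n L w = true) :
    (w.map fun x => mat n (L x)).prod = 1 := by
  simp only [oneB, List.all_eq_true] at hw
  have key : ∀ i : Fin n, ((w.map fun x => mat n (L x)).prod) i = Pi.single i 1 := by
    intro i
    have h1 : act L w (2 ^ (i : ℕ)) = 2 ^ (i : ℕ) := Nat.eq_of_beq_eq_true (hw i (List.mem_range.2 i.2))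
    have h3 := vec_act h w (2 ^ (i : ℕ))
    rw [h1, vec_pow, Matrix.single_one_vecMul] at h3
    exact h3.symm
  ext i j
  rw [key, Matrix.one_apply]
  by_cases h : i = j
  · subst h; simp
  · rw [if_neg h, Pi.single_eq_of_ne (Ne.symm h)]

end Cfsg.Agent.MRel.Mat2

namespace Cfsg.Agent.MRel

open Cfsg.Agent.CosetEnum Subgroup Mult Mat2

/-- rows of the letters -/
def lrow2 (idr : List ℕ) (Ls : List (List ℕ)) (x : ℕ) : List ℕ := Ls.getD x idr

/-- data of a representation over the field with two elements: `Ls` are the matrices of the letters `0, 1, …`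
(the letter `0` is the identity), `sc` is a list of words that act trivially -/
structure D2 (n : ℕ) (idr : List ℕ) (Ls : List (List ℕ)) (ng : ℕ) (l : List (ℕ × ℕ)) (sc : List (List ℕ)) : Prop where
  ok : ((idr :: Ls).all fun r => r.length == n) = true
  idok : oneB n (fun _ => idr) [0] = true
  len : Ls.length = ng + 1
  zero : Ls.getD 0 idr = idr
  scok : ∀ w ∈ sc, oneB n (lrow2 idr Ls) w = true
  inv : ((List.range (ng + 1)).all fun x => !isLet ng x || sc.contains [ivL l x, x]) = true
  out : (l.all fun q => isLet ng q.1 && isLet ng q.2) = true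

section

variable {n : ℕ} {idr : List ℕ} {Ls : List (List ℕ)} {ng : ℕ} {l : List (ℕ × ℕ)} {sc : List (List ℕ)}

theorem D2.okL (D : D2 n idr Ls ng l sc) (x : ℕ) : (lrow2 idr Ls x).length = n := by
  have h := D.ok
  simp only [List.all_cons, Bool.and_eq_true, List.all_eq_true, beq_iff_eq] at h
  unfold lrow2
  by_cases hx : x < Ls.length
  · rw [List.getD_eq_getElem _ _ hx]
    exact h.2 _ (List.getElem_mem _)
  · rw [List.getD_eq_default _ _ (by omega)]
    exact h.1

theorem D2.id_mat (D : D2 n idr Ls ng l sc) : mat n idr = 1 := by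
  have h0 := D.ok
  simp only [List.all_cons, Bool.and_eq_true, beq_iff_eq] at h0
  have h := oneB_spec (fun _ => h0.1) D.idok
  simpa using h

theorem D2.word (D : D2 n idr Ls ng l sc) {w : List ℕ} (h : w ∈ sc) :
    (w.map fun x => mat n (lrow2 idr Ls x)).prod = 1 := oneB_spec D.okL (D.scok w h)

theorem D2.lrow_out (D : D2 n idr Ls ng l sc) {x : ℕ} (hx : isLet ng x = false) : lrow2 idr Ls x = idr := by
  unfold lrow2
  rcases Nat.eq_zero_or_pos x with rfl | h0
  · exact D.zero
  · apply List.getD_eq_default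
    by_contra hc
    have := D.len
    rw [isLet_iff.2 ⟨h0, by omega⟩] at hx
    exact Bool.noConfusion hx

theorem D2.inv_mat (D : D2 n idr Ls ng l sc) {x : ℕ} (hx : isLet ng x = true) :
    mat n (lrow2 idr Ls (ivL l x)) * mat n (lrow2 idr Ls x) = 1 := by
  have h := D.inv
  simp only [List.all_eq_true, Bool.or_eq_true, Bool.not_eq_true', List.contains_iff_mem] at h
  have h1 := (h x (List.mem_range.2 (by have := isLet_iff.1 hx; omega))).resolve_left (by rw [hx]; exact Bool.noConfusion)
  have := D.word h1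
  simpa using this

theorem D2.isUnit (D : D2 n idr Ls ng l sc) (x : ℕ) : IsUnit (mat n (lrow2 idr Ls x)) := by
  by_cases hx : isLet ng x = true
  · have h := D.inv_mat hx
    exact ⟨⟨mat n (lrow2 idr Ls x), mat n (lrow2 idr Ls (ivL l x)), mul_eq_one_comm.1 h, h⟩, rfl⟩
  · rw [D.lrow_out (by simpa using hx), D.id_mat]
    exact isUnit_one

/-- the units of the letters -/
noncomputable def D2.M (D : D2 n idr Ls ng l sc) (x : ℕ) : (Matrix (Fin n) (Fin n) (ZMod 2))ˣ := (D.isUnit x).unit

theorem D2.coe_M (D : D2 n idr Ls ng l sc) (x : ℕ) :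
    ((D.M x : (Matrix (Fin n) (Fin n) (ZMod 2))ˣ) : Matrix (Fin n) (Fin n) (ZMod 2)) = mat n (lrow2 idr Ls x) := rfl

attribute [irreducible] D2.M

theorem D2.one_word (D : D2 n idr Ls ng l sc) {w : List ℕ} (h : w ∈ sc) : (w.map D.M).prod = 1 := by
  apply Units.ext
  rw [Units.val_one, ← D.word h]
  clear h
  induction w with
  | nil => simp
  | cons x w ih => rw [List.map_cons, List.prod_cons, Units.val_mul, ih, D.coe_M, List.map_cons, List.prod_cons]

theorem D2.hone (D : D2 n idr Ls ng l sc) (x : ℕ) (hx : isLet ng x = false) : D.M x = 1 := by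
  apply Units.ext
  rw [D.coe_M, D.lrow_out hx, D.id_mat, Units.val_one]

theorem D2.inv_mul (D : D2 n idr Ls ng l sc) {x : ℕ} (hx : isLet ng x = true) : D.M (ivL l x) * D.M x = 1 := by
  apply Units.ext
  rw [Units.val_mul, D.coe_M, D.coe_M, D.inv_mat hx, Units.val_one]

/-- commuting letters -/
theorem D2.comm (D : D2 n idr Ls ng l sc) {z z' x : ℕ} (h : [z, x, z', x] ∈ sc) (h2 : [x, x] ∈ sc) (h3 : [z', z] ∈ sc) :
    D.M z * D.M x = D.M x * D.M z := by
  have h1 := D.one_word h
  have h4 := D.one_word h2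
  have h5 := D.one_word h3
  simp only [List.map_cons, List.map_nil, List.prod_cons, List.prod_nil, mul_one] at h1 h4 h5
  have h6 : D.M z' = (D.M z)⁻¹ := eq_inv_of_mul_eq_one_left h5
  rw [h6] at h1
  have h7 : D.M z * D.M x * ((D.M z)⁻¹ * D.M x) = 1 := (mul_assoc _ _ _).trans h1
  have h8 := eq_inv_of_mul_eq_one_left h7
  rwa [mul_inv_rev, inv_inv, inv_sq h4] at h8

end

end Cfsg.Agent.MRel
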