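import Cfsg.Agent.MRel.Proj

set_option autoImplicit false

/-!
Projective representations given by packed matrices (owner: helper83).
-/

namespace Cfsg.Agent.MRel

open Cfsg.Agent.CosetEnum Subgroup Mult Mat

/-- rows of the letters -/
def lrow (idr : List ℕ) (Ls : List (List ℕ)) (x : ℕ) : List ℕ := Ls.getD x idr

/-- data of a projective representation: `Ls` are the matrices of the letters `0, 1, …` (the letter `0` is the identity),
`sc` is a list of words with their scalars -/
structure MD (B p n : ℕ) (idr : List ℕ) (Ls : List (List ℕ)) (ng : ℕ) (l : List (ℕ × ℕ))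
    (sc : List (List ℕ × ℕ)) : Prop where
  hp : p.Prime
  hn : 0 < n
  hB : n * (p * p) ≤ B
  ok : (idr :: Ls).all (okM B p n) = true
  idok : scalB B p n (fun _ => idr) [0] 1 = true
  len : Ls.length = ng + 1
  zero : Ls.getD 0 idr = idr
  scok : (sc.all fun q => scalB B p n (lrow idr Ls) q.1 q.2 && Nat.ble 1 q.2 && Nat.blt q.2 p) = true
  inv : ((List.range (ng + 1)).all fun x => !isLet ng x || sc.any fun q => q.1 == [ivL l x, x]) = true
  out : (l.all fun q => isLet ng q.1 && isLet ng q.2) = true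

section

variable {B p n : ℕ} {idr : List ℕ} {Ls : List (List ℕ)} {ng : ℕ} {l : List (ℕ × ℕ)}
  {sc : List (List ℕ × ℕ)}

theorem MD.hpB (D : MD B p n idr Ls ng l sc) : p ≤ B := by
  have h1 := D.hB
  have h2 := D.hn
  have h3 := D.hp.pos
  calc p = 1 * (p * 1) := by ring
    _ ≤ n * (p * p) := Nat.mul_le_mul h2 (Nat.mul_le_mul_left p h3)
    _ ≤ B := h1

theorem MD.okL (D : MD B p n idr Ls ng l sc) (x : ℕ) : okM B p n (lrow idr Ls x) = true := by
  have h := D.ok
  simp only [List.all_cons, Bool.and_eq_true, List.all_eq_true] at h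
  unfold lrow
  by_cases hx : x < Ls.length
  · rw [List.getD_eq_getElem _ _ hx]
    exact h.2 _ (List.getElem_mem _)
  · rw [List.getD_eq_default _ _ (by omega)]
    exact h.1

theorem MD.id_mat (D : MD B p n idr Ls ng l sc) : mat B p n idr = 1 := by
  have h0 := D.ok
  simp only [List.all_cons, Bool.and_eq_true] at h0
  have h := scalB_spec D.hp.one_lt D.hB D.hpB (fun _ => h0.1) (D.hp.one_lt.trans_le D.hpB) D.idok
  simpa using h

theorem MD.word (D : MD B p n idr Ls ng l sc) {w : List ℕ} {c : ℕ} (h : (w, c) ∈ sc) :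
    (w.map fun x => mat B p n (lrow idr Ls x)).prod = (c : ZMod p) • (1 : Matrix (Fin n) (Fin n) (ZMod p)) ∧
      (c : ZMod p) ≠ 0 := by
  have h1 := D.scok
  simp only [List.all_eq_true, Bool.and_eq_true] at h1
  obtain ⟨⟨h2, h3⟩, h4⟩ := h1 _ h
  rw [Nat.ble_eq] at h3
  have h5 : c < p := by
    rwa [Nat.blt_eq] at h4
  refine ⟨scalB_spec D.hp.one_lt D.hB D.hpB D.okL (h5.trans_le D.hpB) h2, ?_⟩
  intro h0
  rw [ZMod.natCast_eq_zero_iff] at h0
  have := Nat.le_of_dvd h3 h0
  omega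

theorem MD.lrow_out (D : MD B p n idr Ls ng l sc) {x : ℕ} (hx : isLet ng x = false) : lrow idr Ls x = idr := by
  unfold lrow
  rcases Nat.eq_zero_or_pos x with rfl | h0
  · exact D.zero
  · apply List.getD_eq_default
    by_contra hc
    have := D.len
    rw [isLet_iff.2 ⟨h0, by omega⟩] at hx
    exact Bool.noConfusion hx

theorem ivL_out {ng : ℕ} {l : List (ℕ × ℕ)} (h : (l.all fun q => isLet ng q.1 && isLet ng q.2) = true) {x : ℕ}
    (hx : isLet ng x = false) : ivL l x = x := by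
  induction l with
  | nil => rfl
  | cons q l ih =>
    simp only [List.all_cons, Bool.and_eq_true] at h
    obtain ⟨⟨h1, h2⟩, h3⟩ := h
    have e : ivL (q :: l) x = if x = q.1 then q.2 else if x = q.2 then q.1 else ivL l x := rfl
    rw [e, if_neg, if_neg]
    · exact ih h3
    · rintro rfl; rw [hx] at h2; exact Bool.noConfusion h2
    · rintro rfl; rw [hx] at h1; exact Bool.noConfusion h1

theorem MD.isUnit (D : MD B p n idr Ls ng l sc) (x : ℕ) : IsUnit (mat B p n (lrow idr Ls x)) := by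
  have hf : Fact p.Prime := ⟨D.hp⟩
  by_cases hx : isLet ng x = true
  · have h := D.inv
    simp only [List.all_eq_true, List.any_eq_true, beq_iff_eq, Bool.or_eq_true, Bool.not_eq_true'] at h
    obtain ⟨⟨w, c⟩, h1, h2⟩ := (h x (List.mem_range.2 (by have := isLet_iff.1 hx; omega))).resolve_left
      (by rw [hx]; exact Bool.noConfusion)
    simp only at h2
    subst h2
    obtain ⟨h3, h4⟩ := D.word h1
    simp only [List.map_cons, List.map_nil, List.prod_cons, List.prod_nil, mul_one] at h3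
    have h5 : ((c : ZMod p)⁻¹ • mat B p n (lrow idr Ls (ivL l x))) * mat B p n (lrow idr Ls x) = 1 := by
      rw [smul_mul_assoc, h3, smul_smul, inv_mul_cancel₀ h4, one_smul]
    exact ⟨⟨mat B p n (lrow idr Ls x), (c : ZMod p)⁻¹ • mat B p n (lrow idr Ls (ivL l x)),
      mul_eq_one_comm.1 h5, h5⟩, rfl⟩
  · rw [D.lrow_out (by simpa using hx), D.id_mat]
    exact isUnit_one

/-- the units of the letters -/
noncomputable def MD.M (D : MD B p n idr Ls ng l sc) (x : ℕ) : (Matrix (Fin n) (Fin n) (ZMod p))ˣ := (D.isUnit x).unit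

theorem MD.coe_M (D : MD B p n idr Ls ng l sc) (x : ℕ) :
    ((D.M x : (Matrix (Fin n) (Fin n) (ZMod p))ˣ) : Matrix (Fin n) (Fin n) (ZMod p)) = mat B p n (lrow idr Ls x) := rfl

theorem MD.coe_word (D : MD B p n idr Ls ng l sc) (w : List ℕ) :
    (((w.map D.M).prod : (Matrix (Fin n) (Fin n) (ZMod p))ˣ) : Matrix (Fin n) (Fin n) (ZMod p)) =
      (w.map fun x => mat B p n (lrow idr Ls x)).prod := by
  induction w with
  | nil => simp
  | cons x w ih => rw [List.map_cons, List.prod_cons, Units.val_mul, ih]; rfl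

/-- the word has the scalar `c` -/
theorem MD.scal (D : MD B p n idr Ls ng l sc) {w : List ℕ} {c : ℕ} (h : (w, c) ∈ sc) :
    (((w.map D.M).prod : (Matrix (Fin n) (Fin n) (ZMod p))ˣ) : Matrix (Fin n) (Fin n) (ZMod p)) =
      (c : ZMod p) • (1 : Matrix (Fin n) (Fin n) (ZMod p)) := by
  rw [D.coe_word]; exact (D.word h).1

theorem scal_cen {A : Type*} [Ring A] {R : Type*} [CommRing R] [Algebra R A] {u : Aˣ} {c : R} (h : (u : A) = c • (1 : A)) :
    u ∈ center Aˣ := by
  rw [mem_center_iff]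
  intro v
  apply Units.ext
  rw [Units.val_mul, Units.val_mul, h, smul_one_mul, mul_smul_one]

theorem MD.cen (D : MD B p n idr Ls ng l sc) {w : List ℕ} {c : ℕ} (h : (w, c) ∈ sc) :
    (w.map D.M).prod ∈ center (Matrix (Fin n) (Fin n) (ZMod p))ˣ := scal_cen (D.scal h)

theorem MD.one_word (D : MD B p n idr Ls ng l sc) {w : List ℕ} (h : (w, 1) ∈ sc) : (w.map D.M).prod = 1 := by
  apply Units.ext
  rw [D.scal h, Nat.cast_one, one_smul, Units.val_one]

theorem MD.hone (D : MD B p n idr Ls ng l sc) (x : ℕ) (hx : isLet ng x = false) : D.M x = 1 := by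
  apply Units.ext
  rw [D.coe_M, D.lrow_out hx, D.id_mat, Units.val_one]

theorem MD.hinv (D : MD B p n idr Ls ng l sc) (x : ℕ) : D.M (ivL l x) * D.M x ∈ center (Matrix (Fin n) (Fin n) (ZMod p))ˣ := by
  by_cases hx : isLet ng x = true
  · have h := D.inv
    simp only [List.all_eq_true, List.any_eq_true, beq_iff_eq, Bool.or_eq_true, Bool.not_eq_true'] at h
    obtain ⟨⟨w, c⟩, h1, h2⟩ := (h x (List.mem_range.2 (by have := isLet_iff.1 hx; omega))).resolve_left
      (by rw [hx]; exact Bool.noConfusion)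
    simp only at h2
    subst h2
    have := D.cen h1
    simpa using this
  · have hx : isLet ng x = false := by simpa using hx
    rw [ivL_out D.out hx, D.hone x hx, mul_one]
    exact one_mem _

/-- **Existence.** -/
theorem MD.exists_ext (D : MD B p n idr Ls ng l sc) {G : Type} [Group G] [IsSimpleGroup G] {g : ℕ → G}
    {RL : List (List ℕ × ℕ)} (U : Univ g ng l RL) (hrel : (RL.all fun r => sc.any fun q => q.1 == expand r) = true)
    (hne : ∃ x, D.M x ∉ center (Matrix (Fin n) (Fin n) (ZMod p))ˣ)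
    (hab : ∀ x, isLet ng x = true → abl D.M ng x = 1) :
    ∃ σ : Cl D.M ng →* G, PCE σ ∧ (∀ y : Cl D.M ng, σ y = 1 ↔ (y : (Matrix (Fin n) (Fin n) (ZMod p))ˣ) ∈ center _) ∧
      ∀ x (hx : isLet ng x = true), σ ⟨D.M x, mem_Cl D.M hx⟩ = g x := by
  obtain ⟨σ, h1, h2, h3⟩ := exists_proj U (M := D.M) D.hinv D.hone (fun r hr => by
    simp only [List.all_eq_true, List.any_eq_true, beq_iff_eq] at hrel
    obtain ⟨⟨w, c⟩, h1, h2⟩ := hrel r hr
    simp only at h2
    subst h2
    have := D.cen h1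
    rwa [rep_prod'] at this) hne
  exact ⟨σ, ⟨h1, perf_of_abl hab⟩, h2, h3⟩

theorem orderOf_scal {p n : ℕ} [Fact p.Prime] (hn : 0 < n) {u : (Matrix (Fin n) (Fin n) (ZMod p))ˣ} {c : ZMod p}
    (h : (u : Matrix (Fin n) (Fin n) (ZMod p)) = c • (1 : Matrix (Fin n) (Fin n) (ZMod p))) : orderOf u = orderOf c := by
  have h1 : ∀ k : ℕ, u ^ k = 1 ↔ c ^ k = 1 := by
    intro k
    have h2 : ((u ^ k : (Matrix (Fin n) (Fin n) (ZMod p))ˣ) : Matrix (Fin n) (Fin n) (ZMod p)) =
        c ^ k • (1 : Matrix (Fin n) (Fin n) (ZMod p)) := by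
      rw [Units.val_pow_eq_pow_val, h, smul_pow, one_pow]
    constructor
    · intro h3
      rw [h3, Units.val_one] at h2
      have := congrFun (congrFun h2 ⟨0, hn⟩) ⟨0, hn⟩
      simpa using this.symm
    · intro h3
      apply Units.ext
      rw [h2, h3, one_smul, Units.val_one]
  exact orderOf_eq_orderOf_iff.2 h1

end

end Cfsg.Agent.MRel

namespace Cfsg.Agent.MRel

open Cfsg.Agent.CosetEnum Subgroup Mult Mat

section

variable {B p n : ℕ} {idr : List ℕ} {Ls : List (List ℕ)} {ng : ℕ} {l : List (ℕ × ℕ)}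
  {sc : List (List ℕ × ℕ)}

theorem MD.hne_of (D : MD B p n idr Ls ng l sc) (hab : ∀ x, isLet ng x = true → abl D.M ng x = 1) {w : List ℕ} {c : ℕ}
    (h : (w, c) ∈ sc) (hw : wOK ng w = true) (hc : (c : ZMod p) ≠ 1) :
    ∃ x, D.M x ∉ center (Matrix (Fin n) (Fin n) (ZMod p))ˣ := by
  by_contra hcon
  push Not at hcon
  have h1 := perf_of_abl hab
  have hle : Cl D.M ng ≤ center (Matrix (Fin n) (Fin n) (ZMod p))ˣ := by
    unfold Cl
    rw [closure_le]
    rintro _ ⟨x, _, rfl⟩
    exact hcon x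
  have h2 : commutator ↥(Cl D.M ng) = ⊥ := by
    rw [commutator_def, commutator_eq_bot_iff_le_centralizer]
    intro x _ y _
    exact Subtype.ext (mem_center_iff.1 (hle x.2) y)
  rw [h2] at h1
  have h3 : (⟨(w.map D.M).prod, word_mem_Cl D.M hw⟩ : Cl D.M ng) = 1 := by
    have : (⟨(w.map D.M).prod, word_mem_Cl D.M hw⟩ : Cl D.M ng) ∈ (⊥ : Subgroup ↥(Cl D.M ng)) := by
      rw [h1]; exact mem_top _
    exact mem_bot.1 this
  have h4 : (w.map D.M).prod = 1 := congrArg Subtype.val h3
  have h5 := D.scal h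
  rw [h4, Units.val_one] at h5
  apply hc
  have h6 := congrFun (congrFun h5 ⟨0, D.hn⟩) ⟨0, D.hn⟩
  simpa using h6.symm

/-- **Cyclic multiplier from a matrix representation.** -/
theorem MD.cyclic (D : MD B p n idr Ls ng l sc) {G : Type} [Group G] [IsSimpleGroup G] {g : ℕ → G}
    {RL : List (List ℕ × ℕ)} (U : Univ g ng l RL) (hrel : (RL.all fun r => sc.any fun q => q.1 == expand r) = true)
    (hab : ∀ x, isLet ng x = true → abl D.M ng x = 1) {w : List ℕ} {c : ℕ} (h : (w, c) ∈ sc) (hw : wOK ng w = true)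
    {m : ℕ} (hm : 1 < m) (hc : orderOf (c : ZMod p) = m) (hG : commutator G = ⊤) (mb : MB G m) :
    HasCyclicSchurMultiplier G m := by
  have hf : Fact p.Prime := ⟨D.hp⟩
  have hc1 : (c : ZMod p) ≠ 1 := by
    intro h1
    rw [h1, orderOf_one] at hc
    omega
  obtain ⟨σ, P, h2, -⟩ := D.exists_ext U hrel (D.hne_of hab h hw hc1) hab
  have hz : σ ⟨(w.map D.M).prod, word_mem_Cl D.M hw⟩ = 1 := (h2 _).2 (D.cen h)
  refine cyclic_of hG (by omega) mb P hz ?_
  rw [Subgroup.orderOf_mk, orderOf_scal D.hn (D.scal h), hc]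

end

end Cfsg.Agent.MRel
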