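import Cfsg.Agent.MRel.ONW
import Cfsg.Agent.CosetEnum.ON.Main
import Cfsg.Agent.MRel.Proj

/-!
Upper bound for the Schur multiplier of the O'Nan group (owner: helper83).
-/

set_option autoImplicit false
set_option maxRecDepth 1000000

namespace Cfsg.Agent.MRel.ONX

open Cfsg.Agent.CosetEnum Cfsg.Agent.CosetEnum.ON Cfsg.Agent.MRel.TM Cfsg.Agent.MRel.Stab Cfsg.Agent.MulX

theorem card_ON : Nat.card Spor.ON = 460815505920 := card8 gS_univ

theorem fin_ON : Finite Spor.ON := Nat.finite_of_card_ne_zero (by rw [card_ON]; norm_num)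

theorem simple_ON : IsSimpleGroup Spor.ON := simple8 gS_univ

theorem tb : TB gS ONT8.P ONT8.lets bs := by
  have := fin_ON
  exact TB.of_lvl (L8 gS_univ) gS_univ.good.inv (lo := 1) (hi := 58654) (b := 21) (N := 64) (by decide)
    (show 21 < 122760 by norm_num) (card86 gS_univ) ONT8.sk st64_ok rfl

/-- letters -/
noncomputable abbrev g2 : ℕ → Spor.ON := fun i => Coh.val gS (W2.getD i [])
/-- letters -/
noncomputable abbrev g3 : ℕ → Spor.ON := fun i => Coh.val gS (W3.getD i [])
/-- letters -/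
noncomputable abbrev g7 : ℕ → Spor.ON := fun i => Coh.val gS (W7.getD i [])

theorem h2 : Holds g2 ONC2.rules := tb.holds WL2 rl2
theorem h3 : Holds g3 ONC3.rules := tb.holds WL3 rl3
theorem h7 : Holds g7 ONC7.rules := tb.holds WL7 rl7

theorem crd2 : 2 ^ 9 ≤ Nat.card ↥(Subgroup.closure (g2 '' {i | i < 9})) := by
  have := fin_ON
  exact tb.card_closure WL2 (show 9 < 122760 by norm_num) ds2
theorem crd3 : 3 ^ 4 ≤ Nat.card ↥(Subgroup.closure (g3 '' {i | i < 4})) := by
  have := fin_ON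
  exact tb.card_closure WL3 (show 20 < 122760 by norm_num) ds3
theorem crd7 : 7 ^ 3 ≤ Nat.card ↥(Subgroup.closure (g7 '' {i | i < 3})) := by
  have := fin_ON
  exact tb.card_closure WL7 (show 1 < 122760 by norm_num) ds7

theorem pb2 : PB Spor.ON 2 3 := by
  have := fin_ON
  exact PB_one Nat.prime_two g2 ONC2.good rfl rfl h2 ONC2.pc_ok crd2 card_ON (by norm_num) 3

theorem pb3 : PB Spor.ON 3 3 := by
  have := fin_ON
  exact PB_two Nat.prime_three g3 ONC3.good rfl h3 ONC3.pc_ok crd3 card_ON (by norm_num) ONC3.ogood (by decide +kernel)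

theorem pb7 : PB Spor.ON 7 3 := by
  have := fin_ON
  exact PB_one (p := 7) (by norm_num) g7 ONC7.good rfl rfl h7 ONC7.pc_ok crd7 card_ON (by norm_num) 3

theorem pbc {p b : ℕ} {w : List ℕ} (hp : p.Prime) (hb : b < ONT8.P.m) (hw : (w.all fun x => ONT8.lets.contains x) = true)
    (hpw : eqB ONT8.P bs (List.replicate p w).flatten [] = true) (hne : Nat.beq (actW ONT8.P w b) b = false)
    (hq : ¬ p ∣ 460815505920 / p) : PB Spor.ON p 3 := by
  have := fin_ON
  exact PB.of_cyclic hp (cyc_index (tb.orderOf_word hp hb hw hpw hne) hp.pos card_ON hq) 3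

theorem pb5 : PB Spor.ON 5 3 := pbc (by norm_num) (show 1 < 122760 by norm_num) (by decide) o5 m5 (by norm_num)
theorem pb11 : PB Spor.ON 11 3 := pbc (by norm_num) (show 1 < 122760 by norm_num) (by decide) o11 m11 (by norm_num)
theorem pb19 : PB Spor.ON 19 3 := pbc (by norm_num) (show 1 < 122760 by norm_num) (by decide) o19 m19 (by norm_num)
theorem pb31 : PB Spor.ON 31 3 := pbc (by norm_num) (show 1 < 122760 by norm_num) (by decide) o31 m31 (by norm_num)

theorem mb : MB Spor.ON 3 := by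
  have := fin_ON
  apply MB.of_PB
  intro p hp
  by_cases h : p ∣ Nat.card Spor.ON
  · rw [card_ON] at h
    have h2 : p ∣ 2 ^ 9 * (3 ^ 4 * (5 * (7 ^ 3 * (11 * (19 * 31))))) := by
      have e : 460815505920 = 2 ^ 9 * (3 ^ 4 * (5 * (7 ^ 3 * (11 * (19 * 31))))) := by norm_num
      rwa [e] at h
    rcases hp.dvd_mul.1 h2 with h | h
    · rw [(Nat.prime_dvd_prime_iff_eq hp Nat.prime_two).1 (hp.dvd_of_dvd_pow h)]
      exact pb2
    rcases hp.dvd_mul.1 h with h | h
    · rw [(Nat.prime_dvd_prime_iff_eq hp Nat.prime_three).1 (hp.dvd_of_dvd_pow h)]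
      exact pb3
    rcases hp.dvd_mul.1 h with h | h
    · rw [(Nat.prime_dvd_prime_iff_eq hp (by norm_num)).1 h]
      exact pb5
    rcases hp.dvd_mul.1 h with h | h
    · rw [(Nat.prime_dvd_prime_iff_eq hp (by norm_num)).1 (hp.dvd_of_dvd_pow h)]
      exact pb7
    rcases hp.dvd_mul.1 h with h | h
    · rw [(Nat.prime_dvd_prime_iff_eq hp (by norm_num)).1 h]
      exact pb11
    rcases hp.dvd_mul.1 h with h | h
    · rw [(Nat.prime_dvd_prime_iff_eq hp (by norm_num)).1 h]
      exact pb19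
    · rw [(Nat.prime_dvd_prime_iff_eq hp (by norm_num)).1 h]
      exact pb31
  · exact PB.of_not_card hp h 3

end Cfsg.Agent.MRel.ONX
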