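import Cfsg.Agent.MRel.ONVD

/-! Check of the table with voltages, part 22 (generated; owner: helper83). -/

set_option autoImplicit false
set_option maxRecDepth 1000000

namespace Cfsg.Agent.MRel.ONV

open Cfsg.Agent.CosetEnum Cfsg.Agent.MRel.Volt

theorem v88 : allR (tstV P 3 iv lets RV) 88000 1000 = true := by decide +kernel

theorem v89 : allR (tstV P 3 iv lets RV) 89000 1000 = true := by decide +kernel

theorem v90 : allR (tstV P 3 iv lets RV) 90000 1000 = true := by decide +kernel

theorem v91 : allR (tstV P 3 iv lets RV) 91000 1000 = true := by decide +kernel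

end Cfsg.Agent.MRel.ONV
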