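import Cfsg.Agent.MRel.ONVD

/-! Check of the table with voltages, part 29 (generated; owner: helper83). -/

set_option autoImplicit false
set_option maxRecDepth 1000000

namespace Cfsg.Agent.MRel.ONV

open Cfsg.Agent.CosetEnum Cfsg.Agent.MRel.Volt

theorem v116 : allR (tstV P 3 iv lets RV) 116000 1000 = true := by decide +kernel

theorem v117 : allR (tstV P 3 iv lets RV) 117000 1000 = true := by decide +kernel

theorem v118 : allR (tstV P 3 iv lets RV) 118000 1000 = true := by decide +kernel

theorem v119 : allR (tstV P 3 iv lets RV) 119000 1000 = true := by decide +kernel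

end Cfsg.Agent.MRel.ONV
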