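import Cfsg.Agent.MRel.ONVR0
import Cfsg.Agent.MRel.ONVR1
import Cfsg.Agent.MRel.ONVR2
import Cfsg.Agent.MRel.ONVR3
import Cfsg.Agent.MRel.ONVR4
import Cfsg.Agent.MRel.ONVR5
import Cfsg.Agent.MRel.ONVR6
import Cfsg.Agent.MRel.ONVR7
import Cfsg.Agent.MRel.ONVR8
import Cfsg.Agent.MRel.ONVR9
import Cfsg.Agent.MRel.ONVR10
import Cfsg.Agent.MRel.ONVR11
import Cfsg.Agent.MRel.ONVR12
import Cfsg.Agent.MRel.ONVR13
import Cfsg.Agent.MRel.ONVR14
import Cfsg.Agent.MRel.ONVR15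
import Cfsg.Agent.MRel.ONVR16
import Cfsg.Agent.MRel.ONVR17
import Cfsg.Agent.MRel.ONVR18
import Cfsg.Agent.MRel.ONVR19
import Cfsg.Agent.MRel.ONVR20
import Cfsg.Agent.MRel.ONVR21
import Cfsg.Agent.MRel.ONVR22
import Cfsg.Agent.MRel.ONVR23
import Cfsg.Agent.MRel.ONVR24
import Cfsg.Agent.MRel.ONVR25
import Cfsg.Agent.MRel.ONVR26
import Cfsg.Agent.MRel.ONVR27
import Cfsg.Agent.MRel.ONVR28
import Cfsg.Agent.MRel.ONVR29
import Cfsg.Agent.MRel.ONVR30
import Cfsg.Agent.CosetEnum.Rep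

/-! The table with voltages is correct (generated; owner: helper83). -/

set_option autoImplicit false
set_option maxRecDepth 1000000

namespace Cfsg.Agent.MRel.ONV

open Cfsg.Agent.CosetEnum Cfsg.Agent.MRel.Volt

theorem cov : Cov (tstV P 3 iv lets RV) 0 P.m := ((((((((((((((((((((((((((((((((((((((((((((((((((((((((((((((((((((((((((((((((((((((((((((((((((((((((((((((((((((((((((Cov.of v0 rfl).trans (Cov.of v1 rfl)).trans (Cov.of v2 rfl)).trans (Cov.of v3 rfl)).trans (Cov.of v4 rfl)).trans (Cov.of v5 rfl)).trans (Cov.of v6 rfl)).trans (Cov.of v7 rfl)).trans (Cov.of v8 rfl)).trans (Cov.of v9 rfl)).trans (Cov.of v10 rfl)).trans (Cov.of v11 rfl)).trans (Cov.of v12 rfl)).trans (Cov.of v13 rfl)).trans (Cov.of v14 rfl)).trans (Cov.of v15 rfl)).trans (Cov.of v16 rfl)).trans (Cov.of v17 rfl)).trans (Cov.of v18 rfl)).trans (Cov.of v19 rfl)).trans (Cov.of v20 rfl)).trans (Cov.of v21 rfl)).trans (Cov.of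 v22 rfl)).trans (Cov.of v23 rfl)).trans (Cov.of v24 rfl)).trans (Cov.of v25 rfl)).trans (Cov.of v26 rfl)).trans (Cov.of v27 rfl)).trans (Cov.of v28 rfl)).trans (Cov.of v29 rfl)).trans (Cov.of v30 rfl)).trans (Cov.of v31 rfl)).trans (Cov.of v32 rfl)).trans (Cov.of v33 rfl)).trans (Cov.of v34 rfl)).trans (Cov.of v35 rfl)).trans (Cov.of v36 rfl)).trans (Cov.of v37 rfl)).trans (Cov.of v38 rfl)).trans (Cov.of v39 rfl)).trans (Cov.of v40 rfl)).trans (Cov.of v41 rfl)).trans (Cov.of v42 rfl)).trans (Cov.of v43 rfl)).trans (Cov.of v44 rfl)).trans (Cov.of v45 rfl)).trans (Cov.of v46 rfl)).trans (Cov.of v47 rfl)).trans (Cov.of v48 rfl)).trans (Cov.of v49 rfl)).trans (Cov.of v50 rfl)).trans (Cov.of v51 rfl)).trans (Cov.of v52 rfl)).trans (Cov.of v53 rfl)).trans (Cov.of v54 rfl)).trans (Cov.of v55 rfl)).trans (Cov.of v56 rfl)).trans (Cov.of v57 rfl)).trans (Cov.of v58 rfl)).trans (Cov.of v59 rfl)).trans (Cov.of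 v60 rfl)).trans (Cov.of v61 rfl)).trans (Cov.of v62 rfl)).trans (Cov.of v63 rfl)).trans (Cov.of v64 rfl)).trans (Cov.of v65 rfl)).trans (Cov.of v66 rfl)).trans (Cov.of v67 rfl)).trans (Cov.of v68 rfl)).trans (Cov.of v69 rfl)).trans (Cov.of v70 rfl)).trans (Cov.of v71 rfl)).trans (Cov.of v72 rfl)).trans (Cov.of v73 rfl)).trans (Cov.of v74 rfl)).trans (Cov.of v75 rfl)).trans (Cov.of v76 rfl)).trans (Cov.of v77 rfl)).trans (Cov.of v78 rfl)).trans (Cov.of v79 rfl)).trans (Cov.of v80 rfl)).trans (Cov.of v81 rfl)).trans (Cov.of v82 rfl)).trans (Cov.of v83 rfl)).trans (Cov.of v84 rfl)).trans (Cov.of v85 rfl)).trans (Cov.of v86 rfl)).trans (Cov.of v87 rfl)).trans (Cov.of v88 rfl)).trans (Cov.of v89 rfl)).trans (Cov.of v90 rfl)).trans (Cov.of v91 rfl)).trans (Cov.of v92 rfl)).trans (Cov.of v93 rfl)).trans (Cov.of v94 rfl)).trans (Cov.of v95 rfl)).trans (Cov.of v96 rfl)).trans (Cov.of v97 rfl)).trans (Cov.of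 v98 rfl)).trans (Cov.of v99 rfl)).trans (Cov.of v100 rfl)).trans (Cov.of v101 rfl)).trans (Cov.of v102 rfl)).trans (Cov.of v103 rfl)).trans (Cov.of v104 rfl)).trans (Cov.of v105 rfl)).trans (Cov.of v106 rfl)).trans (Cov.of v107 rfl)).trans (Cov.of v108 rfl)).trans (Cov.of v109 rfl)).trans (Cov.of v110 rfl)).trans (Cov.of v111 rfl)).trans (Cov.of v112 rfl)).trans (Cov.of v113 rfl)).trans (Cov.of v114 rfl)).trans (Cov.of v115 rfl)).trans (Cov.of v116 rfl)).trans (Cov.of v117 rfl)).trans (Cov.of v118 rfl)).trans (Cov.of v119 rfl)).trans (Cov.of v120 rfl)).trans (Cov.of v121 rfl)).trans (Cov.of v122 rfl)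

end Cfsg.Agent.MRel.ONV
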