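import Cfsg.Agent.CosetEnum.Basic

/-!
Tables with voltages: a field holds a point (17 bits) and a voltage (owner: helper83).
-/

set_option autoImplicit false

namespace Cfsg.Agent.MRel.Volt

open Cfsg.Agent.CosetEnum

local notation "sel(" c ", " a ", " b ")" => @Bool.rec (fun _ => Bool) b a c
local notation "selN(" c ", " a ", " b ")" => @Bool.rec (fun _ => Nat) b a c

/-- field `x` of the row `j` -/
noncomputable def fe (P : Par) (x j : Nat) : Nat :=
  @T.rec (fun _ => Nat) (fun b v => Nat.land (Nat.shiftRight v (Nat.add (Nat.mul P.rw (Nat.sub j b)) (Nat.mul 20 x))) 1048575)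
    (fun h _ _ iha ihb => selN(Nat.ble h j, ihb, iha)) P.t

/-- one step: a state is a point plus `2 ^ 17` times a voltage -/
noncomputable def stp (P : Par) (x s : Nat) : Nat :=
  forceN (Nat.land s 131071) fun j => Nat.add (Nat.sub s j) (fe P x j)

/-- a walk -/
noncomputable def wk (P : Par) (w : List Nat) : Nat → Nat :=
  @List.rec Nat (fun _ => Nat → Nat) (fun s => s) (fun x _ ih s => forceN (stp P x s) ih) w

/-- the relator `u ^ k` has voltage `c` at the point `i` (or a smaller point is in the same cycle) -/
noncomputable def relV (P : Par) (n : Nat) (u : List Nat) (c i k : Nat) : Nat → Bool :=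
  @Nat.rec (fun _ => Nat → Bool)
    (fun s => sel(Nat.beq (Nat.land s 131071) i, Nat.beq (Nat.mod (Nat.shiftRight s 17) n) c, false))
    (fun _ ih s => force (wk P u s) fun s' => sel(Nat.ble i (Nat.land s' 131071), ih s', true)) k

/-- the letters are permutations with opposite voltages -/
noncomputable def permV (P : Par) (n : Nat) (l : List (Nat × Nat)) (lets : List Nat) (i : Nat) : Bool :=
  allL (fun x => force (fe P x i) fun e => force (Nat.land e 131071) fun j => sel(Nat.ble P.m j, false,
    force (fe P (ivL l x) j) fun e' => sel(Nat.beq (Nat.land e' 131071) i,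
      Nat.beq (Nat.mod (Nat.add (Nat.shiftRight e 17) (Nat.shiftRight e' 17)) n) 0, false))) lets

/-- test of the point `i` -/
noncomputable def tstV (P : Par) (n : Nat) (l : List (Nat × Nat)) (lets : List Nat) (RL : List (List Nat × Nat × Nat)) (i : Nat) : Bool :=
  sel(permV P n l lets i, @List.rec (List Nat × Nat × Nat) (fun _ => Bool) true
    (fun p _ ih => sel(relV P n p.1 p.2.2 i p.2.1 i, ih, false)) RL, false)

end Cfsg.Agent.MRel.Volt
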