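import Cfsg.Agent.MRel.ONVT0
import Cfsg.Agent.MRel.ONVT1
import Cfsg.Agent.MRel.ONVT2
import Cfsg.Agent.MRel.ONVT3
import Cfsg.Agent.MRel.VoltDef

/-! Table with voltages (generated; owner: helper83). -/

set_option autoImplicit false
set_option maxRecDepth 1000000

namespace Cfsg.Agent.MRel.ONV

open Cfsg.Agent.CosetEnum

noncomputable def tab : T := (.n 61392 (.n 30672 tab0 tab1) (.n 92064 tab2 tab3))

def iv : List (Nat × Nat) := [(7, 8)]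

def lets : List Nat := [1, 2, 3, 4, 5, 6, 7, 8]

/-- relators with exponent and voltage -/
def RV : List (List Nat × Nat × Nat) := [([1, 2], 3, 0), ([1, 3], 2, 0), ([1, 4], 2, 0), ([1, 5], 2, 0), ([1, 6], 2, 0), ([2, 3], 3, 0), ([2, 4], 2, 0), ([2, 5], 2, 0), ([2, 6], 2, 0), ([3, 4], 8, 0), ([3, 5], 2, 0), ([3, 6], 2, 0), ([4, 5], 2, 0), ([4, 6], 3, 0), ([5, 6], 3, 0), ([1, 5, 8, 8], 1, 0), ([1, 5, 4, 3, 4, 3, 4, 3, 4, 3], 1, 0), ([3, 8, 4, 8, 4, 3, 4, 7, 4, 7], 1, 0), ([4, 8, 3, 8, 3, 4, 3, 7, 3, 7], 1, 0), ([2, 3, 4, 7], 5, 1), ([7, 2, 3, 7, 3, 2, 7, 2, 3, 7, 3], 1, 1), ([7, 6, 4, 7, 4, 6, 7, 6, 4, 7, 4], 1, 1)]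

noncomputable def P : Par := ⟨tab, 180, 1532495540865888858358347027150309183618739122183602175, 122760, fun _ _ => false, .e⟩

end Cfsg.Agent.MRel.ONV
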