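import Cfsg.Agent.MRel.Volt

/-!
The central extension of a table with voltages (owner: helper83).
-/

set_option autoImplicit false

namespace Cfsg.Agent.MRel.Volt

open Cfsg.Agent.CosetEnum Cfsg.Agent.Mult

section

variable {P : Par} {n ng : ℕ} {l : List (ℕ × ℕ)} {lets : List ℕ} {RL : List (List ℕ × ℕ × ℕ)}
  (T : VOK P n ng l lets RL)

/-- generators -/
noncomputable def VOK.q (T : VOK P n ng l lets RL) (x : ℕ) : Equiv.Perm (Fin P.m × ZMod n) := (T.pm x)⁻¹

/-- the cover -/
def VOK.E (T : VOK P n ng l lets RL) : Subgroup (Equiv.Perm (Fin P.m × ZMod n)) :=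
  Subgroup.closure (insert (zt P n) (Set.range T.q))

/-- central element -/
noncomputable def VOK.z (T : VOK P n ng l lets RL) : T.E := ⟨zt P n, Subgroup.subset_closure (Set.mem_insert _ _)⟩

/-- letters in the cover -/
noncomputable def VOK.e (T : VOK P n ng l lets RL) (x : ℕ) : T.E :=
  ⟨T.q x, Subgroup.subset_closure (Set.mem_insert_of_mem _ ⟨x, rfl⟩)⟩

theorem VOK.q_comm (x : ℕ) : Commute (T.q x) (zt P n) := by
  have h : Commute (T.pm x) (zt P n) := T.comm x
  exact h.inv_left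

theorem VOK.z_comm (y : T.E) : Commute y T.z := by
  obtain ⟨y, hy⟩ := y
  have key : Commute y (zt P n) := by
    induction hy using Subgroup.closure_induction with
    | mem y hy =>
      rcases hy with rfl | ⟨x, rfl⟩
      · exact Commute.refl _
      · exact T.q_comm x
    | one => exact Commute.one_left _
    | mul a b _ _ ha hb => exact ha.mul_left hb
    | inv a _ ha => exact ha.inv_left
  exact Subtype.ext key

theorem VOK.z_mem_center : T.z ∈ Subgroup.center T.E := by
  rw [Subgroup.mem_center_iff]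
  intro y
  exact T.z_comm y

theorem VOK.N_le : Subgroup.zpowers T.z ≤ Subgroup.center T.E := by
  rw [Subgroup.zpowers_le]
  exact T.z_mem_center

theorem VOK.N_normal : (Subgroup.zpowers T.z).Normal := by
  constructor
  intro y hy x
  have h := Subgroup.mem_center_iff.1 (T.N_le hy) x
  rw [h, mul_assoc, mul_inv_cancel, mul_one]
  exact hy

theorem VOK.e_inv (x : ℕ) : T.e (ivL l x) = (T.e x)⁻¹ := by
  apply Subtype.ext
  show (T.pm (ivL l x))⁻¹ = ((T.pm x)⁻¹)⁻¹
  rw [T.pm_inv]

theorem VOK.e_one (x : ℕ) (hx : isLet ng x = false) : T.e x = 1 := by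
  have : x ∉ lets := fun h => by rw [T.mem_iff.1 h] at hx; exact absurd hx (by simp)
  apply Subtype.ext
  show (T.pm x)⁻¹ = 1
  rw [VOK.pm, dif_neg this, inv_one]

theorem VOK.e_rel {p : List ℕ × ℕ × ℕ} (hp : p ∈ RL) : ((p.1.map T.e).prod) ^ p.2.1 = (T.z ^ p.2.2)⁻¹ := by
  have h := T.rel hp
  have h1 : CosetEnum.val T.pm p.1 = ((p.1.map T.q).prod)⁻¹ := by
    have e : (fun x => (T.q x)⁻¹) = T.pm := by funext x; exact inv_inv _
    rw [← val_inv, e]
  rw [h1, inv_pow] at h
  apply Subtype.ext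
  have h2 : (((p.1.map T.e).prod : T.E) : Equiv.Perm (Fin P.m × ZMod n)) = (p.1.map T.q).prod := by
    rw [Subgroup.val_list_prod, List.map_map]
    rfl
  rw [Subgroup.coe_pow, h2, Subgroup.coe_inv, Subgroup.coe_pow]
  show _ = ((zt P n) ^ p.2.2)⁻¹
  rw [← h, inv_inv]

theorem VOK.dvd_order (hm : 0 < P.m) : n ∣ orderOf T.z := by
  have h : T.z ^ orderOf T.z = 1 := pow_orderOf_eq_one _
  have h1 : (zt P n) ^ orderOf T.z = 1 := by
    exact congrArg Subtype.val h
  have h2 := zt_pow (P := P) (n := n) (orderOf T.z) (⟨0, hm⟩, 0)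
  rw [h1] at h2
  have h3 := congrArg Prod.snd h2
  have h4 : (0 : ZMod n) = 0 + ((orderOf T.z : ℕ) : ZMod n) := h3
  rw [zero_add] at h4
  exact (ZMod.natCast_eq_zero_iff _ _).1 h4.symm

theorem VOK.z_pow : T.z ^ n = 1 := by
  apply Subtype.ext
  show (zt P n) ^ n = 1
  ext1 a
  rw [zt_pow, ZMod.natCast_self, add_zero]
  rfl

theorem VOK.fst_zpow {y : T.E} (hy : y ∈ Subgroup.zpowers T.z) (a : Fin P.m × ZMod n) :
    ((y : Equiv.Perm (Fin P.m × ZMod n)) a).1 = a.1 := by
  have hpow : ∀ k : ℕ, ((T.z ^ k : T.E) : Equiv.Perm (Fin P.m × ZMod n)) = (zt P n) ^ k := fun k => rfl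
  have hfin : IsOfFinOrder T.z := isOfFinOrder_iff_pow_eq_one.2 ⟨n, T.pos, T.z_pow⟩
  obtain ⟨k, hk⟩ := (hfin.mem_powers_iff_mem_zpowers).2 hy
  have hk : T.z ^ k = y := hk
  rw [← hk, hpow, zt_pow]

/-- **The extension.** -/
theorem VOK.exists_cover {G : Type} [Group G] [IsSimpleGroup G] {g : ℕ → G}
    (U : Univ g ng l (RL.map fun p => (p.1, p.2.1))) {x0 i0 : ℕ} (hx0 : isLet ng x0 = true) (hi0 : i0 < P.m)
    (hmv : Nat.beq (Nat.land (fe P x0 i0) 131071) i0 = false) :
    ∃ σ : T.E →* G, Function.Surjective σ ∧ σ.ker = Subgroup.zpowers T.z ∧ ∀ x, σ (T.e x) = g x := by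
  have hN := T.N_normal
  let Q := T.E ⧸ Subgroup.zpowers T.z
  let mk : T.E →* Q := QuotientGroup.mk' (Subgroup.zpowers T.z)
  have hgood : Good (fun x => mk (T.e x)) ng l (RL.map fun p => (p.1, p.2.1)) := by
    constructor
    · intro x
      show mk (T.e (ivL l x)) = (mk (T.e x))⁻¹
      rw [T.e_inv, map_inv]
    · intro x hx
      show mk (T.e x) = 1
      rw [T.e_one x hx, map_one]
    · intro p hp
      obtain ⟨p', hp', rfl⟩ := List.mem_map.1 hp
      have h1 : ((p'.1.map fun x => mk (T.e x)).prod) ^ p'.2.1 = mk (((p'.1.map T.e).prod) ^ p'.2.1) := by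
        rw [map_pow, map_list_prod, List.map_map]
        rfl
      show ((p'.1.map fun x => mk (T.e x)).prod) ^ p'.2.1 = 1
      rw [h1, T.e_rel hp']
      rw [QuotientGroup.mk'_apply, QuotientGroup.eq_one_iff]
      exact inv_mem (pow_mem (Subgroup.mem_zpowers _) _)
  obtain ⟨φ, hφ⟩ := U.univ Q _ hgood
  have hsurj : Function.Surjective φ := by
    intro y
    obtain ⟨⟨y, hy⟩, rfl⟩ := QuotientGroup.mk'_surjective (Subgroup.zpowers T.z) y
    have key : ∀ y (hy : y ∈ T.E), ∃ a, φ a = mk ⟨y, hy⟩ := by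
      intro y hy
      induction hy using Subgroup.closure_induction with
      | mem y hy =>
        rcases hy with rfl | ⟨x, rfl⟩
        · refine ⟨1, ?_⟩
          rw [map_one]
          symm
          have : mk T.z = 1 := by
            rw [QuotientGroup.mk'_apply, QuotientGroup.eq_one_iff]
            exact Subgroup.mem_zpowers _
          exact this
        · exact ⟨g x, hφ x⟩
      | one => exact ⟨1, by rw [map_one]; exact (map_one mk).symm⟩
      | mul a b ha hb iha ihb =>
        obtain ⟨a', ha'⟩ := iha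
        obtain ⟨b', hb'⟩ := ihb
        exact ⟨a' * b', by rw [map_mul, ha', hb', ← map_mul]; rfl⟩
      | inv a ha iha =>
        obtain ⟨a', ha'⟩ := iha
        exact ⟨a'⁻¹, by rw [map_inv, ha', ← map_inv]; rfl⟩
    exact key y hy
  have hinj : Function.Injective φ := by
    rcases (inferInstance : φ.ker.Normal).eq_bot_or_eq_top with h | h
    · exact (MonoidHom.ker_eq_bot_iff φ).1 h
    · exfalso
      have h1 : φ (g x0) = 1 := by
        have : g x0 ∈ φ.ker := by rw [h]; exact Subgroup.mem_top _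
        exact this
      rw [hφ] at h1
      have h1 : mk (T.e x0) = 1 := h1
      rw [QuotientGroup.mk'_apply, QuotientGroup.eq_one_iff] at h1
      have h2 : (T.e x0)⁻¹ ∈ Subgroup.zpowers T.z := inv_mem h1
      have h3 := T.fst_zpow h2 (⟨i0, hi0⟩, 0)
      have hx : x0 ∈ lets := T.mem_iff.2 hx0
      have h4 : (((T.e x0)⁻¹ : T.E) : Equiv.Perm (Fin P.m × ZMod n)) = T.pm x0 := by
        show ((T.pm x0)⁻¹)⁻¹ = T.pm x0
        rw [inv_inv]
      rw [h4, T.pm_apply hx] at h3
      have h5 : fe P x0 i0 % 131072 = i0 := congrArg (fun i : Fin P.m => (i : ℕ)) h3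
      rw [land_mod, h5, Nat.beq_refl] at hmv
      cases hmv
  let eqv : G ≃* Q := MulEquiv.ofBijective φ ⟨hinj, hsurj⟩
  refine ⟨eqv.symm.toMonoidHom.comp mk, ?_, ?_, ?_⟩
  · intro y
    obtain ⟨a, ha⟩ := QuotientGroup.mk'_surjective (Subgroup.zpowers T.z) (eqv y)
    refine ⟨a, ?_⟩
    show eqv.symm (mk a) = y
    have ha : mk a = eqv y := ha
    rw [ha, MulEquiv.symm_apply_apply]
  · ext y
    rw [MonoidHom.mem_ker]
    show eqv.symm (mk y) = 1 ↔ _
    rw [MulEquiv.map_eq_one_iff, QuotientGroup.mk'_apply, QuotientGroup.eq_one_iff]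
  · intro x
    show eqv.symm (mk (T.e x)) = g x
    have h1 : eqv (g x) = mk (T.e x) := hφ x
    rw [← h1, MulEquiv.symm_apply_apply]

end

section

variable {E G : Type} [Group E] [Group G] {σ : E →* G} (hs : Function.Surjective σ) {z : E}
  (hk : σ.ker = Subgroup.zpowers z) (hG : commutator G = ⊤)

include hs hk hG

theorem exists_comm (y : E) : ∃ d ∈ commutator E, ∃ k : ℤ, y = d * z ^ k := by
  have h1 : (commutator E).map σ = commutator G := by
    rw [commutator_def, commutator_def, Subgroup.map_commutator, ← MonoidHom.range_eq_map,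
      MonoidHom.range_eq_top.2 hs]
  have h2 : σ y ∈ (commutator E).map σ := by
    rw [h1, hG]; exact Subgroup.mem_top _
  obtain ⟨d, hd, hdy⟩ := h2
  have h3 : d⁻¹ * y ∈ σ.ker := by
    rw [MonoidHom.mem_ker, map_mul, map_inv, hdy, inv_mul_cancel]
  rw [hk] at h3
  obtain ⟨k, hk'⟩ := h3
  have hk' : z ^ k = d⁻¹ * y := hk'
  exact ⟨d, hd, k, by rw [hk', mul_inv_cancel_left]⟩

theorem ab_pow (y : E) : ∃ k : ℤ, Abelianization.of y = (Abelianization.of z) ^ k := by
  obtain ⟨d, hd, k, rfl⟩ := exists_comm hs hk hG y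
  refine ⟨k, ?_⟩
  rw [map_mul, map_zpow]
  have : Abelianization.of d = 1 := (QuotientGroup.eq_one_iff d).2 hd
  rw [this, one_mul]

theorem perf_of (hz : Abelianization.of z = 1) : commutator E = ⊤ := by
  rw [Subgroup.eq_top_iff']
  intro y
  obtain ⟨k, hk'⟩ := ab_pow hs hk hG y
  rw [hz, one_zpow] at hk'
  exact (QuotientGroup.eq_one_iff y).1 hk'

end

end Cfsg.Agent.MRel.Volt
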