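import Cfsg.Agent.MRel.ONMul
import Cfsg.Agent.MRel.VoltG
import Cfsg.Agent.MRel.ONVC

/-!
The Schur multiplier of the O'Nan group (owner: helper83).
-/

set_option autoImplicit false
set_option maxRecDepth 1000000

namespace Cfsg.Agent.MRel.ONX

open Cfsg.Agent.CosetEnum Cfsg.Agent.CosetEnum.ON Cfsg.Agent.MRel.Volt Cfsg.Agent.Mult

theorem vok : VOK ONV.P 3 8 ONV.iv ONV.lets ONV.RV where
  st := by decide +kernel
  small := show 122760 ≤ 131072 by norm_num
  pos := by norm_num
  cov := ONV.cov

theorem rv_eq : (ONV.RV.map fun p => (p.1, p.2.1)) = ONT8.RL := by decide +kernel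

theorem iv_eq : ONV.iv = ONT8.iv := rfl

theorem U : Univ gS 8 ONV.iv (ONV.RV.map fun p => (p.1, p.2.1)) := by
  rw [rv_eq, iv_eq]
  exact gS_univ

theorem notComm (hab : ∀ a b : Spor.ON, a * b = b * a) : False := by
  have := simple_ON
  have := fin_ON
  letI : CommGroup Spor.ON := { (inferInstance : Group Spor.ON) with mul_comm := hab }
  have h1 : (Nat.card Spor.ON).Prime := IsSimpleGroup.prime_card
  rw [card_ON] at h1
  have h2 : (2 : ℕ) ∣ 460815505920 := by norm_num
  rcases (Nat.dvd_prime h1).1 h2 with h3 | h3 <;> omega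

theorem perf_ON : commutator Spor.ON = ⊤ := by
  have := simple_ON
  rcases (inferInstance : (commutator Spor.ON).Normal).eq_bot_or_eq_top with h | h
  · exfalso
    rw [commutator_def, Subgroup.commutator_eq_bot_iff_le_centralizer] at h
    exact notComm fun a b => (Subgroup.mem_centralizer_iff.1 (h (Subgroup.mem_top a)) b (Subgroup.mem_top b)).symm
  · exact h

theorem mv : Nat.beq (Nat.land (fe ONV.P 7 0) 131071) 0 = false := by decide +kernel

theorem mult_ON : Cfsg.HasCyclicSchurMultiplier Spor.ON 3 := by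
  have := simple_ON
  obtain ⟨σ, hs, hk, he⟩ := vok.exists_cover U (x0 := 7) (i0 := 0) rfl (show 0 < 122760 by norm_num) mv
  have hz1 : Abelianization.of vok.z = 1 := by
    set a : ℕ → Abelianization vok.E := fun x => Abelianization.of (vok.e x) with ha
    set ζ := Abelianization.of vok.z with hζ
    have hζ3 : ζ ^ 3 = 1 := by
      rw [hζ, ← map_pow, vok.z_pow, map_one]
    have hcube : ∀ y : vok.E, (Abelianization.of y) ^ 3 = 1 := by
      intro y
      obtain ⟨k, hk'⟩ := ab_pow hs hk perf_ON y
      rw [hk', ← zpow_natCast, ← zpow_mul, mul_comm, zpow_mul, zpow_natCast, hζ3, one_zpow]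
    have hinv : ∀ x, a (ivL ONV.iv x) = (a x)⁻¹ := by
      intro x
      rw [ha]
      show Abelianization.of (vok.e (ivL ONV.iv x)) = _
      rw [vok.e_inv, map_inv]
    have hrel : ∀ p ∈ ONV.RV, ((p.1.map a).prod) ^ p.2.1 = (ζ ^ p.2.2)⁻¹ := by
      intro p hp
      have h := congrArg Abelianization.of (vok.e_rel hp)
      rw [map_pow, map_list_prod, List.map_map, map_inv, map_pow] at h
      exact h
    have hone : ∀ x, x < 7 → a x = 1 := by
      intro x hx
      have h1 := hinv x
      have h2 : ivL ONV.iv x = x := by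
        have h3 : x ≠ 7 := by omega
        have h4 : x ≠ 8 := by omega
        simp [ivL, ONV.iv, h3, h4]
      rw [h2] at h1
      have h3 : a x * a x = 1 := eq_inv_iff_mul_eq_one.1 h1
      have h4 : (a x) ^ 3 = 1 := hcube _
      rw [pow_succ, pow_two, h3, one_mul] at h4
      exact h4
    have a1 := hone 1 (by norm_num)
    have a2 := hone 2 (by norm_num)
    have a3 := hone 3 (by norm_num)
    have a4 := hone 4 (by norm_num)
    have a5 := hone 5 (by norm_num)
    have a8 : a 8 = (a 7)⁻¹ := hinv 7
    have r15 := hrel ([1, 5, 8, 8], 1, 0) (by decide +kernel)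
    have r19 := hrel ([2, 3, 4, 7], 5, 1) (by decide +kernel)
    simp only [List.map_cons, List.map_nil, List.prod_cons, List.prod_nil, a1, a5, a8, one_mul, mul_one, pow_one,
      pow_zero, inv_one] at r15
    have a7 : a 7 = 1 := by
      have h4 : (a 7) ^ 3 = 1 := hcube _
      have h5 : a 7 * a 7 = 1 := by
        have := congrArg (·⁻¹) r15
        simpa using this
      rw [pow_succ, pow_two, h5, one_mul] at h4
      exact h4
    simp only [List.map_cons, List.map_nil, List.prod_cons, List.prod_nil, a2, a3, a4, a7, one_mul, mul_one, one_pow,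
      pow_one] at r19
    exact inv_eq_one.1 r19.symm
  have hfin : Finite vok.E := inferInstance
  have PC : PCE σ := ⟨⟨hs, by rw [hk]; exact vok.N_le⟩, perf_of hs hk perf_ON hz1⟩
  have hz : σ vok.z = 1 := by
    rw [← MonoidHom.mem_ker, hk]
    exact Subgroup.mem_zpowers _
  exact cyclic_of perf_ON (by norm_num) mb PC hz (vok.dvd_order (show 0 < 122760 by norm_num))

end Cfsg.Agent.MRel.ONX
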