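import Cfsg.Agent.MRel.G24
import Cfsg.Agent.CosetEnum.M83.CertsS2
import Cfsg.Agent.CosetEnum.Suz.Pres

set_option autoImplicit false
set_option maxRecDepth 1000000

/-!
The Schur multiplier of `Suz` has order dividing six (owner: helper83).
-/

namespace Cfsg.Agent.MRel.Suz

open Cfsg.Agent.CosetEnum Cfsg.Agent.CosetEnum.Suz Subgroup Mult

theorem sq7 (x : ℕ) : gS x * gS x = 1 := by
  have := gS_univ.good.inv x
  have h : ivL SuzT7.iv x = x := rfl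
  rw [h] at this
  nth_rewrite 1 [this]
  exact inv_mul_cancel _

theorem rel7 {u : List ℕ} {m : ℕ} (h : (u, m) ∈ SuzT7.RL) : ((u.map gS).prod) ^ m = 1 := gS_univ.good.rel (u, m) h

theorem pair7 {x y m : ℕ} (h : ([x, y], m) ∈ SuzT7.RL) : (gS x * gS y) ^ m = 1 := by
  have := rel7 h
  simpa using this

theorem conj_bg : (gS 2 * gS 7) * gS 2 * (gS 2 * gS 7)⁻¹ = gS 7 :=
  J2.conj3_of (sq7 2) (sq7 7) (pair7 (x := 2) (y := 7) (m := 3) (by decide))

section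

variable {Γ : Type} [Group Γ] {σ : Γ →* Spor.Suz} (C : CE σ) (s : Cl gS 6 →* Γ)

/-- lift of `g` -/
noncomputable def g7 : Γ := C.cj (gS 2 * gS 7) (s ⟨gS 2, mem_Cl gS rfl⟩)

/-- the letters of the covering presentation -/
noncomputable def fS : ℕ → Γ
  | 1 => s ⟨gS 1, mem_Cl gS rfl⟩
  | 2 => s ⟨gS 2, mem_Cl gS rfl⟩
  | 3 => s ⟨gS 3, mem_Cl gS rfl⟩
  | 4 => s ⟨gS 4, mem_Cl gS rfl⟩
  | 5 => s ⟨gS 5, mem_Cl gS rfl⟩
  | 6 => s ⟨gS 6, mem_Cl gS rfl⟩
  | 7 => g7 C s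
  | 8 => ((g7 C s * s ⟨gS 1, mem_Cl gS rfl⟩) ^ 2)⁻¹
  | 9 => ((g7 C s * s ⟨gS 3, mem_Cl gS rfl⟩) ^ 2)⁻¹
  | 10 => ((g7 C s * s ⟨gS 4, mem_Cl gS rfl⟩) ^ 2)⁻¹
  | 11 => ((g7 C s * s ⟨gS 5, mem_Cl gS rfl⟩) ^ 2)⁻¹
  | 12 => ((s ⟨gS 6, mem_Cl gS rfl⟩ * g7 C s) ^ 2 * s ⟨gS 1, mem_Cl gS rfl⟩)⁻¹
  | 13 => (s ⟨gS 2, mem_Cl gS rfl⟩ * s ⟨gS 6, mem_Cl gS rfl⟩ * g7 C s) ^ 5
  | 14 => ((s ⟨gS 2, mem_Cl gS rfl⟩ * s ⟨gS 6, mem_Cl gS rfl⟩ * g7 C s) ^ 5)⁻¹
  | _ => 1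

theorem hf6 (x : ℕ) (hx : isLet 6 x = true) : fS C s x = s ⟨gS x, mem_Cl gS hx⟩ := by
  have h := isLet_iff.1 hx
  match x, h with
  | 1, _ => rfl
  | 2, _ => rfl
  | 3, _ => rfl
  | 4, _ => rfl
  | 5, _ => rfl
  | 6, _ => rfl
  | (n + 7), h => omega

variable (hs : ∀ h : Cl gS 6, σ (s h) = h)

include hs

theorem g7_spec : (s ⟨gS 2, mem_Cl gS rfl⟩ * g7 C s) ^ 3 = 1 ∧ σ (g7 C s) = gS 7 ∧ g7 C s * g7 C s = 1 := by
  have hb : s ⟨gS 2, mem_Cl gS rfl⟩ * s ⟨gS 2, mem_Cl gS rfl⟩ = 1 := lift_sq s rfl (sq7 2)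
  have h2 : σ (s ⟨gS 2, mem_Cl gS rfl⟩) = gS 2 := hs _
  unfold g7
  generalize s ⟨gS 2, mem_Cl gS rfl⟩ = x at hb h2
  exact ⟨art3_inv C h2 conj_bg hb, (art3 C h2 conj_bg).2, cj_sq C hb⟩

theorem cen2 {x : ℕ} (hx : isLet 6 x = true) (h : ([x, 7], 2) ∈ SuzT7.RL) :
    σ (((g7 C s * s ⟨gS x, mem_Cl gS hx⟩) ^ 2)⁻¹) = 1 ∧
    ((g7 C s * s ⟨gS x, mem_Cl gS hx⟩) ^ 2)⁻¹ * ((g7 C s * s ⟨gS x, mem_Cl gS hx⟩) ^ 2)⁻¹ = 1 := by
  obtain ⟨-, h2, h3⟩ := g7_spec C s hs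
  have h4 : σ (((g7 C s * s ⟨gS x, mem_Cl gS hx⟩) ^ 2)⁻¹) = 1 := by
    rw [map_inv, map_pow, map_mul, h2, hs, G24.pair_flip (sq7 x) (sq7 7) (pair7 h), inv_one]
  refine ⟨h4, ?_⟩
  rw [← mul_inv_rev, pow_pair_sq h3 (lift_sq s hx (sq7 x)) 2, inv_one]
  intro z
  apply cen_of_one C
  rw [map_inv, inv_eq_one] at h4
  exact h4

theorem cenx : σ (((s ⟨gS 6, mem_Cl gS rfl⟩ * g7 C s) ^ 2 * s ⟨gS 1, mem_Cl gS rfl⟩)⁻¹) = 1 := by
  rw [map_inv, map_mul, map_pow, map_mul, (g7_spec C s hs).2.1, hs, hs]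
  have := rel7 (u := [1, 6, 7, 6, 7]) (m := 1) (by decide)
  have h2 : gS 1 * (gS 6 * gS 7) ^ 2 = 1 := by simpa [pow_two, mul_assoc] using this
  have h3 := inv_eq_of_mul_eq_one_right h2
  show ((gS 6 * gS 7) ^ 2 * gS 1)⁻¹ = 1
  rw [← h3, inv_mul_cancel, inv_one]

theorem x_sq : ((s ⟨gS 6, mem_Cl gS rfl⟩ * g7 C s) ^ 2 * s ⟨gS 1, mem_Cl gS rfl⟩)⁻¹ *
    ((s ⟨gS 6, mem_Cl gS rfl⟩ * g7 C s) ^ 2 * s ⟨gS 1, mem_Cl gS rfl⟩)⁻¹ = 1 := by
  have h1 := cen_of_one C (cenx C s hs)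
  have hf : s ⟨gS 6, mem_Cl gS rfl⟩ * s ⟨gS 6, mem_Cl gS rfl⟩ = 1 := lift_sq s rfl (sq7 6)
  have ha : s ⟨gS 1, mem_Cl gS rfl⟩ * s ⟨gS 1, mem_Cl gS rfl⟩ = 1 := lift_sq s rfl (sq7 1)
  have hg := (g7_spec C s hs).2.2
  have hfa : s ⟨gS 6, mem_Cl gS rfl⟩ * s ⟨gS 1, mem_Cl gS rfl⟩ = s ⟨gS 1, mem_Cl gS rfl⟩ * s ⟨gS 6, mem_Cl gS rfl⟩ := by
    rw [← map_mul, ← map_mul]
    congr 1
    apply Subtype.ext
    exact J2.comm_of_sq (sq7 6) (sq7 1) (G24.pair_flip (sq7 1) (sq7 6) (pair7 (x := 1) (y := 6) (m := 2) (by decide)))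
  generalize s ⟨gS 6, mem_Cl gS rfl⟩ = f at *
  generalize s ⟨gS 1, mem_Cl gS rfl⟩ = a at *
  generalize g7 C s = g at *
  -- `z = (f g)² a`
  set z := (f * g) ^ 2 * a with hz
  have h2 : f * z * f⁻¹ = a * z⁻¹ * a := by
    rw [inv_sq hf, hz, mul_inv_rev, inv_sq ha, ← inv_pow, mul_inv_rev, inv_sq hf, inv_sq hg, pow_two, pow_two]
    calc f * (f * g * (f * g) * a) * f = (f * f) * g * f * g * (a * f) := by simp only [mul_assoc]
      _ = g * f * g * (f * a) := by rw [hf, one_mul, hfa]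
      _ = (a * a) * (g * f * (g * f)) * a := by rw [ha, one_mul]; simp only [mul_assoc]
      _ = a * (a * (g * f * (g * f))) * a := by simp only [mul_assoc]
  have h3 : ∀ y, z * y = y * z := by
    intro y
    have := h1 y
    rw [inv_mul_eq_iff_eq_mul, ← mul_assoc, eq_mul_inv_iff_mul_eq] at this
    exact this.symm
  have h4 : z⁻¹ * a = a * z⁻¹ := h1 a
  rw [← h3, mul_inv_cancel_right, ← h4, mul_assoc, ha, mul_one] at h2
  rw [← mul_inv_rev, inv_eq_one]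
  nth_rewrite 1 [h2]
  exact inv_mul_cancel _

theorem ceny : σ ((s ⟨gS 2, mem_Cl gS rfl⟩ * s ⟨gS 6, mem_Cl gS rfl⟩ * g7 C s) ^ 5) = 1 := by
  rw [map_pow, map_mul, map_mul, (g7_spec C s hs).2.1, hs, hs]
  have := rel7 (u := [2, 6, 7]) (m := 5) (by decide)
  simpa [mul_assoc] using this

theorem cen_z (z : ℕ) (hz : z ∈ [8, 9, 10, 11, 12, 13, 14]) : σ (fS C s z) = 1 := by
  simp only [List.mem_cons, List.not_mem_nil, or_false] at hz
  rcases hz with rfl | rfl | rfl | rfl | rfl | rfl | rfl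
  · exact (cen2 C s hs (x := 1) rfl (by decide)).1
  · exact (cen2 C s hs (x := 3) rfl (by decide)).1
  · exact (cen2 C s hs (x := 4) rfl (by decide)).1
  · exact (cen2 C s hs (x := 5) rfl (by decide)).1
  · exact cenx C s hs
  · exact ceny C s hs
  · show σ (_)⁻¹ = 1
    rw [map_inv, ceny C s hs, inv_one]

theorem fS_good : Good (fS C s) 14 M83S.iv M83S.RL := by
  refine good_step gS_univ.good s (hf6 C s) ?_ ?_ [8, 9, 10, 11, 12, 13, 14]
    (fun z hz y => cen_of_one C (cen_z C s hs z hz) y)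
    [([2, 7], 3), ([7, 1, 7, 1, 8], 1), ([7, 3, 7, 3, 9], 1), ([7, 4, 7, 4, 10], 1), ([7, 5, 7, 5, 11], 1),
      ([6, 7, 6, 7, 1, 12], 1), ([2, 6, 7, 2, 6, 7, 2, 6, 7, 2, 6, 7, 2, 6, 7, 14], 1)] ?_ (by decide +kernel)
  · intro x
    match x with
    | 0 => exact inv_one.symm
    | 1 => exact (inv_sq (lift_sq s rfl (sq7 1))).symm
    | 2 => exact (inv_sq (lift_sq s rfl (sq7 2))).symm
    | 3 => exact (inv_sq (lift_sq s rfl (sq7 3))).symm
    | 4 => exact (inv_sq (lift_sq s rfl (sq7 4))).symm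
    | 5 => exact (inv_sq (lift_sq s rfl (sq7 5))).symm
    | 6 => exact (inv_sq (lift_sq s rfl (sq7 6))).symm
    | 7 => exact (inv_sq (g7_spec C s hs).2.2).symm
    | 8 => exact (inv_sq (cen2 C s hs (x := 1) rfl (by decide)).2).symm
    | 9 => exact (inv_sq (cen2 C s hs (x := 3) rfl (by decide)).2).symm
    | 10 => exact (inv_sq (cen2 C s hs (x := 4) rfl (by decide)).2).symm
    | 11 => exact (inv_sq (cen2 C s hs (x := 5) rfl (by decide)).2).symm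
    | 12 => exact (inv_sq (x_sq C s hs)).symm
    | 13 => rfl
    | 14 => exact (inv_inv _).symm
    | (n + 15) => exact inv_one.symm
  · intro x hx
    match x with
    | 0 => rfl
    | 1 => exact absurd hx (by decide)
    | 2 => exact absurd hx (by decide)
    | 3 => exact absurd hx (by decide)
    | 4 => exact absurd hx (by decide)
    | 5 => exact absurd hx (by decide)
    | 6 => exact absurd hx (by decide)
    | 7 => exact absurd hx (by decide)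
    | 8 => exact absurd hx (by decide)
    | 9 => exact absurd hx (by decide)
    | 10 => exact absurd hx (by decide)
    | 11 => exact absurd hx (by decide)
    | 12 => exact absurd hx (by decide)
    | 13 => exact absurd hx (by decide)
    | 14 => exact absurd hx (by decide)
    | (n + 15) => rfl
  · have key : ∀ a b : Γ, a * (b * (a * (b * ((a * b) ^ 2)⁻¹))) = 1 := fun a b => by rw [pow_two]; group
    intro p hp
    simp only [List.mem_cons, List.not_mem_nil, or_false] at hp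
    rcases hp with rfl | rfl | rfl | rfl | rfl | rfl | rfl
    · have := (g7_spec C s hs).1
      simpa [fS] using this
    · simpa [fS] using key (g7 C s) (s ⟨gS 1, mem_Cl gS rfl⟩)
    · simpa [fS] using key (g7 C s) (s ⟨gS 3, mem_Cl gS rfl⟩)
    · simpa [fS] using key (g7 C s) (s ⟨gS 4, mem_Cl gS rfl⟩)
    · simpa [fS] using key (g7 C s) (s ⟨gS 5, mem_Cl gS rfl⟩)
    · have key2 : ∀ f g a : Γ, f * (g * (f * (g * (a * (((f * g) ^ 2 * a)⁻¹))))) = 1 := fun f g a => by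
        rw [pow_two]; group
      have := key2 (s ⟨gS 6, mem_Cl gS rfl⟩) (g7 C s) (s ⟨gS 1, mem_Cl gS rfl⟩)
      simp only [List.map_cons, List.map_nil, List.prod_cons, List.prod_nil, mul_one, pow_one, fS]
      exact this
    · have e : ([2, 6, 7, 2, 6, 7, 2, 6, 7, 2, 6, 7, 2, 6, 7, 14] : List ℕ) =
        M83WJ.rep 5 [2, 6, 7] ++ [14] := rfl
      rw [e, List.map_append, List.prod_append, J2.rep_prod, pow_one]
      simp only [List.map_cons, List.map_nil, List.prod_cons, List.prod_nil, mul_one, fS, ← mul_assoc]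
      rw [mul_inv_cancel]

end

theorem fS_top {Γ : Type} [Group Γ] {σ : Γ →* Spor.Suz} (P : PCE σ) (s : Cl gS 6 →* Γ)
    (hs : ∀ h : Cl gS 6, σ (s h) = h) : Cl (fS P.ce s) 14 = ⊤ := by
  refine top_of_lift P (q := gS) (nq := 7) gS_univ.top (fun x hx => ?_) (by norm_num)
  by_cases h5 : isLet 6 x = true
  · rw [hf6 P.ce s x h5, hs]
  · have h6 := isLet_iff.1 hx
    have : x = 7 := by
      by_contra hc
      exact h5 (isLet_iff.2 ⟨h6.1, by omega⟩)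
    subst this
    exact (g7_spec P.ce s hs).2.1

/-- the relative bound -/
theorem rb7 : RB (Cl gS 6) 3 := by
  rintro Γ _ _ σ P ⟨s, hs⟩
  have hfin := fin76 gS_univ
  have b1 : Bd (Cl (fS P.ce s) 6) 251596800 := bd_of_lift s (hf6 P.ce s) (card76 gS_univ)
  have g := fS_good P.ce s hs
  have b2 : Bd (Cl (fS P.ce s) 14) (5346 * 251596800) :=
    b1.cl M83S.cert g (by decide +kernel) (by decide +kernel) (by norm_num) rfl
  rw [fS_top P s hs] at b2
  have h1 := card_ker_le P (m := 3) b2 suz_card (by norm_num) (by norm_num)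
  have h0 : 0 < Nat.card σ.ker := Nat.card_pos
  have h2 : Nat.card σ.ker ≠ 2 := by
    intro h2
    have hy : fS P.ce s 13 * fS P.ce s 13 = 1 := by
      have h3 : fS P.ce s 13 ∈ σ.ker := cen_z P.ce s hs 13 (by decide)
      have h4 : (⟨fS P.ce s 13, h3⟩ : σ.ker) ^ 2 = 1 := by rw [← h2]; exact pow_card_eq_one'
      rw [← pow_two]
      exact congrArg Subtype.val h4
    have g2 : Good (fS P.ce s) 14 M83S2.iv M83S2.RL := by
      refine ⟨g.inv, g.one, fun p hp => ?_⟩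
      have hsplit : (M83S2.RL.all fun p => M83S.RL.contains p || p == ([13, 13], 1)) = true := by decide +kernel
      simp only [List.all_eq_true, Bool.or_eq_true, List.contains_iff_mem, beq_iff_eq] at hsplit
      rcases hsplit p hp with h | rfl
      · exact g.rel p h
      · simpa using hy
    have b3 : Bd (Cl (fS P.ce s) 14) (1782 * 251596800) :=
      b1.cl M83S2.cert g2 (by decide +kernel) (by decide +kernel) (by norm_num) rfl
    rw [fS_top P s hs] at b3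
    have h1 := card_ker_le P (m := 1) b3 suz_card (by norm_num) (by norm_num)
    omega
  interval_cases h : Nat.card σ.ker
  · exact one_dvd 3
  · exact absurd rfl h2
  · exact dvd_rfl

/-- the Schur multiplier of `Suz` has order dividing six -/
theorem mb7 : MB Spor.Suz 6 := by
  obtain ⟨e, -⟩ := sub76 gS_univ
  have hfin := fin76 gS_univ
  have hs := simple76 gS_univ
  have hp : commutator ↥(Cl gS 6) = ⊤ := G24.perf_of_simple (card76 gS_univ) (by norm_num)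
  exact MB.of_rel hp (G24.mb6.equiv e) rb7

end Cfsg.Agent.MRel.Suz
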