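import Cfsg.Agent.MRel.Suz
import Cfsg.Agent.MRel.MatRep
import Cfsg.Agent.MRel.SuzMat

set_option autoImplicit false
set_option maxRecDepth 1000000

/-!
The Schur multiplier of `Suz` is cyclic of order six (owner: helper83).
-/

namespace Cfsg.Agent.MRel.SuzX

open Cfsg.Agent.CosetEnum Cfsg.Agent.CosetEnum.Suz Subgroup Mult Mat

theorem md : MD 65536 19 12 SuzMat.idr SuzMat.Ls 7 SuzT7.iv SuzMat.sc where
  hp := by norm_num
  hn := by norm_num
  hB := by norm_num
  ok := by decide +kernel
  idok := by decide +kernel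
  len := rfl
  zero := rfl
  scok := by decide +kernel
  inv := by decide +kernel
  out := rfl

/-- algebra in an abelian group -/
theorem ab_alg {A : Type*} [CommGroup A] {a b c d e f g : A} (ha : a * a = 1) (hb : b * b = 1) (hc : c * c = 1)
    (hf : f * f = 1) (hg : g * g = 1) (hab : (a * b) ^ 5 = 1) (hbc : (b * c) ^ 3 = 1) (hbf : (b * f) ^ 3 = 1)
    (hbg : (b * g) ^ 3 = 1) (hd4 : d * d * d * d = 1) (hde : d * d * e * e = 1) (hacd : a * (c * d) ^ 4 = 1)
    (hX : ((b * c * d * c * d) ^ 5 * e) ^ 3 = 1) (hde3 : (d * e) ^ 3 * (d * d) = 1) :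
    a = 1 ∧ b = 1 ∧ c = 1 ∧ d = 1 ∧ e = 1 ∧ f = 1 ∧ g = 1 := by
  have e4 : ∀ x : A, x ^ 4 = x * x * x * x := fun x => by simp only [pow_succ, pow_zero, one_mul]
  have ha1 : a = 1 := by
    have : a * (c * d) ^ 4 = a * ((c * c) * (c * c) * (d * d * d * d)) := by rw [e4]; congr 1; ac_rfl
    rw [this, hc, hd4] at hacd
    simpa using hacd
  subst ha1
  have hb1 : b = 1 := by
    have : (1 * b) ^ 5 = (b * b) * (b * b) * b := by simp only [pow_succ, pow_zero, one_mul, mul_assoc]
    rw [this, hb] at hab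
    simpa using hab
  subst hb1
  have h3 : ∀ x : A, x * x = 1 → (1 * x) ^ 3 = 1 → x = 1 := by
    intro x hx h
    have : (1 * x) ^ 3 = (x * x) * x := by simp only [pow_succ, pow_zero, one_mul]
    rw [this, hx] at h
    simpa using h
  have hc1 := h3 c hc hbc
  have hf1 := h3 f hf hbf
  have hg1 := h3 g hg hbg
  subst hc1
  have he : e = 1 := by
    have : ((1 * 1 * d * 1 * d) ^ 5 * e) ^ 3 = (d * d * d * d) ^ 7 * (d * d * e * e) * e := by
      simp only [mul_one, one_mul, pow_succ, pow_zero]; ac_rfl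
    rw [this, hd4, hde] at hX
    simpa using hX
  subst he
  have hd : d = 1 := by
    have h1 : d * d = 1 := by simpa using hde
    have : (d * 1) ^ 3 * (d * d) = (d * d) * (d * d) * d := by simp only [mul_one, one_mul, pow_succ, pow_zero]; ac_rfl
    rw [this, h1] at hde3
    simpa using hde3
  exact ⟨rfl, rfl, rfl, hd, rfl, hf1, hg1⟩

theorem w_prod {A : Type*} [Monoid A] (α : ℕ → A) (u : List ℕ) (n : ℕ) :
    ((expand (u, n)).map α).prod = ((u.map α).prod) ^ n := by
  unfold expand
  induction n with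
  | zero => simp
  | succ n ih =>
    show (((List.replicate (n + 1) u).flatten).map α).prod = _
    rw [List.replicate_succ, List.flatten_cons, List.map_append, List.prod_append, pow_succ']
    congr 1

theorem hab (x : ℕ) (hx : isLet 7 x = true) : abl md.M 7 x = 1 := by
  have h : ∀ w : List ℕ, wOK 7 w = true → (w, 1) ∈ SuzMat.sc → (w.map (abl md.M 7)).prod = 1 :=
    fun w hw hm => abl_rel hw (md.one_word hm)
  have hp : ∀ (u : List ℕ) (n : ℕ), wOK 7 (expand (u, n)) = true → (expand (u, n), 1) ∈ SuzMat.sc →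
      ((u.map (abl md.M 7)).prod) ^ n = 1 := fun u n hw hm => by
    rw [← w_prod]; exact h _ hw hm
  obtain ⟨h1, h2, h3, h4, h5, h6, h7⟩ := ab_alg (a := abl md.M 7 1) (b := abl md.M 7 2) (c := abl md.M 7 3)
    (d := abl md.M 7 4) (e := abl md.M 7 5) (f := abl md.M 7 6) (g := abl md.M 7 7)
    (by simpa using h [1, 1] (by decide) (by decide +kernel))
    (by simpa using h [2, 2] (by decide) (by decide +kernel))
    (by simpa using h [3, 3] (by decide) (by decide +kernel))
    (by simpa using h [6, 6] (by decide) (by decide +kernel))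
    (by simpa using h [7, 7] (by decide) (by decide +kernel))
    (by simpa using hp [1, 2] 5 (by decide) (by decide +kernel))
    (by simpa using hp [2, 3] 3 (by decide) (by decide +kernel))
    (by simpa using hp [2, 6] 3 (by decide) (by decide +kernel))
    (by simpa using hp [2, 7] 3 (by decide) (by decide +kernel))
    (by simpa [mul_assoc] using h [4, 4, 4, 4] (by decide) (by decide +kernel))
    (by simpa [mul_assoc] using h [4, 4, 5, 5] (by decide) (by decide +kernel))
    (by
      have := h [1, 3, 4, 3, 4, 3, 4, 3, 4] (by decide) (by decide +kernel)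
      simpa [pow_succ, mul_assoc] using this)
    (by
      have := hp [2, 3, 4, 3, 4, 2, 3, 4, 3, 4, 2, 3, 4, 3, 4, 2, 3, 4, 3, 4, 2, 3, 4, 3, 4, 5] 3 (by decide)
        (by decide +kernel)
      have e : ([2, 3, 4, 3, 4, 2, 3, 4, 3, 4, 2, 3, 4, 3, 4, 2, 3, 4, 3, 4, 2, 3, 4, 3, 4, 5] : List ℕ) =
        expand ([2, 3, 4, 3, 4], 5) ++ [5] := rfl
      rw [e, List.map_append, List.prod_append, w_prod] at this
      simpa [mul_assoc] using this)
    (by
      have := h [4, 5, 4, 5, 4, 5, 4, 4] (by decide) (by decide +kernel)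
      simpa [pow_succ, mul_assoc] using this)
  have h := isLet_iff.1 hx
  match x, h with
  | 1, _ => exact h1
  | 2, _ => exact h2
  | 3, _ => exact h3
  | 4, _ => exact h4
  | 5, _ => exact h5
  | 6, _ => exact h6
  | 7, _ => exact h7
  | (n + 8), h => omega

theorem ord12 : orderOf ((12 : ℕ) : ZMod 19) = 6 := by
  have hf : Fact (Nat.Prime 19) := ⟨by norm_num⟩
  apply orderOf_eq_of_pow_and_pow_div_prime (by norm_num) (by decide)
  intro q hq hq6
  have : q = 2 ∨ q = 3 := by
    have h1 : q ≤ 6 := Nat.le_of_dvd (by norm_num) hq6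
    interval_cases q <;> simp_all (config := { decide := true })
  rcases this with rfl | rfl
  · decide
  · decide

/-- **The Schur multiplier of `Suz`.** -/
theorem mult_Suz : HasCyclicSchurMultiplier Spor.Suz 6 := by
  have hs : IsSimpleGroup Spor.Suz := suz_simple
  have hfin : Finite Spor.Suz := Nat.finite_of_card_ne_zero (by rw [suz_card]; norm_num)
  exact md.cyclic gS_univ (by decide +kernel) hab
    (w := [1, 2, 3, 6, 1, 2, 3, 6, 1, 2, 3, 6, 1, 2, 3, 6, 1, 2, 3, 6, 2, 6, 7, 2, 6, 7, 2, 6, 7, 2, 6, 7, 2, 6, 7])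
    (c := 12) (by decide +kernel) (by decide) (by norm_num) ord12 (G24.perf_of_simple suz_card (by norm_num)) Suz.mb7

end Cfsg.Agent.MRel.SuzX
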