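import Mathlib

/-!
The field with 8 elements, with decidable arithmetic (owner: helper83).
-/

set_option autoImplicit false
set_option maxRecDepth 100000

namespace Cfsg.Agent.MRel.Sz8

/-- the field with 8 elements -/
def K8 : Type := Fin 8

instance : DecidableEq K8 := inferInstanceAs (DecidableEq (Fin 8))
instance : Fintype K8 := inferInstanceAs (Fintype (Fin 8))

/-- multiplication -/
def mulN (a b : ℕ) : ℕ := Nat.shiftRight 0x73157889d3f0cfa868356ee0467b98bcbd10fac688000000 (Nat.mul 3 (Nat.add (Nat.mul 8 a) b))

/-- decoding -/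
def dec (n : ℕ) : K8 := (⟨n % 8, Nat.mod_lt _ (by decide)⟩ : Fin 8)

/-- coding -/
def val (a : K8) : ℕ := Fin.val (show Fin 8 from a)

instance : Add K8 := ⟨fun a b => dec (Nat.xor (val a) (val b))⟩
instance : Mul K8 := ⟨fun a b => dec (mulN (val a) (val b))⟩
instance : Neg K8 := ⟨fun a => a⟩
instance : Zero K8 := ⟨dec 0⟩
instance : One K8 := ⟨dec 1⟩
instance : Inv K8 := ⟨fun a => dec (Nat.shiftRight 0x8d7d48 (Nat.mul 3 (val a)))⟩

instance : Field K8 where
  add_assoc := by decide +kernel
  zero_add := by decide +kernel
  add_zero := by decide +kernel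
  nsmul := nsmulRec
  zsmul := zsmulRec
  neg_add_cancel := by decide +kernel
  add_comm := by decide +kernel
  left_distrib := by decide +kernel
  right_distrib := by decide +kernel
  zero_mul := by decide +kernel
  mul_zero := by decide +kernel
  mul_assoc := by decide +kernel
  one_mul := by decide +kernel
  mul_one := by decide +kernel
  mul_comm := by decide +kernel
  exists_pair_ne := ⟨0, 1, by decide +kernel⟩
  mul_inv_cancel := by decide +kernel
  inv_zero := by decide +kernel
  nnqsmul := _
  qsmul := _

theorem card : Fintype.card K8 = 8 := rfl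

end Cfsg.Agent.MRel.Sz8
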