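import Cfsg.Agent.MRel.Bit2
import Cfsg.Agent.MRel.Sz8K
import Cfsg.Agent.MRel.SzC2
import Cfsg.Agent.SzLie.Order

/-!
Matrices for Sz(8) (owner: helper83).
-/

set_option autoImplicit false
set_option maxRecDepth 100000

namespace Cfsg.Agent.MRel.Sz8

open Cfsg.Lie Matrix
open Cfsg.Agent.MulX.Coh Cfsg.Agent.MRel Cfsg.Agent.MRel.Stab Cfsg.Agent.MRel.Bit2
open Cfsg.Agent.KMat (pws)

/-- the group -/
abbrev G : Type := ↥(Cfsg.Lie.Sz K8 4)

theorem hF : Fintype.card K8 = 2 ^ (2 * 1 + 1) := rfl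

theorem hE : SzLie.SzE K8 4 := SzLie.szE_of_card hF

theorem cardG : Nat.card G = 29120 := by
  rw [SzLie.card_sz hE, hF]; norm_num

instance finG : Finite G := Nat.finite_of_card_ne_zero (by rw [cardG]; norm_num)

/-- vectors -/
def vec (n : ℕ) : Fin 4 → K8 := fun i => dec (n >>> (3 * i.val))

theorem dec_add (a b : ℕ) : dec (a ^^^ b) = dec a + dec b := by
  have h : (a ^^^ b) % 8 = ((a % 8) ^^^ (b % 8)) % 8 := by
    have h1 := Nat.xor_mod_two_pow (a := a) (b := b) (n := 3)
    have h2 := Nat.xor_mod_two_pow (a := a % 8) (b := b % 8) (n := 3)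
    have e : 2 ^ 3 = 8 := rfl
    rw [e] at h1 h2
    rw [h1, h2, Nat.mod_mod, Nat.mod_mod]
  exact Fin.ext h

theorem dec_zero : dec 0 = 0 := rfl

theorem dec_inj {a b : ℕ} (h : dec a = dec b) : a % 8 = b % 8 := congrArg (fun x : K8 => Fin.val (show Fin 8 from x)) h

/-- the action on vectors -/
noncomputable def A : G →* AddMonoid.End (Fin 4 → K8) where
  toFun g := { toFun := fun v => ((g : GL (Fin 4) K8) : Matrix (Fin 4) (Fin 4) K8) *ᵥ v
               map_zero' := Matrix.mulVec_zero _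
               map_add' := fun v w => Matrix.mulVec_add _ v w }
  map_one' := by
    ext1 v
    exact Matrix.one_mulVec v
  map_mul' g h := by
    ext1 v
    exact (Matrix.mulVec_mulVec v _ _).symm

theorem A_apply (g : G) (v : Fin 4 → K8) : A g v = ((g : GL (Fin 4) K8) : Matrix (Fin 4) (Fin 4) K8) *ᵥ v := rfl

theorem vec_unit : ∀ i : Fin 4, vec (2 ^ (3 * i.val)) = Pi.single i 1 := by decide +kernel

theorem B : BR A 12 vec where
  xor a b := by
    funext i
    show dec ((a ^^^ b) >>> (3 * i.val)) = dec _ + dec _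
    rw [Nat.shiftRight_xor_distrib, dec_add]
  top m := by
    funext i
    have h : (2 ^ 12 * m) >>> (3 * i.val) % 8 = 0 := by
      rw [Nat.shiftRight_eq_div_pow]
      obtain ⟨i, hi⟩ := i
      interval_cases i <;> simp only [Nat.mul_zero, Nat.mul_one, Nat.reduceMul, Nat.reducePow] <;> omega
    exact Fin.ext h
  inj a b ha hb h := by
    have h0 := dec_inj (congrFun h 0)
    have h1 := dec_inj (congrFun h 1)
    have h2 := dec_inj (congrFun h 2)
    have h3 := dec_inj (congrFun h 3)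
    simp only [Nat.shiftRight_eq_div_pow] at h0 h1 h2 h3
    have e0 : (3 * (0 : Fin 4).val) = 0 := rfl
    have e1 : (3 * (1 : Fin 4).val) = 3 := rfl
    have e2 : (3 * (2 : Fin 4).val) = 6 := rfl
    have e3 : (3 * (3 : Fin 4).val) = 9 := rfl
    rw [e0] at h0
    rw [e1] at h1
    rw [e2] at h2
    rw [e3] at h3
    norm_num at h0 h1 h2 h3 ha hb
    omega
  faith g h hk := by
    apply Subtype.ext
    apply Units.ext
    ext i j
    have h1 := hk (3 * j.val) (by have := j.2; omega)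
    rw [vec_unit, A_apply, A_apply] at h1
    have h2 := congrFun h1 i
    rw [Matrix.mulVec_single_one, Matrix.mulVec_single_one] at h2
    exact h2

/-- columns test -/
def chk (M : Matrix (Fin 4) (Fin 4) K8) (L : List ℕ) : Bool :=
  Nat.beq L.length 12 && (List.range 12).all fun k => decide (M *ᵥ vec (2 ^ k) = vec (L.getD k 0))

theorem rep_chk {g : G} {L : List ℕ} (h : chk ((g : GL (Fin 4) K8) : Matrix (Fin 4) (Fin 4) K8) L = true) : Rep A vec g L := by
  unfold chk at h
  rw [Bool.and_eq_true] at h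
  exact B.rep_of (Nat.eq_of_beq_eq_true h.1) fun k hk =>
    of_decide_eq_true ((List.all_eq_true.1 h.2) k (List.mem_range.2 hk))

/-- identity -/
def I : List ℕ := [1, 2, 4, 8, 16, 32, 64, 128, 256, 512, 1024, 2048]

theorem hI : idB I 12 = true := by decide +kernel

/-- matrices -/
def TB : List (List ℕ) := [[1, 2, 4, 9, 18, 36, 73, 146, 292, 577, 1154, 2308], [1, 2, 4, 10, 20, 35, 119, 189, 297, 645, 1281, 2242], [1, 2, 4, 12, 19, 38, 83, 166, 287, 775, 1221, 2433], [1, 2, 4, 8, 16, 32, 65, 130, 260, 521, 1042, 2084], [1, 2, 4, 8, 16, 32, 66, 132, 259, 534, 1063, 2077], [1, 2, 4, 8, 16, 32, 68, 131, 262, 546, 1052, 2099], [7, 5, 1, 16, 32, 24, 320, 64, 128, 2048, 1536, 3072], [512, 1024, 2048, 64, 128, 256, 8, 16, 32, 1, 2, 4]]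

/-- matrices -/
def TM : List (List ℕ) := [[1, 2, 4, 8, 16, 32, 64, 128, 256, 512, 1024, 2048], [3225, 3890, 2812, 1030, 2055, 1541, 3292, 4019, 3070, 2740, 827, 1262], [3253, 3897, 2794, 1050, 2100, 1595, 1566, 3127, 3645, 932, 1499, 2422], [1, 2, 4, 8, 16, 32, 64, 128, 256, 512, 1024, 2048], [1, 2, 4, 8, 16, 32, 64, 128, 256, 512, 1024, 2048], [1804, 3283, 4006, 2449, 2018, 3420, 670, 1335, 2301, 2161, 1722, 3372], [1, 2, 4, 13, 17, 34, 89, 178, 316, 878, 1103, 2197], [1, 2, 4, 13, 17, 34, 93, 177, 314, 846, 1111, 2213]]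

/-- the basic letters -/
noncomputable def base : ℕ → G
  | 0 => SzLie.szQ hE (dec 1) (dec 1)
  | 1 => SzLie.szQ hE (dec 2) (dec 7)
  | 2 => SzLie.szQ hE (dec 4) (dec 3)
  | 3 => SzLie.szQ hE 0 (dec 1)
  | 4 => SzLie.szQ hE 0 (dec 2)
  | 5 => SzLie.szQ hE 0 (dec 4)
  | 6 => SzLie.szHt hE (Units.mk0 (dec 2) (by decide +kernel))
  | 7 => SzLie.szWt hE
  | _ => 1

theorem c0 : chk (SzLie.szQMat 4 (dec 1) (dec 1)) (TB.getD 0 I) = true := by decide +kernel
theorem c1 : chk (SzLie.szQMat 4 (dec 2) (dec 7)) (TB.getD 1 I) = true := by decide +kernel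
theorem c2 : chk (SzLie.szQMat 4 (dec 4) (dec 3)) (TB.getD 2 I) = true := by decide +kernel
theorem c3 : chk (SzLie.szQMat 4 0 (dec 1)) (TB.getD 3 I) = true := by decide +kernel
theorem c4 : chk (SzLie.szQMat 4 0 (dec 2)) (TB.getD 4 I) = true := by decide +kernel
theorem c5 : chk (SzLie.szQMat 4 0 (dec 4)) (TB.getD 5 I) = true := by decide +kernel
theorem c6 : chk (H39.szHMat 4 (dec 2)) (TB.getD 6 I) = true := by decide +kernel
theorem c7 : chk (H39.szWMat K8) (TB.getD 7 I) = true := by decide +kernel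

theorem rep_base : ∀ i, Rep A vec (base i) (TB.getD i I)
  | 0 => rep_chk c0
  | 1 => rep_chk c1
  | 2 => rep_chk c2
  | 3 => rep_chk c3
  | 4 => rep_chk c4
  | 5 => rep_chk c5
  | 6 => rep_chk c6
  | 7 => rep_chk c7
  | (_ + 8) => B.rep_one hI

theorem rl2 : (SzC2.rules.all fun q => pathB.beqL' (wF I TB q.1) (wF I TB q.2)) = true := by decide +kernel

theorem d2 : dsB I TB 12 512 (pws 2 [0, 1, 2, 3, 4, 5]) [] = true := by decide +kernel

theorem card2 : 2 ^ 6 ≤ Nat.card ↥(Subgroup.closure (base '' {i | i < 6})) := by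
  have h2 : 2 ^ 6 * Nat.card (⊥ : Subgroup G) ≤ Nat.card ↥(Subgroup.closure (base '' {i | i < 6})) := by
    refine card_step (p := 2) (f := base) bot_le (l := [0, 1, 2, 3, 4, 5]) ?_ (fun g => A g (vec 512)) ?_ (B.nodup_act rep_base d2)
    · intro x hx
      refine Subgroup.subset_closure ⟨x, ?_, rfl⟩
      simp only [List.mem_cons, List.not_mem_nil, or_false] at hx
      show x < 6
      omega
    · intro g h hh
      rw [Subgroup.mem_bot.1 hh, mul_one]
  rwa [Subgroup.card_bot, mul_one] at h2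

theorem pb2 : PB G 2 4 :=
  PB_two Nat.prime_two base SzC2.good rfl (B.holds_of hI rep_base rl2) SzC2.pc_ok card2 cardG (by norm_num) SzC2.ogood
    (by decide +kernel)

/-- words for the letters of the covering presentation -/
def Mw : List (List ℕ) := [[], [3, 5, 7, 4, 7, 3], [3, 7, 4, 7, 3, 5], [], [], [0, 2, 4, 7, 0, 6, 3, 6], [0, 2, 3], [0, 2, 3, 5]]

/-- letters of the covering presentation -/
noncomputable def M (x : ℕ) : G := Cfsg.Agent.MulX.Coh.val base (Mw.getD x [])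

theorem okM : ((List.range Mw.length).all fun i => pathB.beqL' (wF I TB (Mw.getD i [])) (TM.getD i I)) = true := by decide +kernel

theorem rep_M (i : ℕ) : Rep A vec (M i) (TM.getD i I) := B.rep_letters (ws := Mw) (T' := TM) hI rep_base rfl okM i

/-- words for the basic letters -/
def bw : List (List ℕ) := [[1, 5, 7, 1, 5, 6, 2, 2, 2], [5, 1, 1, 6, 1, 6, 2, 7, 1], [5, 1, 1, 6, 1, 5, 7, 1, 1], [5, 6, 5, 1, 6, 1, 5, 1, 7, 5], [6, 6, 1, 5, 2], [6, 6], [2, 6, 1, 1, 5, 1, 1, 1], [5, 1, 5, 6, 2, 5, 6, 2, 5]]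

theorem okB : ((List.range 8).all fun i => pathB.beqL' (wF I TM (bw.getD i [])) (TB.getD i I)) = true := by decide +kernel

theorem base_eq {i : ℕ} (hi : i < 8) : base i = Cfsg.Agent.MulX.Coh.val M (bw.getD i []) := by
  have h1 := (List.all_eq_true.1 okB) i (List.mem_range.2 hi)
  have h2 := B.rep_val hI rep_M (bw.getD i [])
  rw [beqL'_spec h1] at h2
  exact B.eq (rep_base i) h2

/-- word of order 5 -/
def w5 : List ℕ := [5, 6, 5, 6, 5, 7]
/-- word of order 7 -/
def w7 : List ℕ := [5, 7]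
/-- word of order 13 -/
def w13 : List ℕ := [1]

theorem o5 : ordB I TM 12 5 1 w5 = true := by decide +kernel
theorem o7 : ordB I TM 12 7 1 w7 = true := by decide +kernel
theorem o13 : ordB I TM 12 13 1 w13 = true := by decide +kernel

theorem ord5 : orderOf (Cfsg.Agent.MulX.Coh.val M w5) = 5 := B.orderOf_word hI rep_M (by norm_num) o5
theorem ord7 : orderOf (Cfsg.Agent.MulX.Coh.val M w7) = 7 := B.orderOf_word hI rep_M (by norm_num) o7
theorem ord13 : orderOf (Cfsg.Agent.MulX.Coh.val M w13) = 13 := B.orderOf_word hI rep_M (by norm_num) o13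

theorem pb5 : PB G 5 4 := PB.of_cyclic (by norm_num) (cyc_index ord5 (by norm_num) cardG (by norm_num)) 4
theorem pb7 : PB G 7 4 := PB.of_cyclic (by norm_num) (cyc_index ord7 (by norm_num) cardG (by norm_num)) 4
theorem pb13 : PB G 13 4 := PB.of_cyclic (by norm_num) (cyc_index ord13 (by norm_num) cardG (by norm_num)) 4

theorem mb : MB G 4 := by
  apply MB.of_PB
  intro p hp
  by_cases h : p ∣ Nat.card G
  · rw [cardG] at h
    have h2 : p ∣ 2 ^ 6 * (5 * (7 * 13)) := by
      have e : 29120 = 2 ^ 6 * (5 * (7 * 13)) := by norm_num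
      rwa [e] at h
    rcases hp.dvd_mul.1 h2 with h | h
    · rw [(Nat.prime_dvd_prime_iff_eq hp Nat.prime_two).1 (hp.dvd_of_dvd_pow h)]
      exact pb2
    rcases hp.dvd_mul.1 h with h | h
    · rw [(Nat.prime_dvd_prime_iff_eq hp (by norm_num)).1 h]
      exact pb5
    rcases hp.dvd_mul.1 h with h | h
    · rw [(Nat.prime_dvd_prime_iff_eq hp (by norm_num)).1 h]
      exact pb7
    · rw [(Nat.prime_dvd_prime_iff_eq hp (by norm_num)).1 h]
      exact pb13
  · exact PB.of_not_card hp h 4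

end Cfsg.Agent.MRel.Sz8
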