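import Cfsg.Agent.MRel.StabH
import Cfsg.Agent.CosetEnum.Orb

/-!
Rules of subgroups of groups acting on kernel-checked tables (owner: helper83).
-/

set_option autoImplicit false

namespace Cfsg.Agent.MRel.TM

open Cfsg.Agent.MRel.Stab Cfsg.Agent.CosetEnum

/-- expansion of a word -/
def ex (W : List (List ℕ)) : List ℕ → List ℕ
  | [] => []
  | i :: w => W.getD i [] ++ ex W w

theorem val_ex {G : Type*} [Group G] (g : ℕ → G) (W : List (List ℕ)) (w : List ℕ) :
    MulX.Coh.val g (ex W w) = MulX.Coh.val (fun i => MulX.Coh.val g (W.getD i [])) w := by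
  induction w with
  | nil => rfl
  | cons i w ih =>
    show MulX.Coh.val g (W.getD i [] ++ ex W w) = _
    rw [MulX.Coh.val_append, MulX.Coh.val_cons, ih]

theorem ex_mem {W : List (List ℕ)} {L : List ℕ} (hW : ∀ w ∈ W, ∀ x ∈ w, x ∈ L) (w : List ℕ) : ∀ x ∈ ex W w, x ∈ L := by
  induction w with
  | nil => intro x hx; cases hx
  | cons i w ih =>
    intro x hx
    have h : x ∈ W.getD i [] ++ ex W w := hx
    rcases List.mem_append.1 h with h | h
    · by_cases hi : i < W.length
      · rw [List.getD_eq_getElem _ _ hi] at h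
        exact hW _ (List.getElem_mem hi) x h
      · rw [List.getD_eq_default _ _ (not_lt.mp hi)] at h
        cases h
    · exact ih x h

/-- two words agree on the base -/
noncomputable def eqB (P : Par) (bs w w' : List ℕ) : Bool :=
  allL (fun b => force (actW P w b) fun x => force (actW P w' b) fun y => Nat.beq x y) bs

/-- rules hold on the base -/
noncomputable def rulB (P : Par) (bs : List ℕ) (W : List (List ℕ)) (rules : List (List ℕ × List ℕ)) : Bool :=
  @List.rec (List ℕ × List ℕ) (fun _ => Bool) true (fun q _ ih => @Bool.rec (fun _ => Bool) false ih (eqB P bs (ex W q.1) (ex W q.2))) rules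

theorem rulB_sound {P : Par} {bs : List ℕ} {W : List (List ℕ)} : ∀ {rules : List (List ℕ × List ℕ)},
    rulB P bs W rules = true → ∀ q ∈ rules, eqB P bs (ex W q.1) (ex W q.2) = true
  | [], _, q, hq => by cases hq
  | p :: rules, h, q, hq => by
    have h1 : @Bool.rec (fun _ => Bool) false (rulB P bs W rules) (eqB P bs (ex W p.1) (ex W p.2)) = true := h
    cases hb : eqB P bs (ex W p.1) (ex W p.2) with
    | false => rw [hb] at h1; cases h1
    | true =>
      rw [hb] at h1
      rcases List.mem_cons.1 hq with rfl | hq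
      · exact hb
      · exact rulB_sound h1 q hq

/-- images of a point under words, without repetitions -/
noncomputable def dsT (P : Par) (W : List (List ℕ)) (b : ℕ) (ws : List (List ℕ)) : List ℕ → Bool :=
  @List.rec (List ℕ) (fun _ => List ℕ → Bool) Cfsg.Agent.KMat.ndB
    (fun w _ ih acc => force (actW P (ex W w) b) fun x => ih (x :: acc)) ws

theorem dsT_spec {P : Par} {W : List (List ℕ)} {b : ℕ} : ∀ (ws : List (List ℕ)) (acc : List ℕ), dsT P W b ws acc = true →
    ((ws.map fun w => actW P (ex W w) b).reverse ++ acc).Nodup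
  | [], acc, h => by simpa using Cfsg.Agent.KMat.ndB_sound h
  | w :: ws, acc, h => by
    have h1 : (force (actW P (ex W w) b) fun x => dsT P W b ws (x :: acc)) = true := h
    rw [force_eq] at h1
    have h2 := dsT_spec ws _ h1
    rw [List.map_cons, List.reverse_cons, List.append_assoc]
    exact h2

theorem val_inv' {G : Type*} [Group G] (g : ℕ → G) (w : List ℕ) :
    CosetEnum.val (fun x => (g x)⁻¹) w = (MulX.Coh.val g w)⁻¹ := val_inv w

/-- a table action of `G` with a base -/
def TB {G : Type*} [Group G] (g : ℕ → G) (P : Par) (lets bs : List ℕ) : Prop :=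
  ∃ A : MulAction G (Fin P.m), @Acts G _ P A g lets ∧ (∀ b ∈ bs, b < P.m) ∧
    ∀ y : G, (∀ b ∈ bs, ∀ c : Fin P.m, (c : ℕ) = b → A.smul y c = c) → y = 1

section

variable {G : Type*} [Group G] {g : ℕ → G} {P : Par} {lets bs : List ℕ} (T : TB g P lets bs)

include T

theorem TB.eq {w w' : List ℕ} (hw : ∀ x ∈ w, x ∈ lets) (hw' : ∀ x ∈ w', x ∈ lets) (h : eqB P bs w w' = true) :
    MulX.Coh.val g w = MulX.Coh.val g w' := by
  obtain ⟨A, hA, hb, hT⟩ := T
  have key : (MulX.Coh.val g w') * (MulX.Coh.val g w)⁻¹ = 1 := by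
    apply hT
    intro b hbm c hc
    have h1 := allL_sound h b hbm
    rw [force_eq, force_eq] at h1
    have h2 := Nat.eq_of_beq_eq_true h1
    have h3 := hA.word hw c
    have h4 := hA.word hw' c
    rw [val_inv', hc] at h3 h4
    have h5 : (MulX.Coh.val g w)⁻¹ • c = (MulX.Coh.val g w')⁻¹ • c := Fin.ext (by rw [h3, h4, h2])
    show ((MulX.Coh.val g w') * (MulX.Coh.val g w)⁻¹) • c = c
    rw [mul_smul, h5, ← mul_smul, mul_inv_cancel, one_smul]
  exact (mul_inv_eq_one.1 key).symm

theorem TB.holds {W : List (List ℕ)} (hW : (W.all fun w => w.all fun x => lets.contains x) = true)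
    {rules : List (List ℕ × List ℕ)} (hr : rulB P bs W rules = true) :
    Holds (fun i => MulX.Coh.val g (W.getD i [])) rules := by
  intro q hq
  have hm : ∀ w ∈ W, ∀ x ∈ w, x ∈ lets := by
    intro w hw x hx
    have := (List.all_eq_true.1 ((List.all_eq_true.1 hW) w hw)) x hx
    simpa using this
  rw [← val_ex, ← val_ex]
  exact T.eq (ex_mem hm _) (ex_mem hm _) (rulB_sound hr q hq)

theorem TB.card_closure [Finite G] {W : List (List ℕ)} (hW : (W.all fun w => w.all fun x => lets.contains x) = true)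
    {p n b : ℕ} (hb : b < P.m) (hd : dsT P W b (Cfsg.Agent.KMat.pws p (List.range n)) [] = true) :
    p ^ n ≤ Nat.card ↥(Subgroup.closure ((fun i => MulX.Coh.val g (W.getD i [])) '' {i | i < n})) := by
  obtain ⟨A, hA, _, _⟩ := T
  have hm : ∀ w ∈ W, ∀ x ∈ w, x ∈ lets := by
    intro w hw x hx
    have := (List.all_eq_true.1 ((List.all_eq_true.1 hW) w hw)) x hx
    simpa using this
  set f := fun i => MulX.Coh.val g (W.getD i []) with hf
  have h1 := card_step (p := p) (f := f) (K := (⊥ : Subgroup G)) (L := Subgroup.closure (f '' {i | i < n})) bot_le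
    (l := List.range n) (fun x hx => Subgroup.subset_closure ⟨x, List.mem_range.1 hx, rfl⟩)
    (X := ℕ) (fun y => ((y⁻¹ • (⟨b, hb⟩ : Fin P.m) : Fin P.m) : ℕ)) (by
      intro y h hh
      rw [Subgroup.mem_bot] at hh
      rw [hh, mul_one]) (by
      have h2 := dsT_spec _ _ hd
      rw [List.append_nil, List.nodup_reverse] at h2
      have e : ((Cfsg.Agent.KMat.pws p (List.range n)).map fun w =>
          (((MulX.Coh.val f w)⁻¹ • (⟨b, hb⟩ : Fin P.m) : Fin P.m) : ℕ)) =
          (Cfsg.Agent.KMat.pws p (List.range n)).map fun w => actW P (ex W w) b := by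
        apply List.map_congr_left
        intro w _
        rw [← val_ex, ← val_inv', hA.word (ex_mem hm w)]
      rw [e]
      exact h2)
  rw [List.length_range, Subgroup.card_bot, mul_one] at h1
  exact h1

theorem TB.orderOf_word {p b : ℕ} {w : List ℕ} (hp : p.Prime) (hb : b < P.m)
    (hw : (w.all fun x => lets.contains x) = true) (hpw : eqB P bs (List.replicate p w).flatten [] = true)
    (hne : Nat.beq (actW P w b) b = false) : orderOf (MulX.Coh.val g w) = p := by
  have := Fact.mk hp
  have hw' : ∀ x ∈ w, x ∈ lets := fun x hx => by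
    have := (List.all_eq_true.1 hw) x hx
    simpa using this
  have hrep : ∀ k : ℕ, MulX.Coh.val g (List.replicate k w).flatten = (MulX.Coh.val g w) ^ k := by
    intro k
    induction k with
    | zero => rw [pow_zero]; rfl
    | succ k ih => rw [List.replicate_succ, List.flatten_cons, MulX.Coh.val_append, ih, pow_succ']
  apply orderOf_eq_prime
  · rw [← hrep]
    refine (T.eq (w' := []) ?_ (by simp) hpw).trans rfl
    intro x hx
    rw [List.mem_flatten] at hx
    obtain ⟨u, hu, hxu⟩ := hx
    rw [List.mem_replicate] at hu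
    rw [hu.2] at hxu
    exact hw' x hxu
  · intro h
    obtain ⟨A, hA, _, _⟩ := T
    have h3 := hA.word hw' ⟨b, hb⟩
    rw [val_inv', h, inv_one, one_smul] at h3
    have h4 : b = actW P w b := h3
    rw [← h4, Nat.beq_refl] at hne
    cases hne

end

section

variable {G : Type*} [Group G] {P : Par} [MulAction G (Fin P.m)]

/-- one step of a stabiliser chain -/
theorem card_fixF [Finite G] (K : Subgroup G) (F : List ℕ) (b : Fin P.m) :
    Nat.card (fixF (P := P) K F) =
      (MulAction.orbit (fixF (P := P) K F) b).ncard * Nat.card (fixF (P := P) K ((b : ℕ) :: F)) := by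
  have h1 := (MulAction.stabilizer (fixF (P := P) K F) b).card_mul_index
  rw [MulAction.index_stabilizer] at h1
  have h2 : Nat.card (MulAction.stabilizer (fixF (P := P) K F) b) = Nat.card (fixF (P := P) K ((b : ℕ) :: F)) := by
    apply Nat.card_congr
    refine ⟨fun k => ⟨(k : fixF (P := P) K F), ?_⟩, fun k => ⟨⟨k, ?_⟩, ?_⟩, fun k => rfl, fun k => rfl⟩
    · refine ⟨(k : fixF (P := P) K F).2.1, fun c hc => ?_⟩
      rcases List.mem_cons.1 hc with hc | hc
      · have : c = b := Fin.ext hc
        rw [this]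
        exact k.2
      · exact (k : fixF (P := P) K F).2.2 c hc
    · exact ⟨k.2.1, fun c hc => k.2.2 c (List.mem_cons_of_mem _ hc)⟩
    · exact k.2.2 b (by simp)
  rw [← h1, h2, mul_comm]

end

/-- A base of three points from a level: the third point is in a regular orbit of the stabiliser of two points. -/
theorem TB.of_lvl {G : Type} [Group G] [Finite G] {g : ℕ → G} {ng k : ℕ} {l : List (ℕ × ℕ)} {P : Par}
    {lets bs : List ℕ} (L : Lvl g ng l lets P k bs) (hinv : ∀ x, g (ivL l x) = (g x)⁻¹) {lo hi b : ℕ} (hp : (lo, hi) ∈ pairs (1 :: bs)) (hb : b < P.m)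
    {N : ℕ} (hN : Nat.card (Cl g k) = (hi - lo) * N) {letsk : List ℕ} (hk : subB k l letsk = true)
    {ws : List ℕ} (hws : lvB P letsk [lo, 0] b ws 0 = true) (hlen : ws.length = N) : TB g P lets [0, lo, b] := by
  have hpos := L.pos
  obtain ⟨A, letsk', cw, h1, h2, h3, h3k, h4, h5, h6, h7⟩ := L.ex
  obtain ⟨h8, h9, h10⟩ := h5.pairs _ hp
  have hlo : lo < P.m := h8.trans_le h9
  refine ⟨A, h3, ?_, ?_⟩
  · intro c hc
    simp only [List.mem_cons, List.not_mem_nil, or_false] at hc
    rcases hc with rfl | rfl | rfl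
    · omega
    · exact hlo
    · exact hb
  have hmemk : ∀ x ∈ letsk, x ∈ letsk' := fun x hx => (subB_mem h2).2 ((subB_mem hk).1 hx)
  have h3kk : Acts G P g letsk := h3k.mono hmemk
  have h11 := orbC_sound h3k (subB_inv hinv h2) h9 h8 h10
  rw [subB_ClL h2] at h11
  set K := Cl g k with hK
  have e0 : fixF (P := P) K [] = K := by
    ext y
    exact ⟨fun h => h.1, fun h => ⟨h, fun c hc => by cases hc⟩⟩
  have c1 := card_fixF (P := P) K [] ⟨lo, hlo⟩
  rw [e0, h11] at c1
  have hnc : ({i : Fin P.m | lo ≤ (i : ℕ) ∧ (i : ℕ) < hi}).ncard = hi - lo := ncard_interval P h9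
  rw [hnc, hN] at c1
  have hpos2 : 0 < hi - lo := by omega
  have c2 : N = Nat.card (fixF (P := P) K [lo]) := Nat.eq_of_mul_eq_mul_left hpos2 c1
  have c3 := card_fixF (P := P) K [lo] ⟨b, hb⟩
  obtain ⟨S, hS, hS'⟩ := lvB_sound (b := ⟨b, hb⟩) h3kk hws
  have h12 : S.card ≤ (MulAction.orbit (fixF (P := P) K [lo]) (⟨b, hb⟩ : Fin P.m)).ncard := by
    rw [← Set.ncard_coe_finset]
    apply Set.ncard_le_ncard _ (Set.toFinite _)
    intro j hj
    obtain ⟨_, y, hy, hyb, hyF⟩ := hS' j hj
    have hyK : y ∈ K := by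
      have : Subgroup.closure (g '' {x | x ∈ letsk}) = Cl g k := subB_ClL hk
      rw [hK, ← this]; exact hy
    exact ⟨⟨y, hyK, fun c hc => hyF c (by
      rw [List.mem_singleton] at hc
      rw [hc]; simp)⟩, hyb⟩
  rw [hS, hlen] at h12
  have hNpos : 0 < N := by
    rw [c2]; exact Nat.card_pos
  have c4 : Nat.card (fixF (P := P) K [b, lo]) ≤ 1 := by
    by_contra hcon
    have h5 : N * 2 ≤ Nat.card (fixF (P := P) K [lo]) := by
      rw [c3]
      exact Nat.mul_le_mul h12 (by
        show 2 ≤ Nat.card (fixF (P := P) K [b, lo])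
        omega)
    omega
  intro y hy
  have hy0 : y • (⟨0, by omega⟩ : Fin P.m) = ⟨0, by omega⟩ := hy 0 (by simp) ⟨0, by omega⟩ rfl
  have hyK : y ∈ K := by
    rw [← h7, MulAction.mem_stabilizer_iff]
    exact hy0
  have hyF : y ∈ fixF (P := P) K [b, lo] := by
    refine ⟨hyK, fun c hc => ?_⟩
    simp only [List.mem_cons, List.not_mem_nil, or_false] at hc
    rcases hc with hc | hc
    · exact hy b (by simp) c hc
    · exact hy lo (by simp) c hc
  rw [Finite.card_le_one_iff_subsingleton] at c4
  have h5 := @Subsingleton.elim _ c4 (⟨y, hyF⟩ : fixF (P := P) K [b, lo]) 1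
  exact congrArg Subtype.val h5

end Cfsg.Agent.MRel.TM
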