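import Cfsg.Agent.MRel.StabH

/-! Certificate for the p-part of a Schur multiplier (generated; owner: helper83). -/

set_option autoImplicit false
set_option maxRecDepth 100000

namespace Cfsg.Agent.MRel.TitsC3

open Cfsg.Agent.MRel.Stab Cfsg.Agent.MulX.Coh

/-- rules -/
def rules : List (List ℕ × List ℕ) := [([0, 0, 0], []),
  ([1, 0], [0, 1, 2]),
  ([2, 0], [0, 2]),
  ([1, 1, 1], []),
  ([2, 1], [1, 2]),
  ([2, 2, 2], []),
  ([3, 0], [0, 3]),
  ([3, 1], [0, 1, 1, 2, 3]),
  ([3, 2], [2, 2, 3]),
  ([4, 0], [0, 0, 4]),
  ([4, 1], [1, 1, 4]),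
  ([4, 2], [2, 4])]

/-- paths -/
def paths0 : List (List ℕ × List Step) := [([3, 2, 2, 2], [(1, 5, false), (0, 5, true), (1, 8, true), (0, 5, true), (2, 8, true), (0, 8, true)]),
  ([4, 0, 0, 0], [(1, 0, false), (0, 0, true), (1, 9, true), (0, 0, true), (2, 9, true), (0, 9, true)]),
  ([4, 1, 1, 1], [(1, 3, false), (0, 3, true), (1, 10, true), (0, 3, true), (2, 10, true), (0, 10, true)]),
  ([3, 2, 0], [(1, 2, false), (0, 6, false), (1, 8, false), (0, 2, true), (1, 2, true), (2, 6, true), (0, 8, true)]),
  ([4, 2, 1], [(1, 4, false), (0, 10, false), (2, 11, false), (1, 4, true), (0, 4, true), (1, 10, true), (0, 11, true)]),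
  ([3, 1, 0], [(1, 1, false), (0, 6, false), (1, 7, false), (5, 8, false), (3, 4, true), (1, 1, true), (2, 1, true), (3, 2, true), (4, 6, true), (0, 7, true)]),
  ([4, 1, 0], [(1, 1, false), (0, 9, false), (2, 10, false), (4, 11, false), (4, 5, true), (3, 4, true), (1, 1, true), (2, 1, true), (3, 2, true), (4, 2, true), (2, 4, true), (0, 1, true), (1, 1, true), (2, 9, true), (0, 10, true)])]

/-- rows -/
def rows0 : List ℕ := [0x60000000001400000000000000000,
  0x180000000000000000000000000000005,
  0x600000000000000000000000140000000000,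
  0x30000003000000000000050000000,
  0xc00300000000000000000000500000000000000,
  0x1000c003000000200000020014000,
  0x4003000c0000000000000800400000040024000]

/-- rows -/
def rows : List ℕ := rows0

/-- the certificate -/
def D : Cert where
  b := 14
  m := 3
  n := 12
  ns := 6
  rules := rules
  M := 45
  rows := rows
  gauge := [0,
    0,
    0x4000,
    0,
    0]
  prm := []
  ords := []
  certs := [(0x20, 0),
    (0, 0),
    (0x2000, 0),
    (0x200, 0),
    (0x20000, 0),
    (2, 0)]
  ocerts := []

theorem path0 : Rows D.b D.m D.n D.M D.rules rows0 := rowsB_spec (ps := paths0) (by decide +kernel)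

theorem tgt_ok : (List.range D.ns).all D.tgtB = true := by decide +kernel

theorem good : D.Good where
  m1 := by decide
  nsn := by decide +kernel
  rows := path0
  gau := by decide +kernel
  prm := by decide +kernel
  bnd := by decide +kernel
  tgt := fun r hr => (List.all_eq_true.1 tgt_ok) r (List.mem_range.2 hr)
  ord := fun j hj => absurd hj (Nat.not_lt_zero j)

theorem pc_ok : pcB 3 3 D.ns D.rules = true := by decide +kernel

end Cfsg.Agent.MRel.TitsC3
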