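import Cfsg.Agent.MRel.StabH

/-! Certificate for the p-part of a Schur multiplier (generated; owner: helper83). -/

set_option autoImplicit false
set_option maxRecDepth 100000

namespace Cfsg.Agent.MRel.TitsC5

open Cfsg.Agent.MRel.Stab Cfsg.Agent.MulX.Coh

/-- rules -/
def rules : List (List ℕ × List ℕ) := [([0, 0, 0, 0, 0], []),
  ([1, 0], [0, 1]),
  ([1, 1, 1, 1, 1], []),
  ([2, 0], [0, 0, 2]),
  ([2, 1], [1, 1, 2])]

/-- paths -/
def paths0 : List (List ℕ × List Step) := [([2, 0, 0, 0, 0, 0], [(1, 0, false), (0, 0, true), (3, 3, true), (1, 3, true), (0, 0, true), (4, 3, true), (2, 3, true), (0, 3, true)]),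
  ([2, 1, 1, 1, 1, 1], [(1, 2, false), (0, 2, true), (3, 4, true), (1, 4, true), (0, 2, true), (4, 4, true), (2, 4, true), (0, 4, true)]),
  ([2, 1, 0], [(1, 1, false), (0, 3, false), (2, 4, false), (1, 1, true), (2, 1, true), (0, 1, true), (1, 1, true), (2, 3, true), (0, 4, true)])]

/-- rows -/
def rows0 : List ℕ := [0x14000000009,
  0x14000009000000,
  0x5005000011000]

/-- rows -/
def rows : List ℕ := rows0

/-- the certificate -/
def D : Cert where
  b := 12
  m := 5
  n := 5
  ns := 3
  rules := rules
  M := 45
  rows := rows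
  gauge := [0,
    0,
    0]
  prm := []
  ords := []
  certs := [(4, 0),
    (0x300, 0),
    (0x40, 0)]
  ocerts := []

theorem path0 : Rows D.b D.m D.n D.M D.rules rows0 := rowsB_spec (ps := paths0) (by decide +kernel)

theorem tgt_ok : (List.range D.ns).all D.tgtB = true := by decide +kernel

theorem good : D.Good where
  m1 := by decide
  nsn := by decide +kernel
  rows := path0
  gau := by decide +kernel
  prm := by decide +kernel
  bnd := by decide +kernel
  tgt := fun r hr => (List.all_eq_true.1 tgt_ok) r (List.mem_range.2 hr)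
  ord := fun j hj => absurd hj (Nat.not_lt_zero j)

theorem pc_ok : pcB 5 2 D.ns D.rules = true := by decide +kernel

end Cfsg.Agent.MRel.TitsC5
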