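import Cfsg.Agent.MRel.TitsC2
import Cfsg.Agent.MRel.TitsC3
import Cfsg.Agent.MRel.TitsC5
import Cfsg.Agent.Tits2T.Fin
import Cfsg.Agent.MRel.Proj

/-!
The Schur multiplier of the Tits group is trivial (owner: helper83).
-/

set_option autoImplicit false
set_option maxRecDepth 100000

namespace Cfsg.Agent.MRel.Tits

open Cfsg.Lie Cfsg.Agent.Chev Cfsg.Agent.Tw4 Cfsg.Agent.ChevGrp Cfsg.Agent.ChevTw Cfsg.Agent.Tw3 Matrix Cfsg.Agent.H11.Bit
open Cfsg.Agent.MulX.Coh Cfsg.Agent.MRel Cfsg.Agent.MRel.Stab Cfsg.Agent.Tits2T
open Cfsg.Agent.KMat (pws)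

/-- forced product with a vector -/
def appF : List ℕ → ℕ → ℕ → ℕ
  | [], _, acc => acc
  | c :: L, m, acc => Golay.fz (Nat.shiftRight m 1) fun m' => Golay.fz (Nat.xor (Nat.mul (Nat.land m 1) c) acc) fun a => appF L m' a

theorem appF_eq : ∀ (L : List ℕ) (m acc : ℕ), appF L m acc = Nat.xor (appB L m) acc := by
  intro L
  induction L with
  | nil => intro m acc; exact (Nat.zero_xor acc).symm
  | cons c L ih =>
    intro m acc
    have h : appF (c :: L) m acc = Golay.fz (Nat.shiftRight m 1) fun m' => Golay.fz (Nat.xor (Nat.mul (Nat.land m 1) c) acc) fun a => appF L m' a := rfl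
    rw [h, Golay.fz_eq, Golay.fz_eq, ih]
    have h1 : Nat.shiftRight m 1 = Nat.div m 2 := by
      show m >>> 1 = m / 2
      rw [Nat.shiftRight_eq_div_pow, pow_one]
    have h2 : Nat.mul (Nat.land m 1) c = (bif Nat.beq (Nat.mod m 2) 1 then c else 0) := by
      have h3 : Nat.land m 1 = m % 2 := Nat.and_one_is_mod m
      rw [h3]
      show (m % 2) * c = bif Nat.beq (m % 2) 1 then c else 0
      rcases Nat.mod_two_eq_zero_or_one m with h4 | h4 <;> rw [h4]
      · rw [zero_mul]; rfl
      · rw [one_mul]; rfl
    rw [h1, h2]
    show Nat.xor (appB L (Nat.div m 2)) (Nat.xor (bif Nat.beq (Nat.mod m 2) 1 then c else 0) acc) =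
      Nat.xor (Nat.xor (bif Nat.beq (Nat.mod m 2) 1 then c else 0) (appB L (Nat.div m 2))) acc
    have hx : ∀ x y z : ℕ, Nat.xor x (Nat.xor y z) = Nat.xor (Nat.xor y x) z := by
      intro x y z
      show x ^^^ (y ^^^ z) = (y ^^^ x) ^^^ z
      rw [← Nat.xor_assoc, Nat.xor_comm x y]
    exact hx _ _ _

/-- forced product of matrices -/
def mulF (L : List ℕ) : List ℕ → List ℕ
  | [] => []
  | c :: M => Golay.fz (appF L c 0) fun c' => c' :: mulF L M

theorem mulF_eq (L : List ℕ) : ∀ M, mulF L M = mulB L M := by
  intro M
  induction M with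
  | nil => rfl
  | cons c M ih =>
    have h : mulF L (c :: M) = Golay.fz (appF L c 0) fun c' => c' :: mulF L M := rfl
    rw [h, Golay.fz_eq, ih, appF_eq]
    have : Nat.xor (appB L c) 0 = appB L c := Nat.xor_zero _
    rw [this]; rfl

/-- matrix of a word -/
def wF (T : List (List ℕ)) : List ℕ → List ℕ
  | [] => lI
  | i :: w => mulF (T.getD i lI) (wF T w)

theorem rep_one : RepG 1 lI := by
  intro m
  have h : (((1 : ↥(chevF4.group (ZMod 2))) : GL chevF4.Idx (ZMod 2)) : Matrix chevF4.Idx chevF4.Idx (ZMod 2)) = 1 := rfl
  have h1 : ∀ k < 52, (1 : Matrix chevF4.Idx chevF4.Idx (ZMod 2)) *ᵥ bas chevF4 (ZMod 2) k = vecN (lI.getD k 0) := by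
    intro k hk
    rw [Matrix.one_mulVec, ← vecN_pow]
    congr 1
    have h2 : ((List.range 52).all fun k => Nat.beq (2 ^ k) (lI.getD k 0)) = true := by decide +kernel
    exact Nat.eq_of_beq_eq_true ((List.all_eq_true.1 h2) k (List.mem_range.2 hk))
  rw [h]
  exact rep_of 1 lI rfl h1 m

/-- the group is `D`, a subgroup of the Chevalley group -/
theorem rep_val {D : Subgroup Gm} {g : ℕ → ↥D} {T : List (List ℕ)} (h : ∀ i, RepG (g i : Gm) (T.getD i lI)) (w : List ℕ) :
    RepG ((val g w : ↥D) : Gm) (wF T w) := by
  induction w with
  | nil => exact rep_one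
  | cons i w ih =>
    rw [val_cons, Subgroup.coe_mul]
    exact RepG.mul (h i) ih (mulF_eq _ _).symm

/-- letters given by words -/
theorem rep_letters {D : Subgroup Gm} {g : ℕ → ↥D} {B : List (List ℕ)} (h : ∀ i, RepG (g i : Gm) (B.getD i lI))
    {ws : List (List ℕ)} {T : List (List ℕ)} (hl : T.length = ws.length)
    (hT : ((List.range ws.length).all fun i => pathB.beqL' (wF B (ws.getD i [])) (T.getD i lI)) = true) (i : ℕ) :
    RepG ((val g (ws.getD i []) : ↥D) : Gm) (T.getD i lI) := by
  by_cases hi : i < ws.length
  · have h1 := (List.all_eq_true.1 hT) i (List.mem_range.2 hi)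
    rw [← beqL'_spec h1]
    exact rep_val h _
  · rw [List.getD_eq_default _ _ (not_lt.mp hi), List.getD_eq_default _ _ (by omega)]
    exact rep_one

/-- rules -/
theorem holds_of {D : Subgroup Gm} {g : ℕ → ↥D} {T : List (List ℕ)} (h : ∀ i, RepG (g i : Gm) (T.getD i lI))
    {rules : List (List ℕ × List ℕ)} (hr : (rules.all fun q => pathB.beqL' (wF T q.1) (wF T q.2)) = true) : Holds g rules := by
  intro q hq
  have h1 := beqL'_spec ((List.all_eq_true.1 hr) q hq)
  have h2 := rep_val h q.1
  rw [h1] at h2
  exact Subtype.ext (RepG.eq h2 (rep_val h q.2))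

/-- image of a vector -/
def vw (T : List (List ℕ)) : List ℕ → ℕ → ℕ
  | [], v => v
  | i :: w, v => Golay.fz (vw T w v) fun x => appF (T.getD i lI) x 0

/-- action on vectors -/
def act {D : Subgroup Gm} (v : ℕ) (g : ↥D) : chevF4.Idx → ZMod 2 := (((g : Gm) : GL chevF4.Idx (ZMod 2)) : Matrix chevF4.Idx chevF4.Idx (ZMod 2)) *ᵥ vecN v

theorem act_val {D : Subgroup Gm} {g : ℕ → ↥D} {T : List (List ℕ)} (h : ∀ i, RepG (g i : Gm) (T.getD i lI)) (v : ℕ) (w : List ℕ) :
    act v (val g w) = vecN (vw T w v) := by
  induction w with
  | nil =>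
    show (1 : Matrix chevF4.Idx chevF4.Idx (ZMod 2)) *ᵥ vecN v = vecN v
    rw [Matrix.one_mulVec]
  | cons i w ih =>
    have h1 : act v (val g (i :: w)) = (((g i : Gm) : GL chevF4.Idx (ZMod 2)) : Matrix chevF4.Idx chevF4.Idx (ZMod 2)) *ᵥ act v (val g w) := by
      unfold act
      rw [val_cons, Subgroup.coe_mul, Subgroup.coe_mul, Units.val_mul, ← Matrix.mulVec_mulVec]
    rw [h1, ih]
    have h2 : vw T (i :: w) v = Golay.fz (vw T w v) fun x => appF (T.getD i lI) x 0 := rfl
    rw [h2, Golay.fz_eq, appF_eq]
    have h3 : Nat.xor (appB (T.getD i lI) (vw T w v)) 0 = appB (T.getD i lI) (vw T w v) := Nat.xor_zero _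
    rw [h3]
    exact h i _

theorem vecN_inj {a b : ℕ} (ha : a < 2 ^ 52) (hb : b < 2 ^ 52) (h : vecN a = vecN b) : a = b := by
  have hr : chevF4.rank = 4 := rfl
  have hn : chevF4.nroots = 48 := rfl
  have key : ∀ x y : Bool, (if x = true then (1 : ZMod 2) else 0) = (if y = true then 1 else 0) → x = y := by decide
  apply Nat.eq_of_testBit_eq
  intro i
  by_cases hi : i < 4
  · have h1 := congrFun h (Sum.inl ⟨i, by rw [hr]; exact hi⟩)
    exact key _ _ h1
  · by_cases hi2 : i < 52
    · have h1 := congrFun h (Sum.inr ⟨i - 4, by rw [hn]; omega⟩)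
      have h2 := key (a.testBit (4 + (i - 4))) (b.testBit (4 + (i - 4))) h1
      have e : 4 + (i - 4) = i := by omega
      rwa [e] at h2
    · have h52 : 2 ^ 52 ≤ 2 ^ i := Nat.pow_le_pow_right (by norm_num) (by omega)
      rw [Nat.testBit_lt_two_pow (by omega), Nat.testBit_lt_two_pow (by omega)]

/-- images of a vector under all the words -/
def imgs (T : List (List ℕ)) (p : ℕ) (l : List ℕ) (v : ℕ) : List ℕ := (pws p l).map fun w => vw T w v

/-- test that the images are distinct and small -/
noncomputable def dsB (T : List (List ℕ)) (v : ℕ) : List (List ℕ) → List ℕ → Bool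
  | [], acc => Cfsg.Agent.KMat.ndB acc
  | w :: ws, acc => Golay.fz (vw T w v) fun x => match Nat.blt x (2 ^ 52) with
    | true => dsB T v ws (x :: acc)
    | false => false

theorem dsB_spec {T : List (List ℕ)} {v : ℕ} : ∀ (ws : List (List ℕ)) (acc : List ℕ), dsB T v ws acc = true →
    ((ws.map fun w => vw T w v).reverse ++ acc).Nodup ∧ ∀ w ∈ ws, vw T w v < 2 ^ 52 := by
  intro ws
  induction ws with
  | nil =>
    intro acc h
    exact ⟨by simpa using Cfsg.Agent.KMat.ndB_sound h, by simp⟩
  | cons w ws ih =>
    intro acc h
    have h1 : (Golay.fz (vw T w v) fun x => match Nat.blt x (2 ^ 52) with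
      | true => dsB T v ws (x :: acc)
      | false => false) = true := h
    rw [Golay.fz_eq] at h1
    cases hb : Nat.blt (vw T w v) (2 ^ 52) with
    | false => rw [hb] at h1; cases h1
    | true =>
      rw [hb] at h1
      obtain ⟨h2, h3⟩ := ih _ h1
      refine ⟨?_, ?_⟩
      · rw [List.map_cons, List.reverse_cons, List.append_assoc]; exact h2
      · intro w' hw'
        rcases List.mem_cons.1 hw' with rfl | hw'
        · exact Nat.le_of_ble_eq_true hb
        · exact h3 w' hw'

theorem nodup_act {D : Subgroup Gm} {g : ℕ → ↥D} {T : List (List ℕ)} (h : ∀ i, RepG (g i : Gm) (T.getD i lI)) {v p : ℕ} {l : List ℕ}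
    (hd : dsB T v (pws p l) [] = true) : ((pws p l).map fun w => act v (val g w)).Nodup := by
  obtain ⟨h1, h2⟩ := dsB_spec _ _ hd
  rw [List.append_nil, List.nodup_reverse] at h1
  have e : ((pws p l).map fun w => act v (val g w)) = ((pws p l).map fun w => vw T w v).map vecN := by
    rw [List.map_map]
    apply List.map_congr_left
    intro w _
    exact act_val h v w
  rw [e]
  refine List.Nodup.map_on ?_ h1
  intro x hx y hy hxy
  obtain ⟨w, hw, rfl⟩ := List.mem_map.1 hx
  obtain ⟨w', hw', rfl⟩ := List.mem_map.1 hy
  exact vecN_inj (h2 w hw) (h2 w' hw') hxy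

theorem act_fix {D : Subgroup Gm} {g : ℕ → ↥D} {T : List (List ℕ)} (h : ∀ i, RepG (g i : Gm) (T.getD i lI)) {v : ℕ} {s : Set ℕ}
    (hs : ∀ i ∈ s, appF (T.getD i lI) v 0 = v) : ∀ x, ∀ k ∈ Subgroup.closure (g '' s), act v (x * k) = act v x := by
  have h0 : ∀ k ∈ Subgroup.closure (g '' s), act v k = vecN v := by
    intro k hk
    have hmul : ∀ a b : ↥D, act v b = vecN v → act v (a * b) = act v a := by
      intro a b hb
      unfold act at hb ⊢
      rw [Subgroup.coe_mul, Subgroup.coe_mul, Units.val_mul, ← Matrix.mulVec_mulVec, hb]
    induction hk using Subgroup.closure_induction with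
    | mem k hk =>
      obtain ⟨i, hi, rfl⟩ := hk
      have h1 : act v (g i) = vecN (appB (T.getD i lI) v) := h i v
      have h2 := hs i hi
      rw [appF_eq] at h2
      have h3 : Nat.xor (appB (T.getD i lI) v) 0 = appB (T.getD i lI) v := Nat.xor_zero _
      rw [h3] at h2
      rw [h1, h2]
    | one =>
      show (1 : Matrix chevF4.Idx chevF4.Idx (ZMod 2)) *ᵥ vecN v = vecN v
      rw [Matrix.one_mulVec]
    | mul a b _ _ ha hb => rw [hmul a b hb, ha]
    | inv a _ ha =>
      have h1 := hmul a⁻¹ a ha
      rw [inv_mul_cancel] at h1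
      rw [← h1]
      show (1 : Matrix chevF4.Idx chevF4.Idx (ZMod 2)) *ᵥ vecN v = vecN v
      rw [Matrix.one_mulVec]
  intro x k hk
  have := h0 k hk
  unfold act at this ⊢
  rw [Subgroup.coe_mul, Subgroup.coe_mul, Units.val_mul, ← Matrix.mulVec_mulVec, this]

/-! ### The letters -/

/-- basic letters -/
def TB : List (List ℕ) := [leP, lf01, ln0, ln1]

/-- words -/
def ws2 : List (List ℕ) := [[0, 1, 2, 0, 1, 2, 3, 0, 1, 0, 1, 3, 1, 2], [1], [0], [0, 1, 2, 1, 2, 3, 0, 1, 0, 1, 3, 1], [2, 0, 3, 0, 3, 2, 1, 2, 1, 0, 1, 2], [2, 1, 2], [3, 0, 3], [2, 3, 0, 3, 2], [3, 2, 3, 0, 3, 2, 3], [3, 2, 1, 2, 3], [2, 3, 2, 1, 2, 3, 2], [2], [3]]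

/-- words -/
def ws3 : List (List ℕ) := [[1, 0, 1, 3, 2, 1, 3, 2, 0, 3, 2, 1, 2, 1, 2, 3, 1, 0, 1], [2, 1, 3, 2, 1, 3, 2, 3, 0, 1, 3, 1, 2, 1, 0, 3, 1], [2, 0], [0, 3, 2, 3, 0, 3, 2, 3], [3, 1, 0, 2, 3, 1, 3, 1, 0, 2, 0, 3, 0, 1, 3, 2, 0, 1, 3]]

/-- words -/
def ws5 : List (List ℕ) := [[2, 3, 2, 3, 1, 3, 1, 2, 3, 2], [2, 3, 2, 1, 3, 2, 3, 2, 3, 1], [3, 2, 3, 1, 2, 1, 3, 0, 1, 0, 1, 2, 0, 3, 0, 1, 0, 1, 2, 3]]

/-- matrices -/
def T2 : List (List ℕ) := [[10737418241, 2, 2147483652, 316672770572296, 2251808403621013, 1618485576205026, 2111068957574082, 281474980905090, 1688856470487808, 1125904336028160, 2568467752420359, 23089744566272, 30786326081536, 26388279500800, 25701084643328, 17592186339328, 33809983012864, 29137058529280, 19791209562112, 1618564227792898, 2111181700464642, 19404947462, 281483570839554, 4320133122, 6459228162, 1688959549702144, 24226299908, 1125973055504384, 1618559767674880, 22011707392, 2111175068221440, 6442450944, 4294967296, 281483566645248, 17179869184, 1688952939479040, 1125968626319360, 25701084299264, 33809982554112, 29137058136064,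 23089744183296, 19791209299968, 30786325577728, 26388279066624, 17592186044416, 2568459162484736, 1618481116086272, 2111062325329920, 281474976710656, 1688849860263936, 1125899906842624, 2251799813685248],
  [4294967297, 2, 4294967300, 21474836488, 16, 928, 576, 128, 256, 512, 1024, 43008, 36864, 8192, 409600, 32768, 327680, 131072, 262144, 172490752, 135266304, 22030581766, 4194304, 6450839554, 4311744512, 33554432, 19394461696, 134217728, 111937585152, 536870912, 69793218560, 2147483648, 4294967296, 8589934592, 17179869184, 34359738368, 68719476736, 2886218022912, 2473901162496, 549755813888, 27487790694400, 2199023255552, 21990232555520, 8796093022208, 17592186044416, 35184372088832, 2040693581152256, 1266637395197952, 281474976710656, 562949953421312, 1125899906842624, 2251799813685248],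
  [1, 137438953474, 268435460, 8, 48, 32, 64, 2176, 528640, 3171840, 2114560, 2048, 4096, 24576, 16384, 12681216, 8454144, 16908288, 137439215617, 524288, 3145728, 2097152, 12582912, 8388608, 16777216, 100663296, 67108864, 402653192, 268435456, 1610612736, 1073741824, 277025390592, 1662152343552, 1108101562368, 112201725640704, 74801150427136, 149602300854272, 137438953472, 274877906944, 1649267441664, 1099511627776, 6597069766656, 4398046511104, 8796093022208, 299067162755072, 105553116266496, 70368744177664, 140737488355328, 281474976710656, 562949953421312, 3377699720527872, 2251799813685248],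
  [824633720833, 824633720834, 19551764873220, 19276886966280, 2270577681468755, 1126449663707181, 2833785400527939, 283815746482304, 2411865594627331, 70643655672335, 3010257551033347, 17592186112003, 292607561322496, 288215932346368, 290408533868544, 1099511791619, 18141941923843, 1374389665795, 288078489190400, 2816124494807040, 1144076209487886, 2252899595845632, 297016336842752, 281612424052736, 294815161909248, 71744241008652, 2992046352629760, 2410765814333440, 2393637082103808, 3008882825756672, 71469329547264, 296878876917760, 283678294933504, 294677706178560, 2269477899075584, 1143526452625408, 2832410672627712, 286010462175232, 1374389534720, 18141941858304, 1099511627776, 292470092988416, 285873023221760, 290271069732864, 17592186044416, 2990671627550720, 70368744177664, 2392537302040576, 281474976710656, 2814749767106560, 1125899906842624, 2251799813685248],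
  [9354438770689, 549755813890, 18176301596676, 906590286774280, 2278321773782421, 2041655730898989, 3545486930871374, 284230202433666, 565168471834880, 1125921515897344, 3158459356939271, 27487807555587, 306213992599555, 8800388390912, 295906083618816, 17596481306624, 304289843052547, 26938035011584, 19795504529408, 3308843149295616, 3545419285004302, 2252899595845632, 293030590414850, 281612424052736, 8804699734016, 1708677610340352, 598409270525952, 1125990235373568, 2464005826281472, 69256347648, 2392538375782400, 2201170739200, 4294967296, 290279659667456, 17179869184, 1706476406046720, 1125968626319360, 287109973803008, 286147901128704, 26938034880512, 1099511627776, 19791209299968, 285873023221760, 8796093022208, 17592186044416, 3131409115906048, 70368744177664, 2392537302040576, 281474976710656, 562949953421312, 1125899906842624, 2251799813685248],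
  [1099511627777, 1099511627778, 70368744177668, 71468255805448, 2623504, 32, 2097216, 8405120, 335610112, 71469329678863, 268436480, 2048, 8392704, 137455738880, 16384, 1374389567491, 65536, 1099511758848, 4406636707840, 524288, 1048576, 2097152, 137443147776, 8388608, 16777216, 70643655639040, 67108864, 176471750475776, 268435456, 140738025226240, 1073741824, 4400193994752, 290275364700160, 8589934592, 2832359133020160, 34359738368, 2251868533161984, 137438953472, 274877906944, 549755813888, 1099511627776, 283673999966208, 4398046511104, 8796093022208, 17592186044416, 35184372088832, 70368744177664, 140737488355328, 281474976710656, 562949953421312, 1125899906842624, 2251799813685248],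
  [1, 2199023255554, 68719476740, 2199023255560, 528, 17213690912, 134225984, 32896, 256, 512, 17180132352, 4299294720, 266240, 8192, 2199023271937, 32768, 2147549184, 4295098368, 262144, 68720001034, 537919488, 1170018886746112, 4299161600, 17875662274560, 549772591104, 17213423616, 34426847232, 134217728, 567348268367872, 536870912, 1134697073606656, 2147483648, 4294967296, 17600775979008, 17179869184, 34359738368, 68719476736, 8933531975680, 17867063951360, 549755813888, 282574488338432, 2199023255552, 4398046511104, 8796093022208, 17592186044416, 1161084278931456, 2322168557862912, 140737488355328, 281474976710656, 562949953421312, 1125899906842624, 2251799813685248],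
  [1, 4398046511106, 145135534866436, 4398046511112, 70506251292688, 2097184, 268451904, 1099528470656, 140737488355595, 2260630803579392, 1073742848, 8390656, 137438957568, 4398046519297, 16384, 282026880040960, 1099511693312, 8590065664, 8796093284352, 524288, 70506184179712, 2097152, 274882101248, 8388608, 1099528404992, 35184405643264, 70368811286528, 565149110894592, 268435456, 2260596443578368, 1073741824, 281477124194304, 17596481011712, 8589934592, 1125917086711808, 2251834173423616, 68719476736, 137438953472, 274877906944, 282024732524544, 1099511627776, 2199023255552, 4398046511104, 8796093022208, 17592186044416, 35184372088832, 70368744177664, 140737488355328, 281474976710656, 562949953421312, 1125899906842624, 2251799813685248],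
  [1, 8796093022210, 571746046443524, 8, 1128099500531728, 2256199001063456, 562949953421385, 17594333659264, 68719739136, 17179869696, 34359739392, 281749871396864, 8796093026305, 2199023263744, 4398046527488, 4295000064, 8590000128, 17592186175488, 262144, 140874927833088, 35184373137408, 70368746274816, 549760008192, 1099520016384, 281474993487872, 1128098963652608, 2256197927305216, 134217728, 268435456, 1125900443713536, 2251800887427072, 17594333528064, 4294967296, 8589934592, 17179869184, 34359738368, 68719476736, 137438953472, 281749854617600, 549755813888, 1099511627776, 2199023255552, 4398046511104, 8796093022208, 17592186044416, 35184372088832, 70368744177664, 140737488355328, 281474976710656, 562949953421312, 1125899906842624, 2251799813685248],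
  [17592186044417, 17592186044418, 1125899906842628, 1125899906842632, 17314119696, 1143526452690989, 69256478784, 4295229568, 17179869440, 512, 68719477760, 18141941860355, 2201170743296, 4294975488, 8804682973184, 32768, 17592186109952, 131072, 262144, 598409203941376, 1126449663705088, 2393636815765504, 2199027449856, 285873031610368, 8796109799424, 33554432, 562950020530176, 134217728, 2251800082120704, 536870912, 1073741824, 2147483648, 4294967296, 8589934592, 17179869184, 34359738368, 68719476736, 281612415664128, 274877906944, 549755813888, 1099511627776, 2199023255552, 4398046511104, 8796093022208, 17592186044416, 35184372088832, 70368744177664, 140737488355328, 281474976710656, 562949953421312, 1125899906842624, 2251799813685248],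
  [281474976710657, 2, 4, 2251799813685256, 2568459166679061, 70369021001760, 140738578874432, 281483566645378, 562986460643584, 1125972921287168, 2251808403620864, 1236950583296, 4672924422144, 9345848844288, 1099511644160, 19791209332736, 4398046576640, 8796093153280, 17592186306560, 70368744701952, 140737489403904, 2097152, 281474980904960, 8388608, 16777216, 562949986975744, 67108864, 1125900041060352, 268435456, 536870912, 1073741824, 2147483648, 4294967296, 8589934592, 17179869184, 34359738368, 68719476736, 137438953472, 274877906944, 549755813888, 1099511627776, 2199023255552, 4398046511104, 8796093022208, 17592186044416, 35184372088832, 70368744177664, 140737488355328, 281474976710656, 562949953421312, 1125899906842624, 2251799813685248],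
  [1, 3, 12, 8, 32, 16, 64, 2048, 524288, 2097152, 1048576, 128, 4096, 16384, 8192, 8388608, 4194304, 16777216, 137438953472, 256, 1024, 512, 65536, 32768, 131072, 67108864, 33554432, 268435456, 134217728, 1073741824, 536870912, 274877906944, 1099511627776, 549755813888, 70368744177664, 35184372088832, 140737488355328, 262144, 2147483648, 8589934592, 4294967296, 4398046511104, 2199023255552, 8796093022208, 281474976710656, 34359738368, 17179869184, 68719476736, 17592186044416, 562949953421312, 2251799813685248, 1125899906842624],
  [1, 2, 4, 10, 16, 512, 256, 128, 64, 32, 1024, 32768, 8192, 4096, 262144, 2048, 131072, 65536, 16384, 134217728, 33554432, 17179869184, 4194304, 4294967296, 2147483648, 1048576, 536870912, 524288, 68719476736, 67108864, 34359738368, 16777216, 8388608, 8589934592, 2097152, 1073741824, 268435456, 2199023255552, 549755813888, 274877906944, 17592186044416, 137438953472, 8796093022208, 4398046511104, 1099511627776, 35184372088832, 1125899906842624, 562949953421312, 281474976710656, 140737488355328, 70368744177664, 2251799813685248]]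

/-- matrices -/
def T3 : List (List ℕ) := [[8933532241922, 292064227465347, 2900018737549948, 571746449100868, 3891675148795809, 1190770249602232, 604903598990918, 306907630249984, 3759119726318770, 3858569174653688, 3090623630710697, 20628757629057, 9491890606082, 300445860038784, 18431877349504, 306224751040641, 296599708448768, 22965219584129, 308275589681282, 1190697640573458, 3339686623272416, 1190752968811480, 296058550921217, 20624458379393, 290144393797760, 1332396926272953, 2780914012863249, 3951646333759572, 1702046113738852, 1545334953040568, 2494551358736273, 21861408753793, 32714787070081, 302380759447681, 1935066499749273, 4271850271738737, 1545275098601106, 26802760587266, 287391315648640, 310622797559936, 298798731708417, 19527089881216, 282580960348160, 10045933031426, 289452899934337, 3518397034391544, 3312956911606824, 2354499586317346, 301968425961473, 673056139011142, 2487056367458201, 3704519686839336],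
  [8933532241923, 282310373245057, 2291976660681240, 571746449100876, 1621607701224489, 2598965168614321, 635707103405135, 25707556325377, 2598892805233699, 3218234679434281, 1642390757612504, 284376235960448, 10587098910723, 282314655598592, 300727192815744, 293584658188289, 33820749377664, 303336381603968, 308002842613763, 3511741982259891, 2147328574324561, 4496481853427128, 26119868887169, 313648581142657, 23371094370305, 3511815939729297, 1631013536505128, 3953844786589804, 1704244566569084, 3851519923788560, 1679619700620969, 304440192311424, 32716938670208, 302653464860801, 1932728400249809, 4269926603791929, 1547200880876051, 26800612972675, 26124160059393, 310895515453569, 298523874801664, 19524946657408, 282855813122048, 10045941387267, 289178013616257, 3511798323926265, 3308970151492449, 2350100405092003, 302241168810113, 673056140043855, 2482517600826553, 3711392178473753],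
  [1, 262147, 134217740, 8, 48, 16, 64, 2176, 528640, 3171840, 1057280, 128, 4096, 24576, 8192, 12681216, 4227072, 16908288, 137439215617, 256, 1536, 512, 98304, 32768, 131072, 100663296, 33554432, 402653192, 134217728, 1610612736, 536870912, 277025390592, 1662152343552, 554050781184, 112201725640704, 37400575213568, 149602300854272, 262144, 2147483648, 12884901888, 4294967296, 6597069766656, 2199023255552, 8796093022208, 299067162755072, 51539607552, 17179869184, 68719476736, 17592186044416, 562949953421312, 3377699720527872, 1125899906842624],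
  [1, 8933531975682, 571746314878980, 8, 3384298501595184, 2256199001063456, 562949953421385, 299344205056128, 149739740598529, 112201728812544, 74801152541696, 281749871396864, 8796093026305, 6597069791232, 4398046527488, 1662165024768, 1108110016512, 299067179663360, 137439215617, 140874927833088, 105553119412224, 70368746274816, 1649280024576, 1099520016384, 281474993487872, 3384296890957824, 2256197927305216, 402653192, 268435456, 3377701331140608, 2251800887427072, 299344188145664, 1662152343552, 1108101562368, 112201725640704, 74801150427136, 149602300854272, 137438953472, 281749854617600, 1649267441664, 1099511627776, 6597069766656, 4398046511104, 8796093022208, 299067162755072, 105553116266496, 70368744177664, 140737488355328, 281474976710656, 562949953421312, 3377699720527872, 2251799813685248],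
  [8933532241922, 282035482691713, 2287577476425272, 571746449100868, 1619270678282041, 2603637066955920, 635707105493574, 25705400346753, 2603562595357346, 3213562774982497, 1644724546936024, 284651134861440, 10587103137794, 282039790241792, 300999902464128, 293859527686144, 33818597900417, 303063638657024, 308275589681282, 3518341706153522, 2149114791770648, 4503488569016304, 26117717315713, 313375875709056, 23368938416257, 3518414583599776, 1628401649545017, 3951646333759572, 1702046113738852, 3844509980871969, 1677830255795129, 304167449487360, 32714787070081, 302380759447681, 1935066499749273, 4271850271738737, 1545275098601106, 26802760587266, 26122016565377, 310622797559936, 298798731708417, 19527089881216, 282580960348160, 10045933031426, 289452899934337, 3518397034391544, 3312956911606824, 2354499586317346, 301968425961473, 673056139011142, 2487056367458201, 3704519686839336]]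

/-- matrices -/
def T5 : List (List ℕ) := [[281474980904963, 2, 4, 2251808403621005, 2568467756614802, 70369013137440, 140738563145792, 281483570839680, 562984346714368, 1125968760537600, 2251799813685269, 1236950599680, 4672924487680, 9345848975360, 1099511629824, 19791209594880, 4398046515200, 8796093030400, 17592186077184, 70368752566304, 140737505132608, 2097152, 281474976710786, 8388608, 16777216, 562952100905216, 67108864, 1125904201810432, 268435488, 536870912, 1073741888, 2147483648, 4294967296, 8589934720, 17179869184, 34359738624, 68719477248, 137438955520, 274877911040, 549755822080, 1099511646208, 2199023288320, 4398046580736, 8796093161472, 17592186339328, 35184376283152, 70368753090592, 140737506181184, 281474980905090, 562952134459648, 1125904336028160, 2251808403621013],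
  [281474985099265, 2, 8388612, 2251799824171016, 2251799813685248, 1618481116086272, 633318697598976, 281474976710656, 140737488355328, 70368744177664, 35184372088832, 23089744183296, 9895604649984, 4398046511104, 2611340115968, 1099511627776, 687194767360, 274877906944, 137438953472, 78651588608, 34628173824, 19404947462, 8589934592, 4320133122, 2155872256, 1073741824, 555745280, 268435456, 1618481256071168, 67108864, 633318731677696, 16777216, 8388608, 281474980904960, 2097152, 140737489403904, 70368744701952, 23089744527360, 9895604797440, 4398046576640, 25701084338176, 1099511644160, 10582799427584, 4672924422144, 1236950583296, 2251808403620864, 1618564087808738, 633355481645344, 281483566645378, 140738578874432, 70369021001760, 2568459166679061],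
  [20971521, 2, 16777220, 79692936, 16, 32, 96, 128, 480, 928, 1168, 2048, 6144, 14336, 18432, 43008, 88064, 227328, 452608, 524320, 1572960, 2097152, 4194432, 8388608, 25165824, 39322080, 77594624, 172491680, 277348384, 631242756, 1368916064, 2172649474, 6450839554, 8594129026, 22030581766, 46503821794, 118560916386, 137438971904, 412316948480, 962072901632, 1236950583296, 2886218475520, 5909875005440, 15255723849728, 30374008760320, 35184376284311, 70369021001760, 211107599876192, 281483566645378, 1055577627165154, 2040811969577890, 2568459166679061]]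


theorem ok2 : ((List.range ws2.length).all fun i => pathB.beqL' (wF TB (ws2.getD i [])) (T2.getD i lI)) = true := by decide +kernel
theorem ok3 : ((List.range ws3.length).all fun i => pathB.beqL' (wF TB (ws3.getD i [])) (T3.getD i lI)) = true := by decide +kernel
theorem ok5 : ((List.range ws5.length).all fun i => pathB.beqL' (wF TB (ws5.getD i [])) (T5.getD i lI)) = true := by decide +kernel
theorem rl2 : (TitsC2.rules.all fun q => pathB.beqL' (wF T2 q.1) (wF T2 q.2)) = true := by decide +kernel
theorem rl3 : (TitsC3.rules.all fun q => pathB.beqL' (wF T3 q.1) (wF T3 q.2)) = true := by decide +kernel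
theorem rl5 : (TitsC5.rules.all fun q => pathB.beqL' (wF T5 q.1) (wF T5 q.2)) = true := by decide +kernel
theorem d2a : dsB T2 142936511610880 (pws 2 [0, 1, 2, 3, 4, 5]) [] = true := by decide +kernel
theorem d2b : dsB T2 16 (pws 2 [6, 7, 8, 9, 10]) [] = true := by decide +kernel
theorem f2 : ([6, 7, 8, 9, 10].all fun i => Nat.beq (appF (T2.getD i lI) 142936511610880 0) 142936511610880) = true := by decide +kernel
theorem d3 : dsB T3 2 (pws 3 [0, 1, 2]) [] = true := by decide +kernel
theorem d5 : dsB T5 1 (pws 5 [0, 1]) [] = true := by decide +kernel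
/-- the word of order 13 -/
def w13 : List ℕ := [1, 2, 3]
theorem r13 : pathB.beqL' (wF TB (w13 ++ w13 ++ w13 ++ w13 ++ w13 ++ w13 ++ w13 ++ w13 ++ w13 ++ w13 ++ w13 ++ w13 ++ w13)) lI = true := by decide +kernel
theorem r13' : Nat.beq (vw TB w13 1) 1 = false := by decide +kernel

section

variable (Z : Sg (ZMod 2))

/-- the basic letters -/
noncomputable def base : ℕ → ↥(DD Z)
  | 0 => ⟨eP Z 1, eP_C Z⟩
  | 1 => ⟨fP Z 0 1, f01_C Z⟩
  | 2 => ⟨n0, n0_DD Z⟩
  | 3 => ⟨n1, n1_DD Z⟩
  | _ => 1

theorem rep_base : ∀ i, RepG (base Z i : Gm) (TB.getD i lI)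
  | 0 => rep_eP Z
  | 1 => rep_f01 Z
  | 2 => rep_n0 Z
  | 3 => rep_n1 Z
  | (_ + 4) => rep_one

/-- letters -/
noncomputable def g2 (i : ℕ) : ↥(DD Z) := val (base Z) (ws2.getD i [])
/-- letters -/
noncomputable def g3 (i : ℕ) : ↥(DD Z) := val (base Z) (ws3.getD i [])
/-- letters -/
noncomputable def g5 (i : ℕ) : ↥(DD Z) := val (base Z) (ws5.getD i [])

theorem rg2 (i : ℕ) : RepG (g2 Z i : Gm) (T2.getD i lI) := rep_letters (ws := ws2) (T := T2) (rep_base Z) rfl ok2 i
theorem rg3 (i : ℕ) : RepG (g3 Z i : Gm) (T3.getD i lI) := rep_letters (ws := ws3) (T := T3) (rep_base Z) rfl ok3 i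
theorem rg5 (i : ℕ) : RepG (g5 Z i : Gm) (T5.getD i lI) := rep_letters (ws := ws5) (T := T5) (rep_base Z) rfl ok5 i

variable [Finite ↥(DD Z)] (hcard : Nat.card ↥(DD Z) = 17971200)

theorem card2 : 2 ^ 11 ≤ Nat.card ↥(Subgroup.closure (g2 Z '' {i | i < 11})) := by
  set L := Subgroup.closure (g2 Z '' {i | i < 11}) with hL
  set K := Subgroup.closure (g2 Z '' {i | 6 ≤ i ∧ i < 11}) with hK
  have hKL : K ≤ L := Subgroup.closure_mono (Set.image_mono fun i hi => hi.2)
  have h1 : 2 ^ 6 * Nat.card K ≤ Nat.card L := by
    refine card_step (p := 2) (f := g2 Z) hKL (l := [0, 1, 2, 3, 4, 5]) ?_ (act 142936511610880) ?_ (nodup_act (rg2 Z) d2a)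
    · intro x hx
      refine Subgroup.subset_closure ⟨x, ?_, rfl⟩
      simp only [List.mem_cons, List.not_mem_nil, or_false] at hx
      show x < 11
      omega
    · refine fun g h hh => act_fix (rg2 Z) (s := {i | 6 ≤ i ∧ i < 11}) ?_ g h hh
      intro i hi
      have h2 := (List.all_eq_true.1 f2) i (by
        have h3 : 6 ≤ i ∧ i < 11 := hi
        simp only [List.mem_cons, List.not_mem_nil, or_false]
        omega)
      exact Nat.eq_of_beq_eq_true h2
  have h2 : 2 ^ 5 * Nat.card (⊥ : Subgroup ↥(DD Z)) ≤ Nat.card K := by
    refine card_step (p := 2) (f := g2 Z) bot_le (l := [6, 7, 8, 9, 10]) ?_ (act 16) ?_ (nodup_act (rg2 Z) d2b)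
    · intro x hx
      refine Subgroup.subset_closure ⟨x, ?_, rfl⟩
      simp only [List.mem_cons, List.not_mem_nil, or_false] at hx
      show 6 ≤ x ∧ x < 11
      omega
    · intro g h hh
      rw [Subgroup.mem_bot.1 hh, mul_one]
  rw [Subgroup.card_bot, mul_one] at h2
  calc 2 ^ 11 = 2 ^ 6 * 2 ^ 5 := by norm_num
    _ ≤ 2 ^ 6 * Nat.card K := Nat.mul_le_mul_left _ h2
    _ ≤ _ := h1

theorem card3 : 3 ^ 3 ≤ Nat.card ↥(Subgroup.closure (g3 Z '' {i | i < 3})) := by
  have h2 : 3 ^ 3 * Nat.card (⊥ : Subgroup ↥(DD Z)) ≤ Nat.card ↥(Subgroup.closure (g3 Z '' {i | i < 3})) := by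
    refine card_step (p := 3) (f := g3 Z) bot_le (l := [0, 1, 2]) ?_ (act 2) ?_ (nodup_act (rg3 Z) d3)
    · intro x hx
      refine Subgroup.subset_closure ⟨x, ?_, rfl⟩
      simp only [List.mem_cons, List.not_mem_nil, or_false] at hx
      show x < 3
      omega
    · intro g h hh
      rw [Subgroup.mem_bot.1 hh, mul_one]
  rwa [Subgroup.card_bot, mul_one] at h2

theorem card5 : 5 ^ 2 ≤ Nat.card ↥(Subgroup.closure (g5 Z '' {i | i < 2})) := by
  have h2 : 5 ^ 2 * Nat.card (⊥ : Subgroup ↥(DD Z)) ≤ Nat.card ↥(Subgroup.closure (g5 Z '' {i | i < 2})) := by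
    refine card_step (p := 5) (f := g5 Z) bot_le (l := [0, 1]) ?_ (act 1) ?_ (nodup_act (rg5 Z) d5)
    · intro x hx
      refine Subgroup.subset_closure ⟨x, ?_, rfl⟩
      simp only [List.mem_cons, List.not_mem_nil, or_false] at hx
      show x < 2
      omega
    · intro g h hh
      rw [Subgroup.mem_bot.1 hh, mul_one]
  rwa [Subgroup.card_bot, mul_one] at h2

include hcard

theorem pb2 : PB ↥(DD Z) 2 1 :=
  PB_one Nat.prime_two (g2 Z) TitsC2.good rfl rfl (holds_of (rg2 Z) rl2) TitsC2.pc_ok (card2 Z) hcard (by norm_num) 1

theorem pb3 : PB ↥(DD Z) 3 1 :=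
  PB_one Nat.prime_three (g3 Z) TitsC3.good rfl rfl (holds_of (rg3 Z) rl3) TitsC3.pc_ok (card3 Z) hcard (by norm_num) 1

theorem pb5 : PB ↥(DD Z) 5 1 :=
  PB_one Nat.prime_five (g5 Z) TitsC5.good rfl rfl (holds_of (rg5 Z) rl5) TitsC5.pc_ok (card5 Z) hcard (by norm_num) 1

theorem pb13 : PB ↥(DD Z) 13 1 := by
  have hp : Nat.Prime 13 := by norm_num
  have h1 : (val (base Z) w13) ^ 13 = 1 := by
    have e : val (base Z) (w13 ++ w13 ++ w13 ++ w13 ++ w13 ++ w13 ++ w13 ++ w13 ++ w13 ++ w13 ++ w13 ++ w13 ++ w13) = (val (base Z) w13) ^ 13 := by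
      simp only [val_append, pow_succ, pow_zero, one_mul]
    rw [← e]
    have h2 := rep_val (rep_base Z) (w13 ++ w13 ++ w13 ++ w13 ++ w13 ++ w13 ++ w13 ++ w13 ++ w13 ++ w13 ++ w13 ++ w13 ++ w13)
    rw [beqL'_spec r13] at h2
    exact Subtype.ext (RepG.eq h2 rep_one)
  have h2 : val (base Z) w13 ≠ 1 := by
    intro h
    have h3 := act_val (rep_base Z) 1 w13
    rw [h] at h3
    have h4 : act (D := DD Z) 1 1 = vecN 1 := act_val (rep_base Z) 1 []
    rw [h4] at h3
    have h5 : vw TB w13 1 < 2 ^ 52 := by
      have : Nat.blt (vw TB w13 1) (2 ^ 52) = true := by decide +kernel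
      exact Nat.le_of_ble_eq_true this
    have h6 := vecN_inj (by norm_num) h5 h3
    have h7 := r13'
    rw [← h6] at h7
    exact absurd h7 (by decide)
  have h3 : orderOf (val (base Z) w13) = 13 := orderOf_eq_prime h1 h2 (hp := ⟨hp⟩)
  exact PB.of_cyclic hp (cyc_index h3 (by norm_num) hcard (by norm_num)) 1

theorem mb : MB ↥(DD Z) 1 := by
  apply MB.of_PB
  intro p hp
  by_cases h : p ∣ Nat.card ↥(DD Z)
  · rw [hcard] at h
    have h2 : p ∣ 2 ^ 11 * (3 ^ 3 * (5 ^ 2 * 13)) := by
      have e : 17971200 = 2 ^ 11 * (3 ^ 3 * (5 ^ 2 * 13)) := by norm_num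
      rwa [e] at h
    rcases hp.dvd_mul.1 h2 with h | h
    · rw [(Nat.prime_dvd_prime_iff_eq hp Nat.prime_two).1 (hp.dvd_of_dvd_pow h)]
      exact pb2 Z hcard
    rcases hp.dvd_mul.1 h with h | h
    · rw [(Nat.prime_dvd_prime_iff_eq hp Nat.prime_three).1 (hp.dvd_of_dvd_pow h)]
      exact pb3 Z hcard
    rcases hp.dvd_mul.1 h with h | h
    · rw [(Nat.prime_dvd_prime_iff_eq hp Nat.prime_five).1 (hp.dvd_of_dvd_pow h)]
      exact pb5 Z hcard
    · rw [(Nat.prime_dvd_prime_iff_eq hp (by norm_num)).1 h]
      exact pb13 Z hcard
  · exact PB.of_not_card hp h 1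

end

theorem equiv_aux (C Tw : Subgroup (GL chevF4.Idx (ZMod 2))) (G1 : Subgroup ↥C) (hG1 : G1 = Tw.subgroupOf C) (hle : Tw ≤ C) :
    Nonempty (↥⁅G1, G1⁆ ≃* ↥(commutator ↥Tw)) := by
  have h1 : ⁅G1, G1⁆.map C.subtype = ⁅Tw, Tw⁆ := by
    rw [Subgroup.map_commutator, hG1, Subgroup.map_subgroupOf_eq_of_le hle]
  have h2 : (commutator ↥Tw).map Tw.subtype = ⁅Tw, Tw⁆ := Subgroup.map_subtype_commutator Tw
  have e1 := ⁅G1, G1⁆.equivMapOfInjective C.subtype (Subgroup.subtype_injective _)
  have e2 := (commutator ↥Tw).equivMapOfInjective Tw.subtype (Subgroup.subtype_injective _)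
  exact ⟨(e1.trans (MulEquiv.subgroupCongr (h1.trans h2.symm))).trans e2.symm⟩

theorem mb_tits : MB Cfsg.Lie.TitsGroup 1 := by
  have hK : Fintype.card (ZMod 2) = 2 ^ (2 * 0 + 1) := by decide
  obtain ⟨Z, hZ⟩ := exists_Sg hK
  have hZ1 : ∀ t, Z.θ t = t ^ 1 := fun t => by rw [hZ t, pow_zero]
  obtain ⟨e⟩ := equiv_aux (chevF4.group (ZMod 2)) (Cfsg.Lie.twistedF4 (ZMod 2) 1) (twF Z).G1 (G1_F4 Z hZ1) hle_F4
  have hcard := Cfsg.Agent.S1074.result.2.2.2
  have hc : Nat.card ↥(DD Z) = 17971200 := by
    rw [Nat.card_congr e.toEquiv]
    exact hcard.trans (by norm_num)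
  have hfin : Finite ↥(DD Z) := Nat.finite_of_card_ne_zero (by rw [hc]; norm_num)
  exact (mb Z hc).equiv e

theorem perf_of_simple {G : Type*} [Group G] (hs : IsSimpleGroup G) (hnc : ¬ IsMulCommutative G) : commutator G = ⊤ := by
  rcases (inferInstance : (commutator G).Normal).eq_bot_or_eq_top with h | h
  · exfalso
    apply hnc
    rw [commutator_def, Subgroup.commutator_eq_bot_iff_le_centralizer] at h
    refine ⟨⟨fun a b => ?_⟩⟩
    exact (Subgroup.mem_centralizer_iff.1 (h (Subgroup.mem_top a)) b (Subgroup.mem_top b)).symm
  · exact h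

theorem perf_tits : commutator Cfsg.Lie.TitsGroup = ⊤ :=
  perf_of_simple Cfsg.Agent.S1074.result.2.1 Cfsg.Agent.S1074.result.2.2.1

theorem mult_tits : Cfsg.HasCyclicSchurMultiplier Cfsg.Lie.TitsGroup 1 := by
  have P : PCE (MonoidHom.id Cfsg.Lie.TitsGroup) := by
    refine ⟨⟨Function.surjective_id, ?_⟩, perf_tits⟩
    intro x hx
    have : x = 1 := hx
    rw [this]; exact one_mem _
  have hcard := Cfsg.Agent.S1074.result.2.2.2
  have hfin : Finite Cfsg.Lie.TitsGroup := Nat.finite_of_card_ne_zero (by rw [hcard]; norm_num)
  exact cyclic_of perf_tits one_pos mb_tits P (z := 1) rfl (one_dvd _)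

end Cfsg.Agent.MRel.Tits
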