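import Cfsg.Agent.MRel.VoltDef
import Cfsg.Agent.CosetEnum.Rep
import Cfsg.Agent.Mult.Cext
import Cfsg.Agent.MRel.StabG

/-!
Central extensions from tables with voltages (owner: helper83).
-/

set_option autoImplicit false

namespace Cfsg.Agent.MRel.Volt

open Cfsg.Agent.CosetEnum Cfsg.Agent.Mult

theorem land_mod (s : ℕ) : Nat.land s 131071 = s % 131072 := Nat.and_two_pow_sub_one_eq_mod s 17

theorem shr_div (s : ℕ) : Nat.shiftRight s 17 = s / 131072 := Nat.shiftRight_eq_div_pow s 17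

theorem stp_eq (P : Par) (x s : ℕ) : stp P x s = 131072 * (s / 131072) + fe P x (s % 131072) := by
  have h1 : stp P x s = (s - Nat.land s 131071) + fe P x (Nat.land s 131071) := by
    unfold stp; rw [forceN_eq]; rfl
  rw [h1, land_mod]
  have h2 := Nat.div_add_mod s 131072
  omega

theorem stp_mod (P : Par) (x s : ℕ) : stp P x s % 131072 = fe P x (s % 131072) % 131072 := by
  rw [stp_eq, Nat.mul_add_mod]

theorem stp_div (P : Par) (x s : ℕ) : stp P x s / 131072 = s / 131072 + fe P x (s % 131072) / 131072 := by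
  rw [stp_eq, Nat.mul_add_div (by norm_num)]

theorem wk_nil (P : Par) (s : ℕ) : wk P [] s = s := rfl

theorem wk_cons (P : Par) (x : ℕ) (w : List ℕ) (s : ℕ) : wk P (x :: w) s = wk P w (stp P x s) := by
  show forceN (stp P x s) (wk P w) = _
  rw [forceN_eq]

theorem rec_rel {P : Par} {n i : ℕ} : ∀ (RL : List (List ℕ × ℕ × ℕ)), @List.rec (List ℕ × ℕ × ℕ) (fun _ => Bool) true
    (fun p _ ih => @Bool.rec (fun _ => Bool) false ih (relV P n p.1 p.2.2 i p.2.1 i)) RL = true →
    ∀ p ∈ RL, relV P n p.1 p.2.2 i p.2.1 i = true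
  | [], _, p, hp => by cases hp
  | q :: R, h, p, hp => by
    obtain ⟨h3, h4⟩ := sel_true_left (show @Bool.rec (fun _ => Bool) false (@List.rec (List ℕ × ℕ × ℕ) (fun _ => Bool) true
      (fun p _ ih => @Bool.rec (fun _ => Bool) false ih (relV P n p.1 p.2.2 i p.2.1 i)) R)
        (relV P n q.1 q.2.2 i q.2.1 i) = true from h)
    rcases List.mem_cons.1 hp with rfl | hp
    · exact h3
    · exact rec_rel R h4 p hp

/-- A table with voltages and its tests. -/
structure VOK (P : Par) (n : ℕ) (ng : ℕ) (l : List (ℕ × ℕ)) (lets : List ℕ) (RL : List (List ℕ × ℕ × ℕ)) : Prop where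
  st : letsB ng l lets (RL.map fun p => (p.1, p.2.1)) = true
  small : P.m ≤ 131072
  pos : 0 < n
  cov : Cov (tstV P n l lets RL) 0 P.m

section

variable {P : Par} {n ng : ℕ} {l : List (ℕ × ℕ)} {lets : List ℕ} {RL : List (List ℕ × ℕ × ℕ)}
  (T : VOK P n ng l lets RL)

include T

theorem VOK.letter {i x : ℕ} (hi : i < P.m) (hx : x ∈ lets) :
    fe P x i % 131072 < P.m ∧ fe P (ivL l x) (fe P x i % 131072) % 131072 = i ∧
      (fe P x i / 131072 + fe P (ivL l x) (fe P x i % 131072) / 131072) % n = 0 := by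
  have h := T.cov i (Nat.zero_le _) hi
  have h1 := allL_sound (sel_true_left h).1 x hx
  simp only [force_eq, land_mod, shr_div] at h1
  obtain ⟨h2, h3⟩ := sel_true_right h1
  obtain ⟨h4, h5⟩ := sel_true_left h3
  exact ⟨ble_false h2, beq_true h4, beq_true h5⟩

theorem VOK.mem_iff {x : ℕ} : x ∈ lets ↔ isLet ng x = true := by
  have h := T.st
  simp only [letsB, Bool.and_eq_true, List.all_eq_true] at h
  obtain ⟨⟨⟨h1, h2⟩, h3⟩, h4⟩ := h
  constructor
  · exact fun hx => (h1 x hx).1.1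
  · intro hx
    have h5 := h2 x (by rw [List.mem_range]; have := isLet_iff.1 hx; omega)
    simpa [hx] using h5

theorem VOK.iv : ∀ x ∈ lets, ivL l x ∈ lets ∧ ivL l (ivL l x) = x := by
  have h := T.st
  simp only [letsB, Bool.and_eq_true, List.all_eq_true] at h
  obtain ⟨⟨⟨h1, h2⟩, h3⟩, h4⟩ := h
  intro x hx
  obtain ⟨⟨h5, h6⟩, h7⟩ := h1 x hx
  exact ⟨T.mem_iff.2 h6, by simpa using h7⟩

/-- the action of a letter -/
noncomputable def VOK.fn (T : VOK P n ng l lets RL) (x : ℕ) (hx : x ∈ lets) (a : Fin P.m × ZMod n) : Fin P.m × ZMod n :=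
  (⟨fe P x a.1 % 131072, (T.letter a.1.2 hx).1⟩, a.2 + ((fe P x a.1 / 131072 : ℕ) : ZMod n))

theorem VOK.fn_fn {x : ℕ} (hx : x ∈ lets) (a : Fin P.m × ZMod n) :
    T.fn (ivL l x) (T.iv x hx).1 (T.fn x hx a) = a := by
  obtain ⟨i, s⟩ := a
  obtain ⟨h1, h2, h3⟩ := T.letter i.2 hx
  refine Prod.ext (Fin.ext h2) ?_
  show s + ((fe P x i / 131072 : ℕ) : ZMod n) + ((fe P (ivL l x) (fe P x i % 131072) / 131072 : ℕ) : ZMod n) = s
  rw [add_assoc, ← Nat.cast_add, (ZMod.natCast_eq_zero_iff _ _).2 (Nat.dvd_of_mod_eq_zero h3), add_zero]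

open Classical in
/-- the permutation of a letter -/
noncomputable def VOK.pm (T : VOK P n ng l lets RL) (x : ℕ) : Equiv.Perm (Fin P.m × ZMod n) :=
  if hx : x ∈ lets then
    { toFun := T.fn x hx
      invFun := T.fn (ivL l x) (T.iv x hx).1
      left_inv := fun a => T.fn_fn hx a
      right_inv := fun a => by
        have h := T.fn_fn (T.iv x hx).1 a
        have h2 := (T.iv x hx).2
        simp only [h2] at h
        exact h }
  else 1

theorem VOK.pm_apply {x : ℕ} (hx : x ∈ lets) (a : Fin P.m × ZMod n) : T.pm x a = T.fn x hx a := by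
  unfold VOK.pm
  rw [dif_pos hx]
  rfl

theorem VOK.pm_inv (x : ℕ) : T.pm (ivL l x) = (T.pm x)⁻¹ := by
  have h := T.st
  simp only [letsB, Bool.and_eq_true, List.all_eq_true] at h
  obtain ⟨⟨⟨h1, h2⟩, h3⟩, h4⟩ := h
  by_cases hx : x ∈ lets
  · rw [eq_inv_iff_mul_eq_one]
    ext1 a
    rw [Equiv.Perm.mul_apply, T.pm_apply hx, T.pm_apply (T.iv x hx).1, T.fn_fn hx]
    rfl
  · have h5 : ivL l x = x := ivL_of_not h3 (fun h => hx (T.mem_iff.2 h))
    rw [h5, VOK.pm, dif_neg hx, inv_one]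

/-- the central permutation -/
noncomputable def zt (P : Par) (n : ℕ) : Equiv.Perm (Fin P.m × ZMod n) := (Equiv.refl _).prodCongr (Equiv.addRight 1)

omit T in
theorem zt_apply (a : Fin P.m × ZMod n) : zt P n a = (a.1, a.2 + 1) := rfl

omit T in
theorem zt_pow (c : ℕ) (a : Fin P.m × ZMod n) : ((zt P n) ^ c) a = (a.1, a.2 + (c : ZMod n)) := by
  induction c with
  | zero => simp
  | succ c ih => rw [pow_succ', Equiv.Perm.mul_apply, ih, zt_apply, Nat.cast_succ, add_assoc]

theorem VOK.comm (x : ℕ) : T.pm x * zt P n = zt P n * T.pm x := by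
  by_cases hx : x ∈ lets
  · ext1 a
    rw [Equiv.Perm.mul_apply, Equiv.Perm.mul_apply, T.pm_apply hx, T.pm_apply hx, zt_apply, zt_apply]
    refine Prod.ext rfl ?_
    show a.2 + 1 + _ = a.2 + _ + 1
    exact add_right_comm _ _ _
  · rw [VOK.pm, dif_neg hx, one_mul, mul_one]

theorem VOK.comm_val (w : List ℕ) : Commute (CosetEnum.val T.pm w) (zt P n) := by
  induction w with
  | nil => exact Commute.one_left _
  | cons x w ih => exact ih.mul_left (T.comm x)

/-- the state of a number -/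
noncomputable def VOK.sta (_T : VOK P n ng l lets RL) (s : ℕ) (h : s % 131072 < P.m) : Fin P.m × ZMod n :=
  (⟨s % 131072, h⟩, ((s / 131072 : ℕ) : ZMod n))

theorem VOK.walk (w : List ℕ) (hw : ∀ x ∈ w, x ∈ lets) : ∀ (s : ℕ) (h : s % 131072 < P.m),
    ∃ h' : wk P w s % 131072 < P.m, CosetEnum.val T.pm w (T.sta s h) = T.sta (wk P w s) h' := by
  induction w with
  | nil => intro s h; exact ⟨h, rfl⟩
  | cons x w ih =>
    intro s h
    have hx := hw x (by simp)
    have h1 : stp P x s % 131072 < P.m := by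
      rw [stp_mod]; exact (T.letter h hx).1
    obtain ⟨h2, h3⟩ := ih (fun y hy => hw y (List.mem_cons_of_mem _ hy)) (stp P x s) h1
    have e : T.pm x (T.sta s h) = T.sta (stp P x s) h1 := by
      rw [T.pm_apply hx]
      refine Prod.ext (Fin.ext (stp_mod P x s).symm) ?_
      have e2 : ((stp P x s / 131072 : ℕ) : ZMod n) = ((s / 131072 : ℕ) : ZMod n) +
          ((fe P x (s % 131072) / 131072 : ℕ) : ZMod n) := by
        rw [stp_div, Nat.cast_add]
      exact e2.symm
    have e3 : wk P (x :: w) s = wk P w (stp P x s) := wk_cons P x w s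
    have h2' : wk P (x :: w) s % 131072 < P.m := by rw [e3]; exact h2
    refine ⟨h2', ?_⟩
    have e4 : CosetEnum.val T.pm (x :: w) (T.sta s h) = CosetEnum.val T.pm w (T.pm x (T.sta s h)) := rfl
    rw [e4, e, h3]
    congr 1
    exact e3.symm

omit T in
theorem relV_zero {u : List ℕ} {c i s : ℕ} (h : relV P n u c i 0 s = true) : s % 131072 = i ∧ s / 131072 % n = c := by
  have h1 : (@Bool.rec (fun _ => Bool) false (Nat.beq (Nat.mod (Nat.shiftRight s 17) n) c)
    (Nat.beq (Nat.land s 131071) i)) = true := h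
  obtain ⟨h2, h3⟩ := sel_true_left h1
  rw [land_mod] at h2
  rw [shr_div] at h3
  exact ⟨beq_true h2, beq_true h3⟩

omit T in
theorem relV_succ {u : List ℕ} {c i k s : ℕ} (h : relV P n u c i (k + 1) s = true) :
    wk P u s % 131072 < i ∨ relV P n u c i k (wk P u s) = true := by
  have h1 : (force (wk P u s) fun s' => @Bool.rec (fun _ => Bool) true (relV P n u c i k s')
    (Nat.ble i (Nat.land s' 131071))) = true := h
  rw [force_eq, land_mod] at h1
  cases hb : Nat.ble i (wk P u s % 131072) with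
  | false => exact Or.inl (ble_false hb)
  | true =>
    rw [hb] at h1
    exact Or.inr h1

theorem VOK.iter {u : List ℕ} (hu : ∀ x ∈ u, x ∈ lets) {c i : ℕ} (k : ℕ) :
    ∀ (s : ℕ) (h : s % 131072 < P.m), relV P n u c i k s = true →
      (∃ t : ℕ, ((((CosetEnum.val T.pm u) ^ t) (T.sta s h)).1 : ℕ) < i) ∨
        ((((CosetEnum.val T.pm u) ^ k) (T.sta s h)).1.1 = i ∧ (((CosetEnum.val T.pm u) ^ k) (T.sta s h)).2 = (c : ZMod n)) := by
  induction k with
  | zero =>
    intro s h hr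
    right
    obtain ⟨h2, h3⟩ := relV_zero hr
    have e : ((CosetEnum.val T.pm u) ^ 0) (T.sta s h) = T.sta s h := rfl
    rw [e]
    refine ⟨h2, ?_⟩
    have e2 : (T.sta s h).2 = ((s / 131072 : ℕ) : ZMod n) := rfl
    rw [e2, ← h3, ZMod.natCast_mod]
  | succ k ih =>
    intro s h hr
    obtain ⟨h2, h3⟩ := T.walk u hu s h
    rcases relV_succ hr with h1 | h1
    · left
      refine ⟨1, ?_⟩
      rw [pow_one, h3]
      exact h1
    · rcases ih (wk P u s) h2 h1 with ⟨t, ht⟩ | h4
      · left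
        refine ⟨t + 1, ?_⟩
        rw [pow_succ, Equiv.Perm.mul_apply, h3]
        exact ht
      · right
        rw [pow_succ, Equiv.Perm.mul_apply, h3]
        exact h4

theorem VOK.rel {p : List ℕ × ℕ × ℕ} (hp : p ∈ RL) :
    (CosetEnum.val T.pm p.1) ^ p.2.1 = (zt P n) ^ p.2.2 := by
  have h := T.st
  simp only [letsB, Bool.and_eq_true, List.all_eq_true] at h
  obtain ⟨⟨⟨_, _⟩, _⟩, h4⟩ := h
  have hu : ∀ x ∈ p.1, x ∈ lets := by
    intro x hx
    have h5 := h4 (p.1, p.2.1) (List.mem_map.2 ⟨p, hp, rfl⟩)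
    simp only [wOK, List.all_eq_true] at h5
    exact T.mem_iff.2 (h5 x hx)
  have hrel : ∀ i < P.m, relV P n p.1 p.2.2 i p.2.1 i = true := by
    intro i hi
    have h1 := (sel_true_left (T.cov i (Nat.zero_le _) hi)).2
    exact rec_rel _ h1 p hp
  set f := (CosetEnum.val T.pm p.1) with hf
  have hfz : Commute f (zt P n) := T.comm_val p.1
  have key : ∀ i : ℕ, ∀ (hi : i < P.m) (s : ZMod n), (f ^ p.2.1) (⟨i, hi⟩, s) = ((zt P n) ^ p.2.2) (⟨i, hi⟩, s) := by
    intro i
    induction i using Nat.strong_induction_on with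
    | _ i ih =>
      intro hi s
      have hcs : Commute (f ^ p.2.1) ((zt P n) ^ s.val) := (hfz.pow_pow _ _)
      have hn : NeZero n := ⟨T.pos.ne'⟩
      have e0 : ((zt P n) ^ s.val) (⟨i, hi⟩, 0) = (⟨i, hi⟩, s) := by
        rw [zt_pow, ZMod.natCast_val, ZMod.cast_id', id, zero_add]
      have him : i % 131072 = i := Nat.mod_eq_of_lt (hi.trans_le T.small)
      have hid : i / 131072 = 0 := Nat.div_eq_of_lt (hi.trans_le T.small)
      have hst : T.sta i (by rw [him]; exact hi) = (⟨i, hi⟩, 0) := by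
        refine Prod.ext (Fin.ext him) ?_
        show ((i / 131072 : ℕ) : ZMod n) = 0
        rw [hid, Nat.cast_zero]
      have goal0 : (f ^ p.2.1) (⟨i, hi⟩, 0) = ((zt P n) ^ p.2.2) (⟨i, hi⟩, 0) := by
        have h7 := T.iter hu p.2.1 i (by rw [him]; exact hi) (hrel i hi)
        rw [hst] at h7
        have hfin : (((f ^ p.2.1) (⟨i, hi⟩, 0)).1.1 = i ∧ ((f ^ p.2.1) (⟨i, hi⟩, 0)).2 = (p.2.2 : ZMod n)) →
            (f ^ p.2.1) (⟨i, hi⟩, 0) = ((zt P n) ^ p.2.2) (⟨i, hi⟩, 0) := by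
          rintro ⟨h8, h9⟩
          rw [zt_pow]
          refine Prod.ext (Fin.ext h8) ?_
          rw [h9, zero_add]
        rcases h7 with ⟨t, ht⟩ | h8
        · set b := (f ^ t) ((⟨i, hi⟩, 0) : Fin P.m × ZMod n) with hb
          have h9 := ih b.1.1 ht b.1.2 b.2
          have h10 : (f ^ p.2.1) b = ((zt P n) ^ p.2.2) b := h9
          have c1 : Commute (f ^ t) (f ^ p.2.1) := Commute.pow_pow_self _ _ _
          have c2 : Commute (f ^ t) ((zt P n) ^ p.2.2) := hfz.pow_pow _ _
          apply (f ^ t).injective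
          rw [← Equiv.Perm.mul_apply, ← Equiv.Perm.mul_apply, c1.eq, c2.eq, Equiv.Perm.mul_apply, Equiv.Perm.mul_apply,
            ← hb]
          exact h10
        · exact hfin h8
      rw [← e0, ← Equiv.Perm.mul_apply, ← Equiv.Perm.mul_apply, hcs.eq, Equiv.Perm.mul_apply, goal0,
        ← Equiv.Perm.mul_apply, ← pow_add, ← pow_add, add_comm]
  ext1 a
  exact key a.1.1 a.1.2 a.2

end

end Cfsg.Agent.MRel.Volt
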